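/-
Jordan's class equation argument, part 1: beams.
-/
import Cfsg.Agent.Lead.CF1
import Cfsg.Agent.H15.Syl

set_option autoImplicit false
set_option linter.unusedSectionVars false
open H17 Cfsg H15 CF Subgroup
open scoped Classical

namespace H21.BF

variable {G : Type*} [Group G] [Finite G] {p d c M M' E : ℕ} {A B F F' X : Subgroup G} {g h : G}

theorem dvd_sum_act {H α : Type*} [Group H] [Finite H] (act : H → α → α) (h1 : ∀ x, act 1 x = x)
    (hm : ∀ a b x, act (a * b) x = act a (act b x)) (X : Finset α) (hX : ∀ a, ∀ x ∈ X, act a x ∈ X)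
    (u : α → ℕ) (hu : ∀ a, ∀ x ∈ X, u (act a x) = u x)
    (h : ∀ x ∈ X, Nat.card {a // act a x = x} ∣ u x) : Nat.card H ∣ ∑ x ∈ X, u x := by
  letI : MulAction H α := { smul := act, one_smul := h1, mul_smul := hm }
  rw [← Finset.sum_fiberwise_of_maps_to (t := X.image (MulAction.orbit H)) (g := MulAction.orbit H)
    fun x hx => Finset.mem_image_of_mem _ hx]
  refine Finset.dvd_sum fun o ho => ?_
  obtain ⟨x, hx, rfl⟩ := Finset.mem_image.1 ho
  have e : (X.filter fun y => MulAction.orbit H y = MulAction.orbit H x : Set α) =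
      MulAction.orbit H x := by
    ext y
    simp only [Finset.coe_filter, Set.mem_ofPred_eq, MulAction.orbit_eq_iff]
    exact and_iff_right_of_imp fun ⟨a, e⟩ => e ▸ hX a x hx
  rw [Finset.sum_congr rfl (g := fun _ => u x) fun y hy => ?_, Finset.sum_const, smul_eq_mul,
    ← Set.ncard_coe_finset, e, ← MulAction.index_stabilizer, ← (MulAction.stabilizer H x).index_mul_card]
  · exact mul_dvd_mul_left _ (h x hx)
  · obtain ⟨a, rfl⟩ := e.le hy
    exact hu a x hx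

theorem relIndex_cent1_le (N : Subgroup G) (f : G) (S : Finset G)
    (h : ∀ n ∈ N, n * f * n⁻¹ ∈ S) : 𝒞₁(f).relIndex N ≤ S.card := by
  rw [← Nat.card_eq_finsetCard]
  refine Nat.card_le_card_of_injective (fun q : N ⧸ 𝒞₁(f).subgroupOf N =>
    (⟨_, h _ q.out.2⟩ : S)) fun a b e => ?_
  rw [← a.out_eq, ← b.out_eq]
  refine QuotientGroup.eq.2 (mem_cent1.2 ?_)
  have := congrArg (fun x : S => (a.out : G)⁻¹ * x.1 * b.out) e
  simpa [mul_assoc] using this.symm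

theorem card_dvd_of_idx (h : A ≤ B) (hi : A.relIndex B ≤ E) :
    Nat.card B ∣ E.factorial * Nat.card A := by
  rw [← CF.card_mul_relIndex h, mul_comm]
  exact mul_dvd_mul_right (Nat.dvd_factorial (H15.relIndex_pos _ _) hi) _

theorem exists_ppart (hp : p.Prime) : ∃ N, ∀ g : G, H1.IsPiNat {p}ᶜ (orderOf (g ^ N)) ∧
    (H1.IsPiNat {p}ᶜ (orderOf g) → g ^ N = g) := by
  obtain ⟨k, m, hm, e⟩ := Nat.exists_eq_pow_mul_and_not_dvd (Nat.card_pos (α := G)).ne' p hp.ne_one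
  have hc := ((hp.coprime_iff_not_dvd.2 hm).pow_left k)
  obtain ⟨N, h1, h2⟩ := Nat.chineseRemainder hc 0 1
  refine ⟨N, fun g => ⟨fun q hq h => ?_, fun h => ?_⟩⟩
  · rintro (rfl : q = p)
    obtain ⟨j, rfl⟩ := (Nat.modEq_zero_iff_dvd.1 h1)
    refine hm (h.trans (orderOf_dvd_of_pow_eq_one ?_))
    rw [← pow_mul, mul_right_comm, ← e, pow_mul, pow_card_eq_one', one_pow]
  · have : orderOf g ∣ m := ((hp.coprime_iff_not_dvd.2 fun a => h p hp a rfl).pow_left k).symm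
      |>.dvd_of_dvd_mul_left (e ▸ orderOf_dvd_natCard g)
    rw [pow_eq_pow_iff_modEq.2 (h2.of_dvd this), pow_one]

/-- abelian of order prime to `p` -/
def Ab (p : ℕ) (A : Subgroup G) : Prop := A ≤ 𝒞(A) ∧ IsPiSubgroup {p}ᶜ A

theorem Ab.of_le (h : Ab p A) (hB : B ≤ A) : Ab p B :=
  ⟨hB.trans (h.1.trans (cent_anti hB)), h.2.of_le hB⟩

theorem Ab.sup (h : Ab p A) (h' : Ab p B) (hc : A ≤ 𝒞(B)) : Ab p (A ⊔ B) :=
  ⟨le_cent_self (comm_sup (comm_of_le_cent h.1) (comm_of_le_cent h'.1) hc),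
    h.2.sup_of_le_norm h'.2 (le_norm_of_le_cent hc)⟩

theorem Ab.cj (h : Ab p A) (x : G) : Ab p cj(x, A) := ⟨cj_le_cent h.1, h.2.cj x⟩

theorem ab_zp (h : H1.IsPiNat {p}ᶜ (orderOf g)) : Ab p (zpowers g) :=
  ⟨le_cent_self inferInstance, isPi_zpowers.2 h⟩

/-- `X` has a large abelian subgroup -/
def Gd (p c : ℕ) (X : Subgroup G) : Prop := ∃ A, Ab p A ∧ A ≤ X ∧ A.relIndex X ≤ c

theorem Ab.gd (h : Ab p A) (hc : 1 ≤ c) : Gd p c A := ⟨A, h, le_rfl, (relIndex_self A).trans_le hc⟩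

theorem Gd.one_le (h : Gd p c X) : 1 ≤ c :=
  let ⟨_, _, _, a⟩ := h
  (H15.relIndex_pos _ _).trans_le a

/-- the axioms of the argument -/
structure JS (p d c : ℕ) (G : Type*) [Group G] [Finite G] : Prop where
  pr : p.Prime
  root : ∀ A : Subgroup G, Ab p A → ∃ R : Finset (Subgroup G), R.card ≤ d ∧
    ∀ B B' : Subgroup G, B ≤ A → B' ≤ A → (∀ K ∈ R, B ≤ K → B' ≤ K) → 𝒞(B) ≤ 𝒞(B')
  conj : ∀ A : Subgroup G, Ab p A → ∀ a ∈ A, (fs {b | b ∈ A ∧ IsConj a b}).card ≤ d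
  cent : ∀ g, g ∉ center G → Gd p c 𝒞₁(g)
  z : Ab p (center G)

/-- beams -/
def Beam (p M : ℕ) (F : Subgroup G) : Prop :=
  Ab p F ∧ ∀ B ≤ F, B.relIndex F ≤ M → 𝒞(B) ≤ 𝒞(F)

theorem Beam.mono (h : Beam p M' F) (hM : M ≤ M') : Beam p M F :=
  ⟨h.1, fun B a b => h.2 B a (b.trans hM)⟩

theorem Beam.inf (h : Beam p M F) (hF : F ≤ X) (hA : A.relIndex X ≤ M) : 𝒞(F ⊓ A) ≤ 𝒞(F) :=
  h.2 _ inf_le_left ((inf_relIndex_left F A).trans_le
    ((relIndex_le_of_le_right hF (H15.relIndex_pos _ _).ne').trans hA))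

theorem Beam.sup (h : Beam p M F) (h' : Beam p M F') (hc : F ≤ 𝒞(F')) : Beam p M (F ⊔ F') :=
  ⟨h.1.sup h'.1 hc, fun B _ b => (cent_sup F F').symm ▸ le_inf
    ((cent_anti inf_le_right).trans (h.inf le_sup_left b))
    ((cent_anti inf_le_right).trans (h'.inf le_sup_right b))⟩

theorem Beam.cj (h : Beam p M F) (x : G) : Beam p M cj(x, F) := ⟨h.1.cj x, fun B a b => by
  have := cj_mono (g := x) (h.2 _ (le_cj_iff.1 a) (by rwa [← relIndex_cj x, cj_cj_inv]))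
  rwa [cj_cent, cj_cent, cj_cj_inv] at this⟩

theorem beam_of_le (h : Ab p F) (hF : F ≤ center G) : Beam p M F :=
  ⟨h, fun _ _ _ => le_top.trans (cent_comm (hF.trans cent_top.ge))⟩

/-- the largest beam in `X` -/
def core (p M : ℕ) (X : Subgroup G) : Subgroup G := sSup {F | Beam p M F ∧ F ≤ X}

theorem core_le : core p M X ≤ X := sSup_le fun _ h => h.2

theorem Beam.le_core (h : Beam p M F) (hF : F ≤ X) : F ≤ core p M X := le_sSup ⟨h, hF⟩

theorem core_mono (h : A ≤ B) : core p M A ≤ core p M B := sSup_le_sSup fun _ a => ⟨a.1, a.2.trans h⟩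

theorem core_anti (h : M ≤ M') : core p M' X ≤ core p M X :=
  sSup_le_sSup fun _ a => ⟨a.1.mono h, a.2⟩

theorem Beam.core_eq (h : Beam p M F) : core p M F = F := le_antisymm core_le (h.le_core le_rfl)

theorem core_cj (x : G) : core p M cj(x, X) = cj(x, core p M X) := by
  have key : ∀ (x : G) (X : Subgroup G), core p M cj(x, X) ≤ cj(x, core p M X) := fun x X =>
    sSup_le fun F h => le_cj_iff.2 ((h.1.cj _).le_core (le_cj_iff.1 h.2))
  refine le_antisymm (key x X) (cj_le_iff.2 ?_)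
  simpa only [cj_inv_cj] using key x⁻¹ cj(x, X)

theorem Gd.beam (h : Gd p c X) (hc : c ≤ M) : Beam p M (core p M X) := by
  obtain ⟨A, a1, a2, a3⟩ := h
  obtain ⟨T, ⟨t1, t2⟩, t3⟩ := exists_maximal_of_wellFoundedGT (fun F => Beam p M F ∧ F ≤ X)
    ⟨⊥, beam_of_le (a1.of_le bot_le) bot_le, bot_le⟩
  rw [show core p M X = T from le_antisymm (sSup_le fun F ⟨f1, f2⟩ => le_sup_left.trans
    (t3 ⟨f1.sup t1 ?_, sup_le f2 t2⟩ le_sup_right)) (t1.le_core t2)]
  · exact t1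
  · exact (cent_comm ((inf_le_right.trans (a1.1.trans (cent_anti inf_le_right))).trans
      (f1.inf f2 (a3.trans hc)))).trans (t1.inf t2 (a3.trans hc))

variable (hJ : JS p d c G)
include hJ

theorem JS.one_le : 1 ≤ d :=
  le_trans (Finset.card_pos.2 ⟨1, by simp⟩) (hJ.conj _ hJ.z 1 (one_mem _))

theorem JS.exists_beam (hM : 1 ≤ M) (hA : Ab p A) :
    ∃ F, Beam p M F ∧ F ≤ A ∧ F.relIndex A ≤ M ^ d := by
  obtain ⟨R, r1, r2⟩ := hJ.root A hA
  suffices ∀ k, ∀ B ≤ A, (R.filter fun K => ¬ B ≤ K).card ≤ k →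
      ∃ F, Beam p M F ∧ F ≤ B ∧ F.relIndex B ≤ M ^ k from
    this d A le_rfl ((Finset.card_filter_le _ _).trans r1)
  intro k
  induction k with
  | zero => exact fun B a b => ⟨B, ⟨hA.of_le a, fun B' c _ => r2 _ _ (c.trans a) a fun K e _ =>
      not_not.1 (Finset.filter_eq_empty_iff.1 (Finset.card_eq_zero.1 (Nat.le_zero.1 b)) e)⟩, le_rfl,
      (relIndex_self B).le⟩
  | succ k ih =>
    intro B a b
    by_cases h : Beam p M B
    · exact ⟨B, h, le_rfl, (relIndex_self B).trans_le (Nat.one_le_pow _ _ hM)⟩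
    obtain ⟨B', b1, b2, b3⟩ : ∃ B' ≤ B, B'.relIndex B ≤ M ∧ ¬ 𝒞(B') ≤ 𝒞(B) := by
      by_contra! e
      exact h ⟨hA.of_le a, e⟩
    obtain ⟨K, k1, k2, k3⟩ : ∃ K ∈ R, B' ≤ K ∧ ¬ B ≤ K := by
      by_contra! e
      exact b3 (r2 _ _ (b1.trans a) a e)
    have : (R.filter fun K => ¬ B' ≤ K) ⊂ R.filter fun K => ¬ B ≤ K :=
      ⟨Finset.monotone_filter_right _ fun K _ x y => x (b1.trans y), fun e =>
        (Finset.mem_filter.1 (e (Finset.mem_filter.2 ⟨k1, k3⟩))).2 k2⟩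
    obtain ⟨F, f1, f2, f3⟩ := ih B' (b1.trans a) (Nat.le_of_lt_succ ((Finset.card_lt_card this).trans_le b))
    exact ⟨F, f1, f2.trans b1, relIndex_mul_relIndex F B' B f2 b1 ▸ pow_succ M k ▸
      Nat.mul_le_mul f3 b2⟩

theorem JS.core_idx (h : Gd p c X) (hM : 1 ≤ M) : (core p M X).relIndex X ≤ M ^ d * c := by
  obtain ⟨A, a1, a2, a3⟩ := h
  obtain ⟨F, f1, f2, f3⟩ := hJ.exists_beam hM a1
  exact (relIndex_le_of_le_left (f1.le_core (f2.trans a2)) (H15.relIndex_pos _ _).ne').trans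
    (relIndex_mul_relIndex F A X f2 a2 ▸ Nat.mul_le_mul f3 a3)

omit hJ in
theorem card_coset_le (K : Subgroup G) (y : G) :
    (fs {x | x ∈ F ∧ x * y ∈ K}).card ≤ Nat.card ↥(F ⊓ K) := by
  rcases (fs {x | x ∈ F ∧ x * y ∈ K}).eq_empty_or_nonempty with e | ⟨z, hz⟩
  · simp [e]
  rw [← card_fs_sub]
  refine Finset.card_le_card_of_injOn (· * z⁻¹) (fun x hx => ?_) fun _ _ _ _ => mul_right_cancel
  obtain ⟨a, b⟩ := mem_fs.1 hx
  obtain ⟨a', b'⟩ := mem_fs.1 hz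
  exact mem_fs.2 ⟨F.mul_mem a (F.inv_mem a'), by simpa [mul_assoc] using K.mul_mem b (K.inv_mem b')⟩

omit hJ in
theorem exists_le_all (hE : 1 ≤ E) (R : Finset (Subgroup G)) (hR : R.card ≤ d) :
    ∃ B ≤ F, B.relIndex F ≤ E ^ d ∧ ∀ K ∈ R, K.relIndex F ≤ E → B ≤ K := by
  induction R using Finset.induction_on generalizing d with
  | empty => exact ⟨F, le_rfl, (relIndex_self F).trans_le (Nat.one_le_pow _ _ hE), by simp⟩
  | insert K R a ih =>
    rw [Finset.card_insert_of_notMem a] at hR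
    obtain ⟨B, b1, b2, b3⟩ := ih le_rfl
    by_cases h : K.relIndex F ≤ E
    · exact ⟨B ⊓ K, inf_le_left.trans b1, relIndex_inf_le.trans ((Nat.mul_le_mul b2 h).trans
        (pow_succ E _ ▸ Nat.pow_le_pow_right hE hR)), (Finset.forall_mem_insert _ _ _).2
        ⟨fun _ => inf_le_right, fun L x y => inf_le_left.trans (b3 L x y)⟩⟩
    · exact ⟨B, b1, b2.trans (Nat.pow_le_pow_right hE (by omega)), (Finset.forall_mem_insert _ _ _).2
        ⟨fun x => (h x).elim, b3⟩⟩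

theorem JS.gen (hE : 1 ≤ E) (hF : Beam p (E ^ d) F) (hh : h ∈ 𝒞(F)) :
    E * (fs {x | x ∈ F ∧ ¬ 𝒞₁(x * h) ≤ 𝒞(F)}).card ≤ d * Nat.card F := by
  obtain ⟨N, hN⟩ := exists_ppart (G := G) hJ.pr
  obtain ⟨R, r1, r2⟩ := hJ.root _ (hF.1.sup (ab_zp (hN h).1)
    (cent_comm (zpowers_le.2 (pow_mem hh N))))
  obtain ⟨B, b1, b2, b3⟩ := exists_le_all (F := F) hE R r1
  have h2 : fs {x | x ∈ F ∧ ¬ 𝒞₁(x * h) ≤ 𝒞(F)} ⊆ (R.filter fun K => E < K.relIndex F).biUnion
      fun K => fs {x | x ∈ F ∧ x * h ^ N ∈ K} := fun x hx => by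
    obtain ⟨a, b⟩ := mem_fs.1 hx
    by_contra e
    simp only [Finset.mem_biUnion, Finset.mem_filter, mem_fs, Set.mem_ofPred_eq, not_exists, not_and,
      and_imp] at e
    have h3 : 𝒞₁(x * h) ≤ 𝒞₁(x * h ^ N) := by
      have : x * h ^ N = (x * h) ^ N := by
        rw [(show Commute x h from mem_cent.1 hh x a).mul_pow, (hN x).2 (hF.1.2.orderOf a)]
      exact this ▸ le_cent1_iff.2 (pow_mem (le_cent1_iff.1 le_rfl) N)
    have h4 := r2 (zpowers (x * h ^ N)) B (zpowers_le.2 (mul_mem_sup a (mem_zpowers _)))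
      (b1.trans le_sup_left) fun K k1 k2 => b3 K k1 (not_lt.1 fun l => e K k1 l a (k2 (mem_zpowers _)))
    rw [cent_zpowers] at h4
    exact b (h3.trans (h4.trans (hF.2 B b1 b2)))
  refine (Nat.mul_le_mul_left E ((Finset.card_le_card h2).trans Finset.card_biUnion_le)).trans ?_
  rw [Finset.mul_sum]
  refine (Finset.sum_le_card_nsmul _ _ (Nat.card F) fun K k => ?_).trans
    (Nat.mul_le_mul_right _ ((Finset.card_filter_le _ _).trans r1))
  rw [← CF.card_mul_relIndex (inf_le_left : F ⊓ K ≤ F), inf_relIndex_left, mul_comm _ (K.relIndex F)]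
  exact Nat.mul_le_mul (Finset.mem_filter.1 k).2.le (card_coset_le K _)

theorem JS.exists_gen (hF : Beam p ((2 * d) ^ d) F) (h : ¬ F ≤ center G) :
    ∃ f ∈ F, f ∉ center G ∧ 𝒞₁(f) = 𝒞(F) := by
  have h1 := hJ.gen (by have := hJ.one_le; omega) hF (one_mem _)
  have h2 : 0 < Nat.card F := Nat.card_pos
  obtain ⟨f, a, b⟩ := Finset.exists_mem_notMem_of_card_lt_card
    (show (fs {x | x ∈ F ∧ ¬ 𝒞₁(x * 1) ≤ 𝒞(F)}).card < (fs (F : Set G)).card by
      rw [card_fs_sub]; have := hJ.one_le; nlinarith)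
  replace a : f ∈ F := mem_fs.1 a
  have e : 𝒞₁(f) ≤ 𝒞(F) := by simpa [a] using b
  exact ⟨f, a, fun z => h ((cent_comm (le_trans (le_cent1_iff.2 (cent_top.ge z)) e)).trans cent_top.le),
    le_antisymm e (cent_le_cent1 a)⟩

end H21.BF
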