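/-
Jordan's class equation argument, part 2: counting.
-/
import Cfsg.Agent.H21.BF1

set_option autoImplicit false
set_option linter.unusedSectionVars false
open H17 Cfsg H15 CF Subgroup
open scoped Classical

namespace H21.BF

variable {G : Type*} [Group G] [Finite G] {p d c M M' E : ℕ} {A B F F' X : Subgroup G} {g h t : G}

/-- elements attached to the beam `F` -/
noncomputable def SS (p M : ℕ) (F : Subgroup G) : Finset G :=
  fs {g | g ∉ center G ∧ core p M 𝒞₁(g) = F}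

/-- the union of cosets approximating `SS` -/
noncomputable def UU (p M : ℕ) (F : Subgroup G) : Finset G :=
  fs {h | h ∈ 𝒞(F) ∧ core p M (core p M 𝒞(F) ⊓ 𝒞₁(h)) = F}

/-- complete noncentral beams -/
noncomputable def FF (p M : ℕ) (G : Type*) [Group G] [Finite G] : Finset (Subgroup G) :=
  fs {F | ¬ F ≤ center G ∧ ∃ g, g ∉ center G ∧ core p M 𝒞₁(g) = F}

theorem mem_SS : g ∈ SS p M F ↔ g ∉ center G ∧ core p M 𝒞₁(g) = F := mem_fs
theorem mem_UU : h ∈ UU p M F ↔ h ∈ 𝒞(F) ∧ core p M (core p M 𝒞(F) ⊓ 𝒞₁(h)) = F := mem_fs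
theorem mem_FF : F ∈ FF p M G ↔ ¬ F ≤ center G ∧ ∃ g, g ∉ center G ∧ core p M 𝒞₁(g) = F := mem_fs

theorem conj_notMem (h : g ∉ center G) (x : G) : x * g * x⁻¹ ∉ center G := fun a =>
  h (by simpa [mul_assoc] using Normal.conj_mem inferInstance _ a x⁻¹)

theorem cj_SS (h : g ∈ SS p M F) (x : G) : x * g * x⁻¹ ∈ SS p M cj(x, F) :=
  mem_SS.2 ⟨conj_notMem (mem_SS.1 h).1 x, by rw [← cj_cent1, core_cj, (mem_SS.1 h).2]⟩

theorem cj_FF (h : F ∈ FF p M G) (x : G) : cj(x, F) ∈ FF p M G :=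
  let ⟨a, _, b⟩ := mem_FF.1 h
  mem_FF.2 ⟨fun e => a ((cj_le_iff.1 e).trans (cj_of_mem_norm (normalizer_eq_top (center G) ▸ mem_top _)).le), _,
    mem_SS.1 (cj_SS (mem_SS.2 b) x)⟩

theorem card_UU_cj (x : G) : (UU p M cj(x, F)).card = (UU p M F).card := by
  have key : ∀ (x : G) (F : Subgroup G), (UU p M F).card ≤ (UU p M cj(x, F)).card := fun x F =>
    Finset.card_le_card_of_injOn (fun h => x * h * x⁻¹) (fun h a => mem_UU.2 ⟨by
      rw [← cj_cent]; exact conj_mem_cj (mem_UU.1 a).1, by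
      rw [← cj_cent, core_cj, ← cj_cent1, ← cj_inf, core_cj, (mem_UU.1 a).2]⟩)
      fun _ _ _ _ e => by simpa using e
  exact le_antisymm (by simpa only [cj_inv_cj] using key x⁻¹ cj(x, F)) (key x F)

variable (hJ : JS p d c G) (hc : c ≤ M) (hM : (2 * d) ^ d ≤ M)
include hJ hc hM

theorem JS.one_le' : 1 ≤ M := (Nat.one_le_pow _ _ (by have := hJ.one_le; omega)).trans hM

variable (hF : F ∈ FF p M G)
include hF

theorem JS.beam : Beam p M F :=
  let ⟨_, g, a, b⟩ := mem_FF.1 hF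
  b ▸ (hJ.cent g a).beam hc

theorem JS.gen' : ∃ f ∈ F, f ∉ center G ∧ 𝒞₁(f) = 𝒞(F) :=
  hJ.exists_gen ((hJ.beam hc hM hF).mono hM) (mem_FF.1 hF).1

theorem JS.gd : Gd p c 𝒞(F) :=
  let ⟨f, _, a, b⟩ := hJ.gen' hc hM hF
  b ▸ hJ.cent f a

theorem JS.le_T : F ≤ core p M 𝒞(F) := (hJ.beam hc hM hF).le_core (hJ.beam hc hM hF).1.1

theorem JS.ab_T : Ab p (core p M 𝒞(F)) := ((hJ.gd hc hM hF).beam hc).1

theorem JS.nidx : (core p M 𝒞(F)).relIndex 𝒩(F) ≤ M ^ d * c * d := by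
  obtain ⟨f, a, -, b⟩ := hJ.gen' hc hM hF
  rw [← relIndex_mul_relIndex _ _ _ core_le (cent_le_norm F)]
  refine Nat.mul_le_mul (hJ.core_idx (hJ.gd hc hM hF) (hJ.one_le' hc hM)) (b ▸ le_trans
    (relIndex_cent1_le _ f _ fun n hn => ?_) (hJ.conj F (hJ.beam hc hM hF).1 f a))
  exact mem_fs.2 ⟨(mem_normalizer_iff.1 hn f).1 a, isConj_iff.2 ⟨n, rfl⟩⟩

theorem JS.SS_sub : SS p M F ⊆ UU p M F := fun g a => by
  obtain ⟨-, b⟩ := mem_SS.1 a
  have e : F ≤ 𝒞₁(g) := b ▸ core_le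
  exact mem_UU.2 ⟨le_cent1_iff.1 e, le_antisymm ((core_mono inf_le_right).trans b.le)
    ((hJ.beam hc hM hF).le_core (le_inf (hJ.le_T hc hM hF) e))⟩

theorem JS.mul_UU (ht : t ∈ core p M 𝒞(F)) (a : h ∈ UU p M F) : t * h ∈ UU p M F := by
  refine mem_UU.2 ⟨mul_mem (core_le ht) (mem_UU.1 a).1, Eq.trans (congrArg _ ?_) (mem_UU.1 a).2⟩
  ext x
  refine and_congr_right fun hx => ?_
  have := mem_cent.1 ((hJ.ab_T hc hM hF).1 ht) x hx
  refine mem_cent1.trans (Iff.trans ?_ mem_cent1.symm)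
  rw [← mul_assoc, this, mul_assoc, mul_assoc, mul_right_inj]

theorem JS.dvd_UU : Nat.card (core p M 𝒞(F)) ∣ (UU p M F).card := by
  have := dvd_sum_act (H := core p M 𝒞(F)) (fun t (h : G) => t * h) (by simp) (by simp [mul_assoc])
    (UU p M F) (fun t h => hJ.mul_UU hc hM hF t.2) (fun _ => 1) (fun _ _ _ => rfl) fun x _ => by
      simp
  simpa using this

theorem JS.mem_SS_of (a : h ∈ UU p M F) (b : 𝒞₁(h) ≤ 𝒞(F)) : h ∈ SS p M F := by
  have z : h ∉ center G := fun z => (mem_FF.1 hF).1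
    ((cent_comm (le_trans (le_cent1_iff.2 (cent_top.ge z)) b)).trans cent_top.le)
  refine mem_SS.2 ⟨z, le_antisymm (le_trans ?_ (mem_UU.1 a).2.le)
    ((hJ.beam hc hM hF).le_core (le_cent1_iff.2 (mem_UU.1 a).1))⟩
  exact ((hJ.cent h z).beam hc).le_core (le_inf (core_mono b) core_le)

theorem JS.bad (hE : 1 ≤ E) (hB : Beam p (E ^ d) F) :
    E * (UU p M F \ SS p M F).card ≤ d * (UU p M F).card := by
  have h1 : ∀ x ∈ fs (F : Set G), (UU p M F \ SS p M F).card ≤
      ((UU p M F).filter fun h => ¬ 𝒞₁(x * h) ≤ 𝒞(F)).card := fun x hx =>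
    Finset.card_le_card_of_injOn (x⁻¹ * ·) (fun h a => by
      obtain ⟨a, b⟩ := Finset.mem_sdiff.1 a
      refine Finset.mem_filter.2 ⟨hJ.mul_UU hc hM hF (inv_mem (hJ.le_T hc hM hF (mem_fs.1 hx))) a, ?_⟩
      rw [mul_inv_cancel_left]
      exact fun e => b (hJ.mem_SS_of hc hM hF a e)) fun _ _ _ _ => mul_left_cancel
  have h2 := Finset.card_nsmul_le_sum _ _ _ h1
  simp only [Finset.card_filter] at h2
  rw [Finset.sum_comm, card_fs_sub, smul_eq_mul] at h2
  refine Nat.le_of_mul_le_mul_left ?_ (Nat.card_pos (α := F))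
  rw [mul_left_comm]
  refine (Nat.mul_le_mul_left E h2).trans ?_
  rw [Finset.mul_sum]
  refine (Finset.sum_le_card_nsmul _ _ (d * Nat.card F) fun h a => ?_).trans_eq (by simp; ring)
  refine le_trans (le_of_eq ?_) (hJ.gen hE hB (mem_UU.1 a).1)
  rw [← Finset.card_filter]
  congr 2
  ext x
  simp

theorem JS.UU_le : (UU p M F).card ≤ 2 * (SS p M F).card := by
  have h1 := hJ.one_le
  have h2 := hJ.bad hc hM hF (by omega) ((hJ.beam hc hM hF).mono hM)
  have h3 := Finset.card_sdiff_add_card_eq_card (hJ.SS_sub hc hM hF)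
  nlinarith

theorem JS.dens (P : Subgroup G → Prop) (hP : ∀ x, P cj(x, F)) :
    Nat.card G ≤ 2 * (M ^ d * c * d) * (fs {g | g ∉ center G ∧ P (core p M 𝒞₁(g))}).card := by
  obtain ⟨-, g, hg⟩ := mem_FF.1 hF
  have h0 : 0 < (SS p M F).card := Finset.card_pos.2 ⟨g, mem_SS.2 hg⟩
  have h1 : Nat.card 𝒩(F) ≤ 2 * (M ^ d * c * d) * (SS p M F).card := by
    rw [← CF.card_mul_relIndex (core_le.trans (cent_le_norm F) : core p M _ ≤ _)]
    exact (Nat.mul_le_mul ((Nat.le_of_dvd (h0.trans_le (Finset.card_le_card (hJ.SS_sub hc hM hF)))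
      (hJ.dvd_UU hc hM hF)).trans (hJ.UU_le hc hM hF)) (hJ.nidx hc hM hF)).trans_eq (by ring)
  have h2 := Finset.card_le_mul_card_image_of_maps_to (s := fs (Set.univ : Set G) ×ˢ SS p M F)
    (t := fs {g | g ∉ center G ∧ P (core p M 𝒞₁(g))}) (f := fun x => x.1 * x.2 * x.1⁻¹)
    (fun x hx => by
      obtain ⟨a, b⟩ := mem_SS.1 (cj_SS (Finset.mem_product.1 hx).2 x.1)
      exact mem_fs.2 ⟨a, b ▸ hP _⟩) (Nat.card 𝒩(F)) fun w _ => by
      rcases Finset.eq_empty_or_nonempty _ with e | ⟨y, hy⟩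
      · exact (congrArg Finset.card e).trans_le (Nat.zero_le _)
      rw [← card_fs_sub]
      have key : ∀ x ∈ (fs (Set.univ : Set G) ×ˢ SS p M F).filter fun x => x.1 * x.2 * x.1⁻¹ = w,
          cj(x.1, F) = core p M 𝒞₁(w) := fun x hx => by
        obtain ⟨a, b⟩ := Finset.mem_filter.1 hx
        rw [← b, (mem_SS.1 (cj_SS (Finset.mem_product.1 a).2 x.1)).2]
      refine Finset.card_le_card_of_injOn (fun x => y.1⁻¹ * x.1) (fun x hx => mem_fs.2
        (mem_norm_iff_cj.2 (by rw [cj_mul, key x hx, ← key y hy, cj_inv_cj]))) fun x a z b e => ?_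
      have e1 : x.1 = z.1 := mul_left_cancel e
      have := (Finset.mem_filter.1 a).2.trans (Finset.mem_filter.1 b).2.symm
      rw [e1] at this
      exact Prod.ext e1 (by simpa using this)
  rw [Finset.card_product, card_fs, Set.ncard_univ] at h2
  refine Nat.le_of_mul_le_mul_right (h2.trans ((Nat.mul_le_mul_right _ h1).trans_eq (by ring))) h0

omit hF

theorem JS.scale (s : ℕ → ℕ) (hs : Monotone s) (h0 : s 0 = M) : ∃ k ≤ 2 * (M ^ d * c * d) * d,
    ∀ g, g ∉ center G → Beam p (s (k + 1)) (core p (s k) 𝒞₁(g)) := by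
  by_contra! h
  set L := 2 * (M ^ d * c * d) * d + 1 with hL
  have hb : ∀ k g, g ∉ center G → Beam p (s k) (core p (s k) 𝒞₁(g)) := fun k g a =>
    (hJ.cent g a).beam (hc.trans (h0.ge.trans (hs (Nat.zero_le k))))
  have hcc : ∀ k g, g ∉ center G → core p (s k) (core p M 𝒞₁(g)) = core p (s k) 𝒞₁(g) :=
    fun k g a => le_antisymm (core_mono core_le)
      ((hb k g a).le_core (core_anti (h0.ge.trans (hs (Nat.zero_le k)))))
  have h1 : ∀ k ∈ Finset.range L, Nat.card G ≤ 2 * (M ^ d * c * d) *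
      ((fs {g | g ∉ center G}).filter fun g => ¬ Beam p (s (k + 1)) (core p (s k) 𝒞₁(g))).card :=
    fun k hk => by
      obtain ⟨g, a, b⟩ := h k (Nat.le_of_lt_succ (Finset.mem_range.1 hk))
      refine (hJ.dens hc hM (mem_FF.2 ⟨fun e => b (beam_of_le (hb k g a).1
        ((hcc k g a).ge.trans (core_le.trans e))), g, a, rfl⟩)
        (fun F => ¬ Beam p (s (k + 1)) (core p (s k) F)) fun x e => b ?_).trans
        (Nat.mul_le_mul_left _ (Finset.card_le_card fun x hx => ?_))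
      · have := e.cj x⁻¹
        rwa [core_cj, cj_inv_cj, hcc k g a] at this
      · obtain ⟨c1, c2⟩ := mem_fs.1 hx
        exact Finset.mem_filter.2 ⟨mem_fs.2 c1, hcc k x c1 ▸ c2⟩
  have h2 : ∀ g ∈ fs {g | g ∉ center G}, ((Finset.range L).filter fun k =>
      ¬ Beam p (s (k + 1)) (core p (s k) 𝒞₁(g))).card ≤ d := fun g a => by
    replace a : g ∉ center G := mem_fs.1 a
    obtain ⟨R, r1, r2⟩ := hJ.root _ (hb 0 g a).1
    suffices ∀ n, ((Finset.range n).filter fun k => ¬ Beam p (s (k + 1)) (core p (s k) 𝒞₁(g))).card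
        ≤ (R.filter fun K => core p (s n) 𝒞₁(g) ≤ K).card from
      (this L).trans ((Finset.card_filter_le _ _).trans r1)
    intro n
    induction n with
    | zero => simp
    | succ n ih =>
      have e1 : core p (s (n + 1)) 𝒞₁(g) ≤ core p (s n) 𝒞₁(g) := core_anti (hs n.le_succ)
      have e2 : (R.filter fun K => core p (s n) 𝒞₁(g) ≤ K) ⊆
          R.filter fun K => core p (s (n + 1)) 𝒞₁(g) ≤ K :=
        Finset.monotone_filter_right _ fun K _ x => e1.trans x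
      rw [Finset.range_add_one, Finset.filter_insert]
      split_ifs with e
      · exact ih.trans (Finset.card_le_card e2)
      refine (Finset.card_insert_le _ _).trans (ih.trans_lt (Finset.card_lt_card ⟨e2, fun e3 =>
        e ⟨(hb n g a).1, fun B _ b => (cent_anti inf_le_right).trans (((hb _ g a).inf e1 b).trans
          (r2 _ _ (core_anti (hs (Nat.zero_le _))) (core_anti (hs (Nat.zero_le _))) fun K x y =>
            (Finset.mem_filter.1 (e3 (Finset.mem_filter.2 ⟨x, y⟩))).2))⟩⟩))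
  have h3 := Finset.card_nsmul_le_sum _ _ _ h1
  have h4 := Finset.sum_le_card_nsmul _ _ _ h2
  simp only [Finset.card_filter] at h3 h4
  rw [← Finset.mul_sum, Finset.sum_comm, Finset.card_range] at h3
  have h5 : (fs {g | g ∉ center G}).card ≤ Nat.card G := by
    rw [card_fs]; exact Set.ncard_le_card _
  have h6 : 0 < Nat.card G := Nat.card_pos
  have h7 := h3.trans (Nat.mul_le_mul_left _ (h4.trans (Nat.mul_le_mul_right d h5)))
  rw [smul_eq_mul, hL] at h7
  nlinarith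

end H21.BF
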