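/-
Jordan's class equation argument, part 3: the bound, and the theorem of Brauer and Feit.
-/
import Cfsg.Agent.H21.BF2
import Cfsg.Agent.H1.Hall

set_option autoImplicit false
set_option linter.unusedSectionVars false
open H17 Cfsg H15 CF Subgroup Module
open scoped Classical

namespace H21.BF

universe u v
section
variable {G : Type u} [Group G] [Finite G] {p d c M : ℕ}

theorem JS.dvd_SZ (hJ : JS p d c G) (hM : 1 ≤ M) : Nat.card G ∣ (M ^ d * c * d).factorial *
    (fs {g | g ∉ center G ∧ core p M 𝒞₁(g) ≤ center G}).card := by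
  set W := {g | g ∉ center G ∧ core p M 𝒞₁(g) ≤ center G} with hW
  obtain ⟨N, hN⟩ := exists_ppart (G := G) hJ.pr
  have hz : ∀ z ∈ center G, ∀ g, 𝒞₁(g * z) = 𝒞₁(g) := fun z hz g => by
    ext x
    rw [mem_cent1, mem_cent1, ← mul_assoc, mul_assoc g, ← mem_center_iff.1 hz x, ← mul_assoc,
      mul_left_inj]
  have e : QuotientGroup.mk ⁻¹' ((QuotientGroup.mk : G → G ⧸ center G) '' W) = W := by
    refine le_antisymm (fun x ⟨g, a, b⟩ => ?_) (Set.subset_preimage_image _ _)
    have b := QuotientGroup.eq.1 b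
    rw [show x = g * (g⁻¹ * x) by simp]
    exact ⟨fun h => a.1 ((mul_mem_cancel_right b).1 h), (hz _ b g).symm ▸ a.2⟩
  have := dvd_sum_act (fun (x : G) (q : G ⧸ center G) => x * q * (x : G ⧸ center G)⁻¹) (by simp)
    (by simp [mul_assoc]) (fs (QuotientGroup.mk '' W)) (fun x q hq => by
      obtain ⟨g, a, rfl⟩ := mem_fs.1 hq
      exact mem_fs.2 ⟨x * g * x⁻¹, ⟨conj_notMem a.1 x, by
        rw [← cj_cent1, core_cj]
        exact cj_le_of_mem_norm (normalizer_eq_top (center G) ▸ mem_top _) a.2⟩, rfl⟩)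
    (fun _ => (M ^ d * c * d).factorial * Nat.card (center G)) (fun _ _ _ => rfl) fun q hq => by
      obtain ⟨g, a, rfl⟩ := mem_fs.1 hq
      set Y := 𝒞₁((g : G ⧸ center G)).comap (QuotientGroup.mk' _)
      have hY : ∀ x, x ∈ Y ↔ (x : G ⧸ center G) * g * (x : G ⧸ center G)⁻¹ = g := fun x =>
        mem_cent1.trans mul_inv_eq_iff_eq_mul.symm
      have h1 : center G ≤ 𝒞₁(g) := fun z hz => mem_cent1.2 (mem_center_iff.1 hz g).symm
      have h2 : 𝒞₁(g) ≤ Y := fun x hx => mem_cent1.2 (congrArg QuotientGroup.mk (mem_cent1.1 hx))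
      rw [← Nat.card_congr (Equiv.subtypeEquivRight hY)]
      refine card_dvd_of_idx (h1.trans h2) ?_
      rw [← relIndex_mul_relIndex _ _ _ h1 h2]
      refine Nat.mul_le_mul ((relIndex_le_of_le_left a.2 (H15.relIndex_pos _ _).ne').trans
        (hJ.core_idx (hJ.cent g a.1) hM)) ((relIndex_cent1_le Y g
          (fs {b | g⁻¹ * b ∈ center G ∧ IsConj g b}) fun x hx => mem_fs.2
            ⟨QuotientGroup.eq.1 ((hY x).1 hx).symm, isConj_iff.2 ⟨x, rfl⟩⟩).trans (le_trans ?_
            (hJ.conj _ ((ab_zp (hN g).1).sup hJ.z (le_top.trans (cent_comm cent_top.ge))) (g ^ N)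
              (mem_sup_left (mem_zpowers _)))))
      have key : ∀ b, g⁻¹ * b ∈ center G → b ^ N = g ^ N * (g⁻¹ * b) := fun b hb => by
        rw [← (hN _).2 (hJ.z.2.orderOf hb), ← (show Commute g (g⁻¹ * b) from
          mem_center_iff.1 hb g).mul_pow, mul_inv_cancel_left]
      refine Finset.card_le_card_of_injOn (· ^ N) (fun b hb => ?_) fun a ha b hb h => ?_
      · obtain ⟨b1, b2⟩ := mem_fs.1 hb
        exact mem_fs.2 ⟨by simp only [key b b1]; exact mul_mem_sup (mem_zpowers _) b1, b2.pow N⟩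
      · simpa [key a (mem_fs.1 ha).1, key b (mem_fs.1 hb).1] using h
  rwa [Finset.sum_const, smul_eq_mul, card_fs', mul_comm, mul_assoc,
    ← QuotientGroup.card_preimage_mk, e, ← card_fs'] at this

theorem JS.main (hJ : JS p d c G) (hc : c ≤ M) (hM : (2 * d) ^ d ≤ M) (h : ∀ g, g ∉ center G →
    Beam p ((2 * d * (M ^ d * c * d).factorial + 1) ^ d) (core p M 𝒞₁(g))) :
    ∃ A : Subgroup G, Ab p A ∧ A.index ≤ (M ^ d * c * d).factorial := by
  obtain ⟨k, h2⟩ := hJ.dvd_SZ (hJ.one_le' hc hM)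
  have h3 := dvd_sum_act (fun (x : G) (F : Subgroup G) => cj(x, F)) cj_one cj_mul (FF p M G)
    (fun x F a => cj_FF a x) (fun F => (M ^ d * c * d).factorial * (UU p M F).card)
    (fun x F _ => by rw [card_UU_cj]) fun F a => by
      rw [← Nat.card_congr (Equiv.subtypeEquivRight fun x => mem_norm_iff_cj)]
      exact (card_dvd_of_idx (core_le.trans (cent_le_norm F)) (hJ.nidx hc hM a)).trans
        (mul_dvd_mul_left _ (hJ.dvd_UU hc hM a))
  have h4 : ∀ F ∈ FF p M G, (2 * d * (M ^ d * c * d).factorial + 1) * (UU p M F \ SS p M F).card ≤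
      2 * d * (SS p M F).card := fun F a => (hJ.bad hc hM a (by omega) (by
        obtain ⟨-, g, b, rfl⟩ := mem_FF.1 a
        exact h g b)).trans ((Nat.mul_le_mul_left d (hJ.UU_le hc hM a)).trans_eq (by ring))
  have h5 : ∀ F ∈ FF p M G, (UU p M F).card = (UU p M F \ SS p M F).card + (SS p M F).card :=
    fun F a => (Finset.card_sdiff_add_card_eq_card (hJ.SS_sub hc hM a)).symm
  have h1 : Nat.card G = Nat.card (center G) + ((fs {g | g ∉ center G ∧
      core p M 𝒞₁(g) ≤ center G}).card + ∑ F ∈ FF p M G, (SS p M F).card) := by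
    have := Finset.card_eq_sum_card_fiberwise (f := fun g => core p M 𝒞₁(g)) (t := FF p M G)
      (s := fs {g | g ∉ center G ∧ ¬ core p M 𝒞₁(g) ≤ center G}) fun g a =>
        mem_FF.2 ⟨(mem_fs.1 a).2, g, (mem_fs.1 a).1, rfl⟩
    rw [Finset.sum_congr rfl (g := fun F => (SS p M F).card) fun F a => congrArg _ (by
      ext g
      simp only [Finset.mem_filter, mem_fs, Set.mem_ofPred_eq, mem_SS]
      exact and_congr_left fun e => and_iff_left (e ▸ (mem_FF.1 a).1))] at this
    rw [← this, ← card_fs_sub, ← Finset.card_union_of_disjoint, ← Finset.card_union_of_disjoint,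
      ← Set.ncard_univ, ← card_fs]
    · congr 1
      ext g
      simp only [Set.mem_univ, Finset.mem_union, mem_fs, SetLike.mem_coe, Set.mem_ofPred_eq]
      tauto
    · simp only [Finset.disjoint_left, Finset.mem_union, mem_fs, SetLike.mem_coe, Set.mem_ofPred_eq]
      tauto
    · simp only [Finset.disjoint_left, mem_fs, Set.mem_ofPred_eq]
      tauto
  rw [← Finset.mul_sum, Finset.sum_congr rfl h5, Finset.sum_add_distrib] at h3
  obtain ⟨l, h3⟩ := h3
  have h6 := Finset.sum_le_sum h4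
  rw [← Finset.mul_sum, ← Finset.mul_sum] at h6
  have h0 : 0 < Nat.card G := Nat.card_pos
  have hz : 0 < Nat.card (center G) := Nat.card_pos
  set D := (M ^ d * c * d).factorial with hD
  have hD0 : 0 < D := Nat.factorial_pos _
  rcases (FF p M G).eq_empty_or_nonempty with e | ⟨F, a⟩
  · refine ⟨_, hJ.z, Nat.le_of_mul_le_mul_right ?_ hz⟩
    rw [e, Finset.sum_empty, add_zero] at h1
    rw [index_mul_card]
    have : k < D := by nlinarith
    nlinarith
  set β := ∑ F ∈ FF p M G, (UU p M F \ SS p M F).card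
  have h7 : β ≤ Nat.card (center G) := by
    have : D * β < Nat.card G := by have := hJ.one_le; nlinarith
    have : k + l < D + 1 := by nlinarith
    nlinarith
  obtain ⟨f, -, f1, f2⟩ := hJ.gen' hc hM a
  have t1 := hJ.le_T hc hM a
  have hT : core p M 𝒞(F) ∈ FF p M G := mem_FF.2 ⟨fun e => (mem_FF.1 a).1 (t1.trans e), f, f1, by rw [f2]⟩
  have key : ∀ x, Nat.card (center G) ≤ (UU p M cj(x, core p M 𝒞(F)) \ SS p M cj(x, core p M 𝒞(F))).card :=
    fun x => by
      rw [← card_fs_sub]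
      refine Finset.card_le_card fun z hz => Finset.mem_sdiff.2 ⟨mem_UU.2 ⟨center_le_centralizer _
        (mem_fs.1 hz), ?_⟩, fun e => (mem_SS.1 e).1 (mem_fs.1 hz)⟩
      rw [inf_eq_left.2 (le_cent1_iff.2 (center_le_centralizer _ (mem_fs.1 hz))), ← cj_cent, core_cj,
        core_cj, le_antisymm (core_mono (cent_anti t1)) (hJ.le_T hc hM hT), (hJ.beam hc hM hT).core_eq]
  refine ⟨_, hJ.ab_T hc hM a, le_trans ?_ ((hJ.nidx hc hM hT).trans (Nat.self_le_factorial _))⟩
  rw [le_antisymm (core_mono (cent_anti t1)) (hJ.le_T hc hM hT), ← relIndex_top_right]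
  refine relIndex_le_of_le_right (fun x _ => mem_norm_iff_cj.2 ?_) (H15.relIndex_pos _ _).ne'
  by_contra e
  have h8 := Finset.sum_le_sum_of_subset (f := fun F => (UU p M F \ SS p M F).card)
    (show {cj(x, core p M 𝒞(F)), core p M 𝒞(F)} ⊆ FF p M G from
      Finset.insert_subset (cj_FF hT x) (Finset.singleton_subset_iff.2 hT))
  rw [Finset.sum_pair e] at h8
  have h9 := key x
  have h10 := key 1
  rw [cj_one] at h10
  omega

end

theorem js_bound (p d c : ℕ) : ∃ b, ∀ (G : Type u) [Group G] [Finite G], JS p d c G →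
    ∃ A : Subgroup G, Ab p A ∧ A.index ≤ b := by
  let s : ℕ → ℕ := fun k => Nat.rec (c + (2 * d) ^ d)
    (fun _ M => M + (2 * d * (M ^ d * c * d).factorial + 1) ^ d) k
  have hs : Monotone s := monotone_nat_of_le_succ fun _ => Nat.le_add_right _ _
  refine ⟨(s (2 * (s 0 ^ d * c * d) * d) ^ d * c * d).factorial, fun G _ _ hJ => ?_⟩
  have h1 : c ≤ s 0 := Nat.le_add_right _ _
  have h2 : (2 * d) ^ d ≤ s 0 := Nat.le_add_left _ _
  obtain ⟨k, a, b⟩ := hJ.scale h1 h2 s hs rfl
  obtain ⟨A, e, f⟩ := hJ.main (h1.trans (hs k.zero_le)) (h2.trans (hs k.zero_le)) fun g x =>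
    (b g x).mono (Nat.le_add_left _ _)
  exact ⟨A, e, f.trans (Nat.factorial_le (by have := hs a; gcongr))⟩

section
variable {G : Type u} [Group G] [Finite G] {F : Type v} [Field F] [IsAlgClosed F] {p : ℕ}
  [hp : Fact p.Prime] [CharP F p] {V : Type v} [AddCommGroup V] [Module F V] [FiniteDimensional F V]
  (ρ : Representation F G V)

theorem exists_diag {A : Subgroup G} (hA : Ab p A) : ∃ (b : Basis (Fin (finrank F V)) F V)
    (χ : Fin (finrank F V) → G → F), ∀ a ∈ A, ∀ i, ρ a (b i) = χ i a • b i := by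
  have h1 := End.iSup_iInf_maxGenEigenspace_eq_top_of_iSup_maxGenEigenspace_eq_top_of_commute
    (fun a : A => ρ a) (fun a b _ => by
      show _ = _
      rw [← map_mul, ← map_mul, mem_cent.1 (hA.1 b.2) a a.2]) fun a => End.iSup_maxGenEigenspace_eq_top _
  have h2 : ∀ a : A, End.IsFinitelySemisimple (ρ a) := fun a =>
    (End.isSemisimple_of_squarefree_aeval_eq_zero (Polynomial.separable_X_pow_sub_C (n := Nat.card A)
      1 (fun h => hA.2.not_dvd hp.1 (by simp) ((CharP.cast_eq_zero_iff F p _).1 h))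
      one_ne_zero).squarefree (by
        rw [map_sub, map_pow, Polynomial.aeval_X, Polynomial.aeval_C, map_one, ← map_pow,
          ← Subgroup.coe_pow, pow_card_eq_one', Subgroup.coe_one, map_one, sub_self])).isFinitelySemisimple
  have h3 : ⊤ ≤ Submodule.span F {v | ∃ χ : G → F, ∀ a ∈ A, ρ a v = χ a • v} :=
    h1.ge.trans (iSup_le fun χ v hv => Submodule.subset_span ⟨fun g => if h : g ∈ A then χ ⟨g, h⟩
      else 0, fun a ha => by
        have := (Submodule.mem_iInf _).1 hv ⟨a, ha⟩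
        rw [(h2 _).maxGenEigenspace_eq_eigenspace, End.mem_eigenspace_iff] at this
        simpa [ha] using this⟩)
  let b := Basis.ofSpan h3
  haveI := Module.Finite.finite_basis b
  haveI := Fintype.ofFinite ((linearIndepOn_empty F id).extend (Set.empty_subset
    {v | ∃ χ : G → F, ∀ a ∈ A, ρ a v = χ a • v}))
  let e := Fintype.equivFinOfCardEq (finrank_eq_card_basis b).symm
  choose χ hχ using fun i => Basis.ofSpan_subset h3 ⟨e.symm i, rfl⟩
  exact ⟨b.reindex e, χ, fun a ha i => by rw [Basis.reindex_apply]; exact hχ i a ha⟩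

theorem js_of_rep {n c : ℕ} (hn : finrank F V ≤ n) (hρ : Function.Injective ρ)
    (h1 : ∀ g, g ∉ center G → Gd p c 𝒞₁(g)) (h2 : Ab p (center G)) : JS p ((n + 1) ^ (n + 2)) c G := by
  have key : ∀ A : Subgroup G, Ab p A → ∃ (χ : Fin (finrank F V) → A →* F)
      (c : G → Fin (finrank F V) → Fin (finrank F V) → F), (∀ x i, ∃ j, c x i j ≠ 0) ∧
      ∀ (a a' : A) (x : G), a * x = x * a' ↔ ∀ i j, χ i a * c x i j = χ j a' * c x i j := fun A hA => by
    obtain ⟨b, χ, h⟩ := exists_diag ρ hA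
    have e : ∀ a ∈ A, ∀ i v, b.repr (ρ a v) i = χ i a * b.repr v i := fun a ha i v =>
      LinearMap.congr_fun (b.ext (f₁ := b.coord i ∘ₗ ρ a) (f₂ := χ i a • b.coord i) fun j => by
        by_cases hij : j = i <;> simp [h a ha, hij]) v
    refine ⟨fun i => ⟨⟨fun a => χ i a, ?_⟩, fun x y => ?_⟩, fun x i j => b.repr (ρ x (b j)) i,
      fun x i => ?_, fun a a' x => ?_⟩
    · simpa using (e 1 (one_mem A) i (b i)).symm
    · simpa [e _ x.2, e _ y.2] using (e _ (x * y).2 i (b i)).symm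
    · by_contra! f
      simpa [← End.mul_apply, ← map_mul] using LinearMap.congr_fun
        (b.ext (f₁ := b.coord i ∘ₗ ρ x) (f₂ := 0) f) (ρ x⁻¹ (b i))
    · rw [← hρ.eq_iff, map_mul, map_mul]
      refine ⟨fun f i j => ?_, fun f => b.ext fun j => b.repr.injective (Finsupp.ext fun i => ?_)⟩
      · simpa [e _ a.2, h _ a'.2] using congrArg (fun T : End F V => b.repr (T (b j)) i) f
      · simpa [e _ a.2, h _ a'.2] using f i j
  refine ⟨hp.1, fun A hA => ?_, fun A hA a ha => ?_, h1, h2⟩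
  · obtain ⟨χ, c, -, h⟩ := key A hA
    refine ⟨Finset.univ.image fun x : Fin (finrank F V) × Fin (finrank F V) =>
      ((χ x.1).eqLocus (χ x.2)).map A.subtype, Finset.card_image_le.trans ?_,
      fun B B' hB hB' f x hx => mem_cent.2 fun y hy => (h ⟨y, hB' hy⟩ ⟨y, hB' hy⟩ x).2 fun i j => ?_⟩
    · rw [Finset.card_univ, Fintype.card_prod, Fintype.card_fin, ← sq]
      exact (Nat.pow_le_pow_left (by omega) 2).trans (Nat.pow_le_pow_right n.succ_pos (by omega))
    by_cases e : c x i j = 0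
    · simp [e]
    obtain ⟨z, a, rfl⟩ := f _ (Finset.mem_image_of_mem _ (Finset.mem_univ (i, j))) (fun z hz =>
      ⟨⟨z, hB hz⟩, mul_right_cancel₀ e ((h _ _ x).1 (mem_cent.1 hx z hz) i j), rfl⟩) hy
    exact congrArg (· * c x i j) a
  · obtain ⟨χ, c, h0, h⟩ := key A hA
    haveI : Nonempty (Fin (finrank F V) → Fin (finrank F V)) := ⟨id⟩
    have : ∀ y ∈ fs {b | b ∈ A ∧ IsConj a b}, ∃ f : Fin (finrank F V) → Fin (finrank F V),
        ∀ hy : y ∈ A, ∀ i, χ i ⟨y, hy⟩ = χ (f i) ⟨a, ha⟩ := fun y hy => by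
      obtain ⟨x, e⟩ := isConj_iff.1 (mem_fs.1 hy).2
      choose f hf using h0 x
      exact ⟨f, fun hy i => mul_right_cancel₀ (hf i) ((h ⟨y, hy⟩ ⟨a, ha⟩ x).1 (by simp [← e]) i _)⟩
    choose! f hf using this
    refine (Finset.card_le_card_of_injOn (t := Finset.univ) f (fun _ _ => Finset.mem_univ _)
      fun y hy z hz e => ?_).trans ?_
    · have y1 := (mem_fs.1 hy).1
      have z1 := (mem_fs.1 hz).1
      have := (h ⟨y, y1⟩ ⟨z, z1⟩ 1).2 fun i j => by
        rw [hf y hy, e, ← hf z hz z1]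
        exact (h ⟨z, z1⟩ ⟨z, z1⟩ 1).1 (by simp) i j
      simpa using this
    · rw [Finset.card_univ, Fintype.card_fun, Fintype.card_fin]
      exact (Nat.pow_le_pow_left (by omega) _).trans (Nat.pow_le_pow_right n.succ_pos (by omega))

end

/-- the statement of the bound -/
def BFs (p m n c : ℕ) : Prop := ∀ (G : Type u) [Group G] [Finite G] (F : Type v) [Field F]
  [IsAlgClosed F] [CharP F p] (V : Type v) [AddCommGroup V] [Module F V] [FiniteDimensional F V]
  (ρ : Representation F G V), finrank F V ≤ n → Function.Injective ρ →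
    (Nat.card G).factorization p ≤ m → ∃ A : Subgroup G, Ab p A ∧ A.index ≤ c

section
variable {G : Type u} [Group G] [Finite G] {F : Type v} [Field F] [IsAlgClosed F] {p m n c : ℕ}
  [hp : Fact p.Prime] [CharP F p] {V : Type v} [AddCommGroup V] [Module F V] [FiniteDimensional F V]
  (ρ : Representation F G V)

theorem fact_le {a b : ℕ} (h : a ∣ b) (hb : 0 < b) : a.factorization p ≤ b.factorization p :=
  (Nat.factorization_le_iff_dvd (Nat.pos_of_dvd_of_pos h hb).ne' hb.ne').2 h p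

theorem BFs.ker (h : BFs.{u, v} p m n c) (hn : finrank F V ≤ n) (hm : (Nat.card G).factorization p ≤ m) :
    ∃ A : Subgroup G, ⁅A, A⁆ ≤ MonoidHom.ker ρ ∧ A.index ≤ c := by
  obtain ⟨A, a, b⟩ := h (G ⧸ MonoidHom.ker ρ) F V (QuotientGroup.lift _ ρ le_rfl) hn
    ((injective_iff_map_eq_one _).2 fun x => QuotientGroup.induction_on x fun g e =>
      (QuotientGroup.eq_one_iff g).2 e) ((fact_le (card_quotient_dvd_card _) Nat.card_pos).trans hm)
  refine ⟨A.comap (QuotientGroup.mk' _), commutator_le.2 fun x hx y hy =>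
    (QuotientGroup.eq_one_iff _).1 ?_, (A.index_comap_of_surjective (QuotientGroup.mk'_surjective _)).trans_le b⟩
  exact (map_commutatorElement (QuotientGroup.mk' _) x y).trans
    (commutatorElement_eq_one_iff_mul_comm.2 (mem_cent.1 (a.1 hy) _ hx))

theorem BFs.red (h : BFs.{u, v} p m n c) (hn : finrank F V ≤ n + 1) (hρ : Function.Injective ρ)
    (hm : (Nat.card G).factorization p ≤ m) (W : Submodule F V) (h0 : W ≠ ⊥) (h1 : W ≠ ⊤)
    (hW : ∀ g, W ≤ W.comap (ρ g)) : ∃ A : Subgroup G, Ab p A ∧ A.index ≤ p ^ m * (c * c) := by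
  have e := W.finrank_quotient_add_finrank
  have e0 := Submodule.finrank_eq_zero.not.2 h0
  have e1 := Submodule.finrank_lt h1
  obtain ⟨A, a1, a2⟩ := h.ker (ρ.subrepresentation W hW) (by omega) hm
  obtain ⟨B, b1, b2⟩ := h.ker (ρ.quotient W hW) (by omega) hm
  have hU : IsPiSubgroup {p} ⁅A ⊓ B, A ⊓ B⁆ := isPi_of_pow_eq_one fun x hx => hρ (by
    have x1 : ∀ w ∈ W, ρ x w = w := fun w hw => congrArg Subtype.val (LinearMap.congr_fun
      (MonoidHom.mem_ker.1 (a1 (commutator_mono inf_le_left inf_le_left hx))) ⟨w, hw⟩)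
    have x2 : ∀ v, ρ x v - v ∈ W := fun v => (Submodule.Quotient.eq W).1 (LinearMap.congr_fun
      (MonoidHom.mem_ker.1 (b1 (commutator_mono inf_le_right inf_le_right hx))) (W.mkQ v))
    have : ∀ (k : ℕ) v, ρ (x ^ k) v = v + (k : F) • (ρ x v - v) := fun k v => by
      induction k with
      | zero => simp
      | succ k ih => rw [pow_succ', map_mul, End.mul_apply, ih, map_add, map_smul, x1 _ (x2 v),
          Nat.cast_succ, add_smul, one_smul]; abel
    ext v
    simp [this, -map_pow])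
  have hs : Group.IsSolvable ↥(A ⊓ B) := by
    refine H1.isSolvable_of_normal_quotient (commutator _) ?_ (Group.isSolvable_of_comm fun x y =>
      mul_comm (G := Abelianization ↥(A ⊓ B)) x y)
    exact H1.isSolvable_of_mulEquiv (map_subtype_commutator (A ⊓ B) ▸ hU).solvable
      (equivMapOfInjective _ _ (subtype_injective _)).symm
  obtain ⟨Q, hQ⟩ := (H1.hallOK_of_isSolvable {p}ᶜ hs).exists
  refine ⟨Q, ⟨le_cent_of_comm_le_bot ((le_inf (commutator_mono hQ.le hQ.le)
    (commutator_le_self Q)).trans (hU.inf_eq_bot hQ.isPi).le), hQ.isPi⟩, ?_⟩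
  rw [← relIndex_mul_index hQ.le]
  refine Nat.mul_le_mul ?_ (index_inf_le.trans (Nat.mul_le_mul a2 b2))
  obtain ⟨k, hk⟩ : ∃ k, Q.relIndex (A ⊓ B) = p ^ k := ⟨_, Nat.eq_prime_pow_of_unique_prime_dvd
    (H15.relIndex_pos _ _).ne' fun {q} hq h => by simpa using hQ.idx q hq h⟩
  rw [hk]
  refine Nat.pow_le_pow_right hp.1.pos (le_trans ?_ hm)
  exact (hp.1.pow_dvd_iff_le_factorization Nat.card_pos.ne').1
    (hk ▸ (relIndex_dvd_card Q (A ⊓ B)).trans (card_subgroup_dvd_card _))

end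

theorem bfs_all (p m n : ℕ) [hp : Fact p.Prime] : ∃ c, BFs.{u, v} p m n c := by
  induction n with
  | zero =>
    refine ⟨1, fun G _ _ F _ _ _ V _ _ _ ρ hn hρ _ => ?_⟩
    haveI := finrank_zero_iff.1 (Nat.le_zero.1 hn)
    haveI := hρ.subsingleton
    exact ⟨⊥, ⟨bot_le, isPi_bot _⟩, by simp⟩
  | succ n ih =>
    obtain ⟨c, h⟩ := ih
    obtain ⟨b, hb⟩ := js_bound.{u} p ((n + 1 + 1) ^ (n + 1 + 2)) (p ^ m * (c * c))
    refine ⟨b + p ^ m * (c * c), fun G _ _ F _ _ _ V _ _ _ ρ hn hρ hm => ?_⟩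
    rcases subsingleton_or_nontrivial V with _ | _
    · obtain ⟨A, a1, a2⟩ := h G F V ρ (finrank_zero_of_subsingleton.trans_le n.zero_le) hρ hm
      exact ⟨A, a1, a2.trans ((Nat.le_mul_self c).trans ((Nat.le_mul_of_pos_left _ (pow_pos hp.1.pos m)).trans
        (Nat.le_add_left _ _)))⟩
    have key : ∀ g, (∀ μ : F, ρ g ≠ μ • 1) → Gd p (p ^ m * (c * c)) 𝒞₁(g) := fun g hg => by
      obtain ⟨μ, e⟩ := End.exists_eigenvalue (ρ g)
      obtain ⟨A, a1, a2⟩ := h.red (ρ.comp 𝒞₁(g).subtype) hn (hρ.comp (subtype_injective _))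
        ((fact_le (card_subgroup_dvd_card _) Nat.card_pos).trans hm) _ e (fun f => hg μ
          (LinearMap.ext fun v => End.mem_eigenspace_iff.1 (f.ge trivial))) fun x v hv =>
          End.mem_eigenspace_iff.2 (by
            show ρ g (ρ x v) = μ • ρ x v
            rw [← map_smul, ← End.mem_eigenspace_iff.1 hv, ← End.mul_apply, ← End.mul_apply,
              ← map_mul, ← map_mul, mem_cent1.1 x.2])
      exact ⟨A.map (Subgroup.subtype _), ⟨map_le_cent _ a1.1, a1.2.map _⟩, map_subtype_le A, by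
        rwa [relIndex, subgroupOf_map]⟩
    by_cases hz : ∀ z ∈ center G, ∃ μ : F, ρ z = μ • 1
    · refine (hb G (js_of_rep ρ hn hρ (fun g hg => key g fun μ e => hg
        (mem_center_iff.2 fun x => hρ (by simp [e]))) ⟨center_le_centralizer _,
        isPi_of_forall_orderOf fun z a _ (e : orderOf z = p) => ?_⟩)).imp
        fun A a => ⟨a.1, a.2.trans (Nat.le_add_right _ _)⟩
      obtain ⟨μ, f⟩ := hz z a
      have : (μ - 1) ^ p = 0 := by
        have := congrArg ρ (pow_orderOf_eq_one z)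
        rw [e, map_pow, f, smul_pow, one_pow, map_one] at this
        rw [sub_pow_char, one_pow, smul_left_injective F one_ne_zero (this.trans (one_smul F _).symm),
          sub_self]
      rw [sub_eq_zero.1 (pow_eq_zero_iff hp.1.ne_zero |>.1 this), one_smul, ← map_one ρ] at f
      exact hp.1.one_lt.ne (by rw [← e, hρ f, orderOf_one])
    push Not at hz
    obtain ⟨z, a, e⟩ := hz
    obtain ⟨A, a1, -, a2⟩ := key z e
    rw [show 𝒞₁(z) = ⊤ from top_le_iff.1 (le_cent1_iff.2 (cent_top.ge a)), relIndex_top_right] at a2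
    exact ⟨A, a1, a2.trans (Nat.le_add_left _ _)⟩

end H21.BF
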