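/-
Brauer's induction theorem.
-/
import Cfsg.Agent.H19.BrChar
import Cfsg.Agent.H17.Deg
import Cfsg.Agent.Lead.CF4

set_option autoImplicit false
set_option linter.unusedSectionVars false
open H17 Cfsg H15 CF
open scoped ComplexConjugate

namespace H21

variable {G : Type*} [Group G] [Finite G] {p : ℕ}

theorem elem_nilpotent (hp : p.Prime) (h : IsElementary p G) : Group.IsNilpotent G := by
  obtain ⟨x, hx, -, k, hk⟩ := h
  haveI := Fact.mk hp
  have hle : Subgroup.zpowers x ≤ Subgroup.center G := Subgroup.zpowers_le.2 hx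
  haveI : (Subgroup.zpowers x).Normal := ⟨fun n hn g => by
    rw [Subgroup.mem_center_iff.1 (hle hn) g]; simpa using hn⟩
  have : IsPGroup p (G ⧸ Subgroup.zpowers x) := IsPGroup.of_card hk
  have := this.isNilpotent
  exact Subgroup.isNilpotent_of_ker_le_center (QuotientGroup.mk' (Subgroup.zpowers x))
    (by rwa [QuotientGroup.ker_mk'])

theorem elem_of_injective (hp : p.Prime) (h : IsElementary p G) {H : Type*} [Group H]
    (f : H →* G) (hf : Function.Injective f) : IsElementary p H := by
  obtain ⟨x, hx, hc, k, hk⟩ := h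
  have hle : Subgroup.zpowers x ≤ Subgroup.center G := Subgroup.zpowers_le.2 hx
  haveI : (Subgroup.zpowers x).Normal := ⟨fun n hn g => by
    rw [Subgroup.mem_center_iff.1 (hle hn) g]; simpa using hn⟩
  have h1 : IsCyclic ((Subgroup.zpowers x).comap f) :=
    isCyclic_of_injective (f.subgroupComap _) fun a b e =>
      Subtype.ext (hf (congrArg Subtype.val e))
  obtain ⟨y, hy⟩ := ((Subgroup.zpowers x).comap f).isCyclic_iff_exists_zpowers_eq_top.1 h1
  have h2 : f y ∈ Subgroup.zpowers x := by
    have := Subgroup.mem_zpowers y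
    rwa [hy] at this
  refine ⟨y, Subgroup.mem_center_iff.2 fun g => hf ?_, ?_, ?_⟩
  · rw [map_mul, map_mul]; exact Subgroup.mem_center_iff.1 (hle h2) _
  · rw [← orderOf_injective f hf]
    exact hc.coprime_dvd_left (orderOf_dvd_of_mem_zpowers h2)
  · rw [hy, Subgroup.index_comap]
    obtain ⟨i, -, hi⟩ := (Nat.dvd_prime_pow hp).1
      (hk ▸ Subgroup.relIndex_dvd_index_of_normal (Subgroup.zpowers x) f.range)
    exact ⟨i, hi⟩

variable (G) in
/-- functions induced from linear characters of elementary subgroups -/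
def elSet [Fintype G] : Set (G → ℂ) :=
  {f | ∃ (E : Subgroup G) (l : E →* ℂˣ), (∃ p : ℕ, p.Prime ∧ IsElementary p E) ∧
    f = indFun E fun e => (l e : ℂ)}

theorem ind_mem_elSet [Fintype G] {E : Subgroup G} (hp : p.Prime) (hE : IsElementary p E)
    {ψ : E → ℂ} (hψ : IsIrrCharacter E ψ) : indFun E ψ ∈ elSet G := by
  have := Fintype.ofFinite E
  have := elem_nilpotent hp hE
  obtain ⟨H, l, rfl⟩ := hψ.monomial
  let e := (H.equivMapOfInjective E.subtype E.subtype_injective).symm
  exact ⟨H.map E.subtype, l.comp e.toMonoidHom, ⟨p, hp, elem_of_injective hp hE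
    (H.subtype.comp e.toMonoidHom) (H.subtype_injective.comp e.injective)⟩, indFun_trans_map H _⟩

theorem brauer_ind [Fintype G] {χ : G → ℂ} (hχ : χ ∈ vchar (⊤ : Subgroup G)) :
    χ ∈ Submodule.span ℤ (elSet G) := by
  classical
  set I := Submodule.span ℤ (elSet G)
  by_contra hcon
  obtain ⟨c, hc⟩ := CharacterModule.exists_character_apply_ne_zero_of_ne_zero
    (mt (Submodule.Quotient.mk_eq_zero I).1 hcon)
  have h1 : ∀ ψ : G → ℂ, ∃ r : ℚ, (r : AddCircle (1 : ℚ)) = c (I.mkQ ψ) := fun ψ =>
    QuotientAddGroup.mk_surjective _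
  choose r hr using h1
  let φ : G → ℂ := ∑ ψ ∈ Irr (⊤ : Subgroup G), (r ψ : ℂ) • ψ
  have hφ : φ ∈ cf (⊤ : Subgroup G) :=
    Submodule.sum_mem _ fun ψ hψ => Submodule.smul_mem _ _ (irr_cf hψ)
  have key : ∀ η ∈ vchar (⊤ : Subgroup G), c (I.mkQ η) = 0 ↔ ∃ n : ℤ, dot ⊤ φ η = n := by
    intro η hη
    obtain ⟨m, -, h2⟩ := vchar_exists_coeff hη
    have h3 : dot ⊤ φ η = ((∑ ψ ∈ Irr (⊤ : Subgroup G), m ψ * r ψ : ℚ) : ℂ) := by
      rw [h2, dot_sum_right]
      push_cast
      exact Finset.sum_congr rfl fun ψ hψ => by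
        rw [dot_intCast_smul_right, dot_sum_irr le_rfl _ hψ]
    have h4 : c (I.mkQ η) = ((∑ ψ ∈ Irr (⊤ : Subgroup G), m ψ * r ψ : ℚ) : AddCircle (1 : ℚ)) := by
      rw [h2, map_sum, map_sum, QuotientAddGroup.mk_sum]
      refine Finset.sum_congr rfl fun ψ _ => ?_
      rw [Int.cast_smul_eq_zsmul, map_zsmul, map_zsmul, ← hr, ← zsmul_eq_mul,
        QuotientAddGroup.mk_zsmul]
    rw [h3, h4, AddCircle.coe_eq_zero_iff]
    refine exists_congr fun n => ?_
    rw [zsmul_eq_mul, mul_one, eq_comm, ← Rat.cast_intCast (α := ℂ), Rat.cast_inj]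
  refine hc ((key χ hχ).2 (vchar_dot_int (mem_vchar_top.2 (H19.isGen_of_elementary
    (mem_cf_top.1 hφ) fun E p hp hE => ?_)) hχ))
  refine (mem_vchar_iff_res.1 (mem_vchar_of_dot (H := E) (Res_mem_cf le_top hφ)
    fun ψ hψ => ?_)).2 |> fun h => by rwa [res_Res] at h
  rw [dot_Res_left, ← dot_Ind_right le_top _ hφ]
  refine (key _ (Ind_mem_vchar le_top (irr_vchar hψ))).1 ?_
  rw [Submodule.mkQ_apply, (Submodule.Quotient.mk_eq_zero I).2, map_zero]
  rw [Ind_top_eq]
  exact Submodule.subset_span (ind_mem_elSet hp hE (irr_res hψ))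

/-! ### Realizability over a subfield -/

section
variable (F : Type) [Field F] [Algebra F ℂ]

/-- `χ` is afforded by a representation over `F` -/
def RealF (χ : G → ℂ) : Prop :=
  ∃ (n : ℕ) (ρ : Representation F G (Fin n → F)), ∀ g, algebraMap F ℂ (ρ.character g) = χ g

variable {F}

theorem realF_char {V : Type*} [AddCommGroup V] [Module F V] [FiniteDimensional F V]
    (ρ : Representation F G V) : RealF F fun g => algebraMap F ℂ (ρ.character g) :=
  ⟨_, transportRep ρ (Module.finBasis F V).equivFun, fun g => by rw [char_transportRep]⟩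

/-- extension of scalars to `ℂ` -/
noncomputable def extC {n : ℕ} (ρ : Representation F G (Fin n → F)) :
    Representation ℂ G (Fin n → ℂ) :=
  (Matrix.toLinAlgEquiv' : Matrix (Fin n) (Fin n) ℂ ≃ₐ[ℂ] _).toMulEquiv.toMonoidHom.comp
    ((algebraMap F ℂ).mapMatrix.toMonoidHom.comp
      ((LinearMap.toMatrixAlgEquiv' : _ ≃ₐ[F] Matrix (Fin n) (Fin n) F).toMulEquiv.toMonoidHom.comp
        ρ))

theorem toMatrix_extC {n : ℕ} (ρ : Representation F G (Fin n → F)) (g : G) :
    LinearMap.toMatrix' (extC ρ g) = (LinearMap.toMatrix' (ρ g)).map (algebraMap F ℂ) :=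
  LinearMap.toMatrix'_toLin' _

theorem char_extC {n : ℕ} (ρ : Representation F G (Fin n → F)) (g : G) :
    (extC ρ).character g = algebraMap F ℂ (ρ.character g) := by
  rw [Representation.character, Representation.character, ← Matrix.toLin'_toMatrix' (ρ g),
    ← Matrix.toLin'_toMatrix' (extC ρ g), Matrix.trace_toLin'_eq, Matrix.trace_toLin'_eq,
    toMatrix_extC, AddMonoidHom.map_trace]

theorem RealF.char {χ : G → ℂ} (h : RealF F χ) : IsCharacter G χ := by
  obtain ⟨n, ρ, h⟩ := h
  rw [← funext h, ← funext (char_extC ρ)]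
  exact isCharacter_character _

theorem RealF.add {χ ψ : G → ℂ} (h : RealF F χ) (h' : RealF F ψ) : RealF F (χ + ψ) := by
  obtain ⟨n, ρ, h⟩ := h
  obtain ⟨m, σ, h'⟩ := h'
  have := realF_char (ρ.prod σ)
  simp only [char_prod, Pi.add_apply, map_add, h, h'] at this
  exact this

theorem realF_zero : RealF F (0 : G → ℂ) :=
  ⟨0, Representation.trivial F G _, fun g => by rw [char_of_subsingleton]; simp⟩

theorem RealF.nsmul {χ : G → ℂ} (h : RealF F χ) (n : ℕ) : RealF F (n • χ) := by
  induction n with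
  | zero => rw [zero_nsmul]; exact realF_zero
  | succ n ih => rw [succ_nsmul]; exact ih.add h

theorem RealF.cancel {χ ψ : G → ℂ} (hχ : IsCharacter G χ) (h' : RealF F ψ)
    (h : RealF F (ψ + χ)) : RealF F χ := by
  have := Fintype.ofFinite G
  haveI : CharZero F := (algebraMap F ℂ).charZero
  haveI : NeZero (Nat.card G : F) := ⟨by exact_mod_cast Nat.card_pos.ne'⟩
  haveI : Invertible (Nat.card G : F) := invertibleOfNonzero (NeZero.ne _)
  obtain ⟨m, σ, h'⟩ := h'
  rw [← funext h'] at h
  refine rep_induction (k := F) (G := G) (fun W _ _ _ σ => ∀ χ, IsCharacter G χ →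
    RealF F ((fun g => algebraMap F ℂ (σ.character g)) + χ) → RealF F χ) ?_ ?_ ?_ _ σ χ hχ h
  · intro W _ _ _ _ σ χ _ h
    rw [char_of_subsingleton] at h
    convert h using 1
    funext; simp
  · intro W _ _ _ σ hσ χ hχ h
    obtain ⟨n, ρ, h⟩ := h
    have h1 := (realF_char σ).char
    have h2 : classInner ((fun g => algebraMap F ℂ (σ.character g)) + χ)
        (fun g => algebraMap F ℂ (σ.character g)) = Module.finrank F (σ.IntertwiningMap ρ) := by
      rw [classInner_char_right _ h1, ← map_natCast (algebraMap F ℂ) (Module.finrank _ _),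
        ← Representation.card_inv_mul_sum_char_mul_char_eq_finrank]
      simp only [← h, map_mul, map_sum, map_inv₀, map_natCast]
    obtain ⟨a, ha⟩ := h1.inner_nat h1
    obtain ⟨b, hb⟩ := hχ.inner_nat h1
    have h3 : a ≠ 0 := by
      rintro rfl
      have := congrFun (classInner_self_eq_zero.1 (ha.trans Nat.cast_zero)) 1
      simp only [Representation.char_one, map_natCast, Pi.zero_apply, Nat.cast_eq_zero] at this
      exact (finrank_pos_of_isIrreducible σ).ne' this
    rw [classInner_add_left, ha, hb, ← Nat.cast_add, Nat.cast_inj] at h2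
    have : Nontrivial (σ.IntertwiningMap ρ) := Module.nontrivial_of_finrank_pos (R := F) (by omega)
    obtain ⟨f, hf⟩ := exists_ne (0 : σ.IntertwiningMap ρ)
    obtain ⟨T, hT⟩ := exists_isCompl f.range
    have h4 := char_eq_add_of_isCompl hT
    rw [← Representation.char_iso (equivRange f
      ((Representation.IsIrreducible.injective_or_eq_zero f).resolve_right hf))] at h4
    convert realF_char T.toRepresentation using 1
    funext g
    have := h g
    rw [h4, Pi.add_apply, map_add, Pi.add_apply, add_right_inj] at this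
    exact this.symm
  · intro W _ _ _ σ S T hST hS hT χ hχ h
    refine hT χ hχ (hS _ ((realF_char _).char.add hχ) ?_)
    convert h using 1
    funext g
    simp [char_eq_add_of_isCompl hST, add_assoc]

open Classical in
theorem realF_ind [Fintype G] (H : Subgroup G) (l : H →* Fˣ) :
    RealF F (indFun H fun h => algebraMap F ℂ (l h)) := by
  have := Fintype.ofFinite (G ⧸ H)
  have := Fintype.ofFinite H
  let l0 : G → F := fun x => if h : x ∈ H then l ⟨x, h⟩ else 0
  have h0 : ∀ x, x ∉ H → l0 x = 0 := fun x hx => dif_neg hx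
  have h1 : ∀ x ∈ H, ∀ y, l0 (x * y) = l0 x * l0 y := fun x hx y => by
    by_cases hy : y ∈ H
    · simp only [l0, dif_pos hx, dif_pos hy, dif_pos (H.mul_mem hx hy)]
      rw [← Units.val_mul, ← map_mul]; rfl
    · rw [h0 y hy, h0 _ (mt (H.mul_mem_cancel_left hx).1 hy), mul_zero]
  have h2 : l0 1 = 1 := by
    simp only [l0, dif_pos H.one_mem]
    exact congrArg Units.val l.map_one
  let M : G →* Matrix (G ⧸ H) (G ⧸ H) F :=
    { toFun := fun g => Matrix.of fun a b => l0 (a.out⁻¹ * g * b.out)
      map_one' := by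
        ext a b
        rw [Matrix.of_apply, Matrix.one_apply, mul_one]
        split_ifs with h
        · rw [h, inv_mul_cancel, h2]
        · exact h0 _ fun e => h (by rw [← a.out_eq, ← b.out_eq]; exact QuotientGroup.eq.2 e)
      map_mul' := fun g h => by
        ext a b
        simp only [Matrix.of_apply, Matrix.mul_apply]
        have e : ∀ c : G ⧸ H, a.out⁻¹ * g * c.out ∈ H ↔ c = ((g⁻¹ * a.out : G) : G ⧸ H) := fun c => by
          rw [eq_comm]
          conv_rhs => rw [← c.out_eq]
          rw [QuotientGroup.eq, mul_inv_rev, inv_inv]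
        rw [Finset.sum_eq_single ((g⁻¹ * a.out : G) : G ⧸ H)
          (fun c _ hc => by rw [h0 _ (mt (e c).1 hc), zero_mul]) (by simp), ← h1 _ ((e _).2 rfl)]
        congr 1; group }
  let ρ : Representation F G (G ⧸ H → F) :=
    (Matrix.toLinAlgEquiv' : Matrix (G ⧸ H) (G ⧸ H) F ≃ₐ[F] _).toMulEquiv.toMonoidHom.comp M
  convert realF_char ρ using 1
  funext g
  have h3 : ρ.character g = ∑ a : G ⧸ H, l0 (a.out⁻¹ * g * a.out) := Matrix.trace_toLin'_eq (M g)
  have h4 : ∀ x, extendByZero H (fun h => algebraMap F ℂ (l h)) x = algebraMap F ℂ (l0 x) := by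
    intro x
    rw [extendByZero_apply]
    simp only [l0]
    split_ifs <;> simp
  rw [h3, indFun_apply, sum_eq_sum_out H, map_sum, Finset.mul_sum]
  refine Finset.sum_congr rfl fun a _ => ?_
  have h5 : ∀ z : H, extendByZero H (fun h => algebraMap F ℂ (l h))
      ((a.out * z)⁻¹ * g * (a.out * z)) = algebraMap F ℂ (l0 (a.out⁻¹ * g * a.out)) := fun z => by
    rw [← h4, ← extendByZero_conj_mem (θ := fun h => algebraMap F ℂ (l h)) (fun x y => by
      simp only [map_mul, map_inv, mul_inv_cancel_comm]) z.2]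
    congr 1; group
  simp only [h5, Finset.sum_const, Finset.card_univ, nsmul_eq_mul, ← Nat.card_eq_fintype_card]
  rw [← mul_assoc, inv_mul_cancel₀ card_ne_zero_complex, one_mul]

theorem realF_of_roots (hF : ∀ z : ℂ, z ^ Monoid.exponent G = 1 → z ∈ (algebraMap F ℂ).range)
    {χ : G → ℂ} (hχ : IsCharacter G χ) : RealF F χ := by
  have := Fintype.ofFinite G
  have key : ∀ φ ∈ Submodule.span ℤ (elSet G), ∃ α β, RealF F α ∧ RealF F β ∧ φ = α - β := by
    intro φ hφ
    induction hφ using Submodule.span_induction with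
    | mem x hx =>
      obtain ⟨E, l, -, rfl⟩ := hx
      have h1 : ∀ e, ∃ a : F, algebraMap F ℂ a = l e := fun e => hF _ (by
        rw [← Units.val_pow_eq_pow_val, ← map_pow,
          show e ^ Monoid.exponent G = 1 from Subtype.ext (Monoid.pow_exponent_eq_one _)]
        simp)
      choose a ha using h1
      let l' : E →* F :=
        { toFun := a
          map_one' := (algebraMap F ℂ).injective (by simp [ha])
          map_mul' := fun x y => (algebraMap F ℂ).injective (by simp [ha]) }
      refine ⟨_, 0, realF_ind E l'.toHomUnits, realF_zero, ?_⟩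
      rw [sub_zero]
      congr 1
      funext e
      exact (ha e).symm
    | zero => exact ⟨0, 0, realF_zero, realF_zero, by simp⟩
    | add x y _ _ hx hy =>
      obtain ⟨a, b, ha, hb, rfl⟩ := hx
      obtain ⟨c, d, hc, hd, rfl⟩ := hy
      exact ⟨_, _, ha.add hc, hb.add hd, by abel⟩
    | smul n x _ hx =>
      obtain ⟨a, b, ha, hb, rfl⟩ := hx
      obtain ⟨m, rfl | rfl⟩ := n.eq_nat_or_neg
      · exact ⟨_, _, ha.nsmul m, hb.nsmul m, by simp [smul_sub]⟩
      · exact ⟨_, _, hb.nsmul m, ha.nsmul m, by simp [smul_sub]; abel⟩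
  obtain ⟨α, β, h1, h2, h3⟩ := key χ (brauer_ind (isChar_top.2 hχ).vchar)
  exact h2.cancel hχ (by rwa [h3, add_sub_cancel])

end

end H21
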