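import Cfsg.Agent.H21.Jord1

/-! Blichfeldt's lemma on elements whose eigenvalues are close to one of them. -/

set_option autoImplicit false
set_option linter.unusedSectionVars false
open Cfsg H17 Subgroup Module
open scoped ComplexConjugate InnerProductSpace

namespace H21

variable {G : Type*} [Group G] [Finite G]

theorem trace_eq_sum_eig {V : Type*} [AddCommGroup V] [Module ℂ V] {ι : Type*} [Fintype ι]
    (b : Basis ι ℂ V) {A : V →ₗ[ℂ] V} {a : ι → ℂ} (hb : ∀ i, A (b i) = a i • b i) :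
    LinearMap.trace ℂ V A = ∑ i, a i := by
  classical
  rw [LinearMap.trace_eq_matrix_trace ℂ b A, Matrix.trace]
  refine Finset.sum_congr rfl fun i _ => ?_
  simp [LinearMap.toMatrix_apply, hb]

section unit
variable {W : Type*} [NormedAddCommGroup W] [InnerProductSpace ℂ W] [FiniteDimensional ℂ W]
  {σ : Representation ℂ G W}

theorem norm_sub_le_of_eig (hσ : ∀ g v, ‖σ g v‖ = ‖v‖) {g : G} {ι : Type*} [Fintype ι]
    (b : Basis ι ℂ W) {a : ι → ℂ} (hb : ∀ i, σ g (b i) = a i • b i) (ha : ∀ i, ‖a i‖ = 1) {c : ℂ}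
    {δ : ℝ} (hδ : 0 ≤ δ) (hr : ∀ i, ‖a i - c‖ ≤ δ) (v : W) : ‖σ g v - c • v‖ ≤ δ * ‖v‖ := by
  classical
  let w : ℂ → W := fun μ => ∑ i with a i = μ, b.repr v i • b i
  set M := Finset.univ.image a with hM
  have hw : ∀ μ, σ g (w μ) = μ • w μ := fun μ => by
    simp only [w, map_sum, map_smul, hb, Finset.smul_sum]
    refine Finset.sum_congr rfl fun i hi => ?_
    rw [(Finset.mem_filter.1 hi).2, smul_comm]
  have hv : v = ∑ μ ∈ M, w μ := by
    rw [Finset.sum_fiberwise_of_maps_to (fun i _ => Finset.mem_image_of_mem a (Finset.mem_univ i)),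
      b.sum_repr]
  have hMa : ∀ μ ∈ M, ‖μ‖ = 1 ∧ ‖μ - c‖ ≤ δ := fun μ hμ => by
    obtain ⟨i, -, rfl⟩ := Finset.mem_image.1 hμ
    exact ⟨ha i, hr i⟩
  have key : ∀ d : ℂ → ℂ, ‖∑ μ ∈ M, d μ • w μ‖ ^ 2 = ∑ μ ∈ M, ‖d μ‖ ^ 2 * ‖w μ‖ ^ 2 := by
    intro d
    apply Complex.ofReal_injective
    have h1 : ((‖∑ μ ∈ M, d μ • w μ‖ ^ 2 : ℝ) : ℂ) =
        ⟪∑ μ ∈ M, d μ • w μ, ∑ μ ∈ M, d μ • w μ⟫_ℂ := by
      rw [inner_self_eq_norm_sq_to_K]; simp
    rw [h1, inner_sum, Complex.ofReal_sum]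
    refine Finset.sum_congr rfl fun μ hμ => ?_
    rw [sum_inner, Finset.sum_eq_single μ (fun ν hν hne => by
      rw [inner_smul_left, inner_smul_right,
        inner_eq_zero_of_eig hσ (hw ν) (hw μ) (hMa ν hν).1 hne, mul_zero, mul_zero])
      (fun h => absurd hμ h), inner_self_eq_norm_sq_to_K, norm_smul]
    simp [mul_pow]
  have h1 : ‖v‖ ^ 2 = ∑ μ ∈ M, ‖w μ‖ ^ 2 := by
    have := key fun _ => 1
    simp only [one_smul, norm_one, one_pow, one_mul] at this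
    rwa [← hv] at this
  have h2 : σ g v - c • v = ∑ μ ∈ M, (μ - c) • w μ := by
    conv_lhs => rw [hv]
    rw [map_sum, Finset.smul_sum, ← Finset.sum_sub_distrib]
    exact Finset.sum_congr rfl fun μ _ => by rw [hw μ, sub_smul]
  refine (pow_le_pow_iff_left₀ (norm_nonneg _) (mul_nonneg hδ (norm_nonneg _)) two_ne_zero).1 ?_
  rw [h2, key, mul_pow, h1, Finset.mul_sum]
  refine Finset.sum_le_sum fun μ hμ => ?_
  exact mul_le_mul_of_nonneg_right (pow_le_pow_left₀ (norm_nonneg _) (hMa μ hμ).2 2) (sq_nonneg _)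

theorem rep_mul_apply (x y : G) (v : W) : σ (x * y) v = σ x (σ y v) := by
  rw [map_mul]; rfl

theorem rep_inv_apply (x : G) (v : W) : σ x⁻¹ (σ x v) = v := by
  rw [← rep_mul_apply, inv_mul_cancel, map_one]; rfl

theorem rep_apply_inv (x : G) (v : W) : σ x (σ x⁻¹ v) = v := by
  rw [← rep_mul_apply, mul_inv_cancel, map_one]; rfl

/-- Blichfeldt: every conjugate of `g` preserves the `α`-eigenspace of `g`. -/
theorem blich_inv (hσ : ∀ g v, ‖σ g v‖ = ‖v‖) {g : G} {α : ℂ} (hα : ‖α‖ = 1) {δ : ℝ}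
    (hδ0 : 0 ≤ δ) (hδ : δ < 1) (hg : ∀ v, ‖σ g v - α • v‖ ≤ δ * ‖v‖) (h : G) {u : W}
    (hu : σ g u = α • u) : σ g (σ (h⁻¹ * g * h) u) = α • σ (h⁻¹ * g * h) u := by
  classical
  letI := Fintype.ofFinite G
  let U : Submodule ℂ W := LinearMap.ker (σ g - α • LinearMap.id)
  have hU : ∀ v, v ∈ U ↔ σ g v = α • v := fun v => by
    simp [U, LinearMap.mem_ker, sub_eq_zero]
  let X : G → (U →L[ℂ] W) := fun h =>
    LinearMap.toContinuousLinearMap ((σ g - α • LinearMap.id) ∘ₗ σ h ∘ₗ U.subtype)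
  have hX : ∀ h (v : U), X h v = σ g (σ h v) - α • σ h v := fun h v => rfl
  let bad : G → Prop := fun h => ∃ v ∈ U, σ (h⁻¹ * g * h) v ∉ U
  have hconj : ∀ h (v : W), ‖σ (h⁻¹ * g * h) v - α • v‖ = ‖σ g (σ h v) - α • σ h v‖ := by
    intro h v
    rw [← hσ h, map_sub, map_smul, rep_mul_apply, rep_mul_apply, rep_apply_inv]
  by_contra hne
  have hbad : bad h := ⟨u, (hU u).2 hu, fun e => hne ((hU _).1 e)⟩
  obtain ⟨x, hx, hmin⟩ := Finset.exists_min_image (Finset.univ.filter bad) (fun x => ‖X x‖)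
    ⟨h, by simpa using hbad⟩
  have hxb : bad x := (Finset.mem_filter.1 hx).2
  set y := x⁻¹ * g * x with hy
  have h1 : ‖X y‖ ≤ δ * ‖X x‖ := by
    refine ContinuousLinearMap.opNorm_le_bound _ (mul_nonneg hδ0 (X x).opNorm_nonneg) fun v => ?_
    have h2 : X y v = σ g (σ y v - α • (v : W)) - α • (σ y v - α • (v : W)) := by
      rw [hX, map_sub, map_smul, (hU v).1 v.2, smul_sub]; abel
    rw [h2]
    refine (hg _).trans ?_
    rw [hy, hconj, ← hX, mul_assoc]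
    exact mul_le_mul_of_nonneg_left ((X x).le_opNorm v) hδ0
  have h0 : 0 < ‖X x‖ := by
    refine lt_of_le_of_ne (X x).opNorm_nonneg fun e0 => ?_
    have e : X x = 0 := (X x).opNorm_zero_iff.1 e0.symm
    obtain ⟨v, hv, hv'⟩ := hxb
    apply hv'
    have h2 := hconj x v
    rw [← hX x ⟨v, hv⟩, e] at h2
    have h3 : σ y v = α • v := sub_eq_zero.1 (norm_eq_zero.1 (h2.trans (by simp)))
    rw [h3]; exact U.smul_mem α hv
  have hyg : ¬ bad y := fun e =>
    (hmin y (Finset.mem_filter.2 ⟨Finset.mem_univ _, e⟩)).not_gt (h1.trans_lt (by nlinarith))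
  obtain ⟨v, hv, hv'⟩ := hxb
  have hv2 : σ (y⁻¹ * g * y) v ∈ U := by
    by_contra e; exact hyg ⟨v, hv, e⟩
  set u' := σ (y⁻¹ * g * y) v - α • v with hu'
  have hu'U : u' ∈ U := U.sub_mem hv2 (U.smul_mem α hv)
  have hw : σ y u' = σ g (σ y v) - α • σ y v := by
    rw [hu', map_sub, map_smul, rep_mul_apply (y⁻¹ * g), rep_mul_apply y⁻¹, rep_apply_inv]
  have hu0 : u' ≠ 0 := by
    intro e
    rw [e, map_zero] at hw
    exact hv' ((hU _).2 (sub_eq_zero.1 hw.symm))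
  have hα2 : conj α * α = 1 := by rw [Complex.conj_mul', hα]; simp
  have horth : ⟪u', σ y u'⟫_ℂ = 0 := by
    have h2 := inner_rep hσ g u' (σ y v)
    rw [(hU u').1 hu'U, inner_smul_left] at h2
    rw [hw, inner_sub_right, inner_smul_right, ← h2, ← mul_assoc, mul_comm α, hα2, one_mul,
      sub_self]
  have h3 : ‖σ y u' - α • u'‖ ≤ δ * ‖u'‖ := by
    rw [hy, hconj]
    refine (hg _).trans ?_
    rw [hσ]
  have h4 := @norm_sub_sq ℂ _ _ _ _ (α • u') (σ y u')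
  rw [inner_smul_left, horth, mul_zero, map_zero, hσ, norm_smul, hα, norm_sub_rev] at h4
  have h5 : 0 < ‖u'‖ := norm_pos_iff.2 hu0
  nlinarith [norm_nonneg (σ y u' - α • u'), mul_lt_mul_of_pos_right hδ h5]

/-- the eigenspace is invariant under the normal closure -/
theorem blich_normalClosure (hσ : ∀ g v, ‖σ g v‖ = ‖v‖) {g : G} {α : ℂ} (hα : ‖α‖ = 1) {δ : ℝ}
    (hδ0 : 0 ≤ δ) (hδ : δ < 1) (hg : ∀ v, ‖σ g v - α • v‖ ≤ δ * ‖v‖) {x : G}
    (hx : x ∈ normalClosure ({g} : Set G)) {u : W}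
    (hu : σ g u = α • u) : σ g (σ x u) = α • σ x u := by
  have hx' : x ∈ (Subgroup.closure (Group.conjugatesOfSet ({g} : Set G))).toSubmonoid := hx
  rw [Subgroup.closure_toSubmonoid_of_finite] at hx'
  induction hx' using Submonoid.closure_induction generalizing u with
  | mem y hy =>
    obtain ⟨_, rfl, hc⟩ := Group.mem_conjugatesOfSet_iff.1 hy
    obtain ⟨c, rfl⟩ := isConj_iff.1 hc
    simpa using blich_inv hσ hα hδ0 hδ hg c⁻¹ hu
  | one => simpa using hu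
  | mul a b ha hb iha ihb =>
    rw [rep_mul_apply]
    have h1 : ∀ z ∈ Submonoid.closure (Group.conjugatesOfSet ({g} : Set G)),
        z ∈ normalClosure ({g} : Set G) := fun z hz => by
      rw [← Subgroup.closure_toSubmonoid_of_finite] at hz; exact hz
    exact iha (h1 a ha) (ihb (h1 b hb) hu)

end unit

theorem norm_sub_lt_of_ceil {z w : ℂ} (hz : ‖z‖ = 1) (hw : ‖w‖ = 1)
    (h : ⌈z.arg / (Real.pi / 3)⌉ = ⌈w.arg / (Real.pi / 3)⌉) : ‖w - z‖ < 1 := by
  have hpi : 0 < Real.pi / 3 := by positivity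
  have h1 : |w.arg - z.arg| < Real.pi / 3 := by
    have h2 : |z.arg / (Real.pi / 3) - w.arg / (Real.pi / 3)| < 1 := by
      have a1 := Int.le_ceil (z.arg / (Real.pi / 3))
      have a2 := Int.le_ceil (w.arg / (Real.pi / 3))
      have a3 := Int.ceil_lt_add_one (z.arg / (Real.pi / 3))
      have a4 := Int.ceil_lt_add_one (w.arg / (Real.pi / 3))
      rw [h] at a1 a3
      rw [abs_lt]
      constructor <;> linarith
    rw [← sub_div, abs_div, abs_of_pos hpi, div_lt_one hpi, abs_sub_comm] at h2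
    exact h2
  have h2 : z⁻¹ * w = Complex.exp ((w.arg - z.arg : ℝ) * Complex.I) := by
    have h3 := Complex.norm_mul_exp_arg_mul_I z
    have h4 := Complex.norm_mul_exp_arg_mul_I w
    rw [hz, Complex.ofReal_one, one_mul] at h3
    rw [hw, Complex.ofReal_one, one_mul] at h4
    rw [Complex.ofReal_sub, sub_mul, Complex.exp_sub, h3, h4]
    ring
  have h3 : 1 / 2 < (z⁻¹ * w).re := by
    rw [h2, Complex.exp_ofReal_mul_I_re, ← Real.cos_pi_div_three, ← Real.cos_abs (w.arg - z.arg)]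
    exact Real.cos_lt_cos_of_nonneg_of_le_pi (abs_nonneg _) (by linarith [Real.pi_pos]) h1
  have hz0 : z ≠ 0 := by rintro rfl; simp at hz
  have h4 : ‖w - z‖ = ‖z⁻¹ * w - 1‖ := by
    rw [show z⁻¹ * w - 1 = z⁻¹ * (w - z) by field_simp, norm_mul, norm_inv, hz]; simp
  have h5 : ‖z⁻¹ * w‖ = 1 := by rw [norm_mul, norm_inv, hz, hw]; simp
  rw [h4]
  set t := z⁻¹ * w
  have h6 : ‖t - 1‖ ^ 2 = 2 - 2 * t.re := by
    have := Complex.sq_norm t
    rw [h5, Complex.normSq_apply] at this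
    rw [Complex.sq_norm, Complex.normSq_apply]
    simp only [Complex.sub_re, Complex.one_re, Complex.sub_im, Complex.one_im]
    nlinarith
  nlinarith [norm_nonneg (t - 1)]

theorem ceil_arg_mem3 (z : ℂ) : ⌈z.arg / (Real.pi / 3)⌉ ∈ Finset.Ioc (-3 : ℤ) 3 := by
  have hpi : 0 < Real.pi / 3 := by positivity
  rw [Finset.mem_Ioc, Int.lt_ceil, Int.ceil_le, lt_div_iff₀ hpi, div_le_iff₀ hpi]
  have h1 := Complex.neg_pi_lt_arg z
  have h2 := Complex.arg_le_pi z
  push_cast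
  constructor <;> linarith

/-- pigeonhole: a power bringing all the numbers close to one -/
theorem exists_pow_close (T : Finset ℂ) (hT : ∀ z ∈ T, ‖z‖ = 1) {p : ℕ} (hp : 6 ^ T.card < p) :
    ∃ d : ℕ, 0 < d ∧ d < p ∧ ∀ z ∈ T, ‖z ^ d - 1‖ < 1 := by
  let f : Fin p → (T → Finset.Ioc (-3 : ℤ) 3) := fun k z =>
    ⟨⌈((z : ℂ) ^ (k : ℕ)).arg / (Real.pi / 3)⌉, ceil_arg_mem3 _⟩
  have h2 : Fintype.card (Finset.Ioc (-3 : ℤ) 3) = 6 := by
    rw [Fintype.card_coe, Int.card_Ioc]; rfl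
  classical
  obtain ⟨k, l, hkl, hf⟩ := Fintype.exists_ne_map_eq_of_card_lt f (by
    rw [Fintype.card_fun, h2, Fintype.card_coe, Fintype.card_fin]; exact hp)
  wlog hlt : (k : ℕ) < l generalizing k l
  · exact this l k hkl.symm hf.symm (lt_of_le_of_ne (not_lt.1 hlt) fun e => hkl (Fin.ext e.symm))
  refine ⟨l - k, by omega, by have := l.2; omega, fun z hz => ?_⟩
  have h1 := norm_sub_lt_of_ceil (z := z ^ (k : ℕ)) (w := z ^ (l : ℕ))
    (by rw [norm_pow, hT z hz, one_pow]) (by rw [norm_pow, hT z hz, one_pow])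
    (congrArg Subtype.val (congrFun hf ⟨z, hz⟩))
  have h3 : z ^ (l : ℕ) - z ^ (k : ℕ) = z ^ (k : ℕ) * (z ^ ((l : ℕ) - k) - 1) := by
    rw [mul_sub, ← pow_add, Nat.add_sub_cancel' hlt.le, mul_one]
  rwa [h3, norm_mul, norm_pow, hT z hz, one_pow, one_mul] at h1

end H21
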