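import Cfsg.Agent.H21.Bl1
import Cfsg.Agent.H21.Basic
import Cfsg.Agent.H19.Kern

/-! The Brauer–Tuan bound for simple groups of order `p ^ a * q ^ b * g₀`. -/

set_option autoImplicit false
set_option linter.unusedSectionVars false
open Cfsg H17 Subgroup Module
open scoped ComplexConjugate InnerProductSpace Classical

namespace H21

theorem few_eig {O : ValuationSubring ℂ} {p : ℕ} [hp : Fact p.Prime] [CharP (H19.kk O) p]
    {ζ : ℂ} (hζ : IsPrimitiveRoot ζ p) {ι : Type*} [Fintype ι] [Nonempty ι] (e : ι → ℕ)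
    (he : ∀ i, e i < p) {g₀ : ℕ} (hg0 : 0 < g₀) (hg : g₀ < p)
    (hint : ∀ k, 0 < k → k < p →
      IsIntegral ℤ (g₀ * (∑ i, (ζ ^ e i) ^ k) / (Fintype.card ι : ℂ)))
    (hcong : g₀ * (∑ i, ζ ^ e i) / (Fintype.card ι : ℂ) - g₀ ∈ O.nonunits) :
    (Finset.univ.image e).card ≤ g₀ := by
  set n := Fintype.card ι with hn
  have hn0 : 0 < n := Fintype.card_pos
  have hnC : (n : ℂ) ≠ 0 := Nat.cast_ne_zero.2 hn0.ne'
  have hζ0 : ζ ≠ 0 := hζ.ne_zero hp.out.ne_zero
  let m : ℕ → ℕ := fun j => (Finset.univ.filter fun i => e i = j).card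
  have hfib : ∀ F : ℕ → ℂ, ∑ i, F (e i) = ∑ j ∈ Finset.range p, (m j : ℂ) * F j := by
    intro F
    rw [← Finset.sum_fiberwise_of_maps_to (s := Finset.univ) (t := Finset.range p) (g := e)
      (fun i _ => Finset.mem_range.2 (he i))]
    refine Finset.sum_congr rfl fun j _ => ?_
    rw [Finset.sum_congr rfl (g := fun _ => F j) fun i hi => by rw [(Finset.mem_filter.1 hi).2],
      Finset.sum_const, nsmul_eq_mul]
  have hm : ∀ j, j < p → (p : ℂ) * m j =
      ∑ k ∈ Finset.range p, (∑ i, (ζ ^ e i) ^ k) * ((ζ ^ j)⁻¹) ^ k := by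
    intro j hj
    simp_rw [Finset.sum_mul, ← mul_pow]
    rw [Finset.sum_comm]
    have h1 : ∀ i, ∑ k ∈ Finset.range p, (ζ ^ e i * (ζ ^ j)⁻¹) ^ k =
        if e i = j then (p : ℂ) else 0 := by
      intro i
      split_ifs with h
      · rw [h, mul_inv_cancel₀ (pow_ne_zero _ hζ0)]; simp
      · have h2 : ζ ^ e i * (ζ ^ j)⁻¹ ≠ 1 := fun h3 =>
          h (hζ.pow_inj (he i) hj ((mul_inv_eq_one₀ (pow_ne_zero _ hζ0)).1 h3))
        rw [geom_sum_eq h2, mul_pow, inv_pow, ← pow_mul, ← pow_mul, mul_comm (e i), mul_comm j,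
          pow_mul, pow_mul, hζ.pow_eq_one]
        simp
    simp_rw [h1]
    rw [← Finset.sum_filter, Finset.sum_const, nsmul_eq_mul, mul_comm]
  obtain ⟨j0, hj0, hmin⟩ := Finset.exists_min_image (Finset.range p) m
    ⟨0, Finset.mem_range.2 hp.out.pos⟩
  have hroot : ∀ j k : ℕ, (((ζ ^ j)⁻¹) ^ k) ^ p ^ 1 = 1 := by
    intro j k
    rw [pow_one, ← pow_mul, mul_comm, pow_mul, inv_pow, ← pow_mul, mul_comm, pow_mul,
      hζ.pow_eq_one]
    simp
  have hc : ∀ j, j < p → n ∣ g₀ * (m j - m j0) := by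
    intro j hj
    have hle := hmin j (Finset.mem_range.2 hj)
    set t : ℂ := ∑ k ∈ Finset.range p, (g₀ * (∑ i, (ζ ^ e i) ^ k) / (n : ℂ)) *
      (((ζ ^ j)⁻¹) ^ k - ((ζ ^ j0)⁻¹) ^ k) with ht
    have h1 : t = ((p * (g₀ * (m j - m j0)) : ℕ) : ℂ) / n := by
      have h2 := hm j hj
      have h3 := hm j0 (Finset.mem_range.1 hj0)
      push_cast [Nat.cast_sub hle]
      rw [show (p : ℂ) * (g₀ * (m j - m j0)) / n = g₀ / n * (p * m j - p * m j0) by ring, h2, h3,
        ← Finset.sum_sub_distrib, Finset.mul_sum]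
      exact Finset.sum_congr rfl fun k _ => by ring
    have h2 : IsIntegral ℤ t := by
      refine IsIntegral.sum _ fun k hk => ?_
      rcases Nat.eq_zero_or_pos k with rfl | hk0
      · simpa using isIntegral_zero
      · refine (hint k hk0 (Finset.mem_range.1 hk)).mul (IsIntegral.sub ?_ ?_)
        · exact IsIntegral.of_pow (pow_pos hp.out.pos 1) (by rw [hroot]; exact isIntegral_one)
        · exact IsIntegral.of_pow (pow_pos hp.out.pos 1) (by rw [hroot]; exact isIntegral_one)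
    have h3 : t ∈ O.nonunits := by
      refine sum_mem fun k hk => ?_
      rcases Nat.eq_zero_or_pos k with rfl | hk0
      · simp
      · refine H19.nonunits_mul_left (H19.mem_of_isIntegral O
          (hint k hk0 (Finset.mem_range.1 hk))) ?_
        have := O.nonunits.sub_mem (H19.sub_one_mem_nonunits_of_pow_prime_pow p (hroot j k))
          (H19.sub_one_mem_nonunits_of_pow_prime_pow p (hroot j0 k))
        simpa using this
    rw [h1] at h2 h3
    obtain ⟨s, hs⟩ := nat_dvd_of_isIntegral_div hn0.ne' h2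
    rw [hs, Nat.cast_mul, mul_div_cancel_left₀ _ hnC, H19.natCast_mem_nonunits_iff p] at h3
    obtain ⟨s, rfl⟩ := h3
    refine ⟨s, Nat.eq_of_mul_eq_mul_left hp.out.pos ?_⟩
    rw [hs]; ring
  choose! c hc using hc
  have hsum : ∑ j ∈ Finset.range p, m j = n := by
    have := hfib fun _ => 1
    simp only [Finset.sum_const, Finset.card_univ, nsmul_eq_mul, mul_one] at this
    exact_mod_cast this.symm
  have hC : n * ∑ j ∈ Finset.range p, c j + g₀ * (p * m j0) = g₀ * n := by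
    rw [Finset.mul_sum, ← Finset.sum_congr rfl fun j hj => hc j (Finset.mem_range.1 hj),
      ← Finset.mul_sum, ← mul_add, ← hsum]
    congr 1
    rw [show p * m j0 = ∑ _j ∈ Finset.range p, m j0 by simp, ← Finset.sum_add_distrib]
    exact Finset.sum_congr rfl fun j hj => Nat.sub_add_cancel (hmin j hj)
  have hγ : g₀ * (∑ i, ζ ^ e i) / (n : ℂ) = ∑ j ∈ Finset.range p, (c j : ℂ) * ζ ^ j := by
    rw [hfib fun j => ζ ^ j, div_eq_iff hnC, Finset.sum_mul, Finset.mul_sum]
    have h1 : ∑ j ∈ Finset.range p, (g₀ : ℂ) * (m j0 * ζ ^ j) = 0 := by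
      rw [← Finset.mul_sum, ← Finset.mul_sum, hζ.geom_sum_eq_zero hp.out.one_lt]; simp
    rw [← sub_zero (∑ j ∈ Finset.range p, (g₀ : ℂ) * (m j * ζ ^ j)), ← h1,
      ← Finset.sum_sub_distrib]
    refine Finset.sum_congr rfl fun j hj => ?_
    have h2 := congrArg (Nat.cast : ℕ → ℂ) (hc j (Finset.mem_range.1 hj))
    push_cast [Nat.cast_sub (hmin j hj)] at h2
    linear_combination ζ ^ j * h2
  set C := ∑ j ∈ Finset.range p, c j with hCdef
  have hCle : C ≤ g₀ := by
    by_contra hlt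
    push Not at hlt
    nlinarith [Nat.zero_le (g₀ * (p * m j0))]
  have h1 : ((g₀ - C : ℕ) : ℂ) ∈ O.nonunits := by
    have h2 : ∑ j ∈ Finset.range p, (c j : ℂ) * (ζ ^ j - 1) ∈ O.nonunits :=
      sum_mem fun j _ => H19.nonunits_mul_left (natCast_mem O _)
        (H19.sub_one_mem_nonunits_of_pow_prime_pow p (n := 1) (by
          rw [pow_one, ← pow_mul, mul_comm, pow_mul, hζ.pow_eq_one, one_pow]))
    have h3 := O.nonunits.sub_mem h2 hcong
    rw [hγ] at h3
    convert h3 using 1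
    rw [Nat.cast_sub hCle, hCdef]
    push_cast
    simp only [mul_sub, mul_one, Finset.sum_sub_distrib]
    ring
  rw [H19.natCast_mem_nonunits_iff p] at h1
  have h2 : C = g₀ := by
    have := Nat.eq_zero_of_dvd_of_lt h1 (by omega)
    omega
  have h3 : m j0 = 0 := by
    rw [h2, mul_comm n] at hC
    have h4 : g₀ * (p * m j0) = 0 := by omega
    simpa [hg0.ne', hp.out.ne_zero] using h4
  rw [← h2, hCdef, Finset.card_eq_sum_ones]
  refine (Finset.sum_le_sum fun j hj => ?_).trans (Finset.sum_le_sum_of_subset (f := c) ?_)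
  · obtain ⟨i, -, rfl⟩ := Finset.mem_image.1 hj
    have h4 := hc _ (he i)
    rw [h3, Nat.sub_zero] at h4
    have h5 : 0 < m (e i) := Finset.card_pos.2 ⟨i, by simp⟩
    rcases Nat.eq_zero_or_pos (c (e i)) with h6 | h6
    · rw [h6, mul_zero] at h4
      exact absurd h4 (Nat.mul_pos hg0 h5).ne'
    · exact h6
  · intro j hj
    obtain ⟨i, -, rfl⟩ := Finset.mem_image.1 hj
    exact Finset.mem_range.2 (he i)

variable {G : Type*} [Group G] [Finite G]

theorem exists_B0_not_dvd {O : ValuationSubring ℂ} {p q : ℕ} [hp : Fact p.Prime]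
    [CharP (H19.kk O) p] (hq : q.Prime) {u : G} (hu : p ∣ orderOf u) :
    ∃ χ ∈ H19.irr (H19.B0 O G), χ ≠ H19.triv G ∧ ¬ q ∣ charDegree (χ : G → ℂ) := by
  by_contra hne
  push Not at hne
  have h1 := H19.Kr_weak (p := p) (H19.B0 O G) (g := 1) (h := u⁻¹) H19.preg_one
    (by rwa [orderOf_inv])
  rw [H19.Kr_eq, inv_inv, ← Finset.add_sum_erase _ _ (a := H19.triv G)
    (Finset.mem_filter.2 ⟨Finset.mem_univ _, H19.triv_mem_B0⟩)] at h1
  have hqC : (q : ℂ) ≠ 0 := Nat.cast_ne_zero.2 hq.ne_zero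
  have h2 : IsIntegral ℤ (((1 : ℕ) : ℂ) / q) := by
    have h3 : ((1 : ℕ) : ℂ) / q = -∑ χ ∈ (Finset.univ.filter (· ∈ H19.irr (H19.B0 O G))).erase
        (H19.triv G), ((χ : G → ℂ) 1 / q) * (χ : G → ℂ) u := by
      simp only [H19.triv_apply, mul_one] at h1
      simp_rw [div_mul_eq_mul_div]
      rw [← Finset.sum_div, ← neg_div]
      congr 1
      push_cast
      linear_combination h1
    rw [h3]
    refine (IsIntegral.sum _ fun χ hχ => IsIntegral.mul ?_ (χ.2.isCharacter.isIntegral u)).neg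
    obtain ⟨c, hc⟩ := hne χ (by simpa using (Finset.mem_erase.1 hχ).2) (Finset.mem_erase.1 hχ).1
    rw [← irr_charDegree_cast, hc, Nat.cast_mul, mul_div_cancel_left₀ _ hqC]
    exact isIntegral_natCast c
  exact hq.one_lt.ne' (Nat.dvd_one.1 (nat_dvd_of_isIntegral_div hq.ne_zero h2))

theorem scalar_of_close [IsSimpleGroup G] {χ : G → ℂ} (hχ : IsIrrCharacter G χ)
    {W : Type*} [NormedAddCommGroup W] [InnerProductSpace ℂ W] [FiniteDimensional ℂ W]
    {σ : Representation ℂ G W} (hσ : ∀ g v, ‖σ g v‖ = ‖v‖) (hc : σ.character = χ) {g : G}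
    (hg1 : g ≠ 1) {α : ℂ} (hα : ‖α‖ = 1) {δ : ℝ} (hδ0 : 0 ≤ δ) (hδ : δ < 1)
    (hg : ∀ v, ‖σ g v - α • v‖ ≤ δ * ‖v‖) {u : W} (hu0 : u ≠ 0) (hu : σ g u = α • u) :
    g ∈ charCenter χ := by
  obtain ⟨n, ρ, hρ, hρc⟩ := hχ
  obtain ⟨e⟩ := nonempty_equiv_of_char_eq ρ σ (hρc.trans hc.symm)
  have hirr := (isIrreducible_iff σ).1 (isIrreducible_of_equiv e hρ)
  have hN : normalClosure ({g} : Set G) = ⊤ :=
    (IsSimpleGroup.eq_bot_or_eq_top_of_normal _ inferInstance).resolve_left fun h =>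
      hg1 (mem_bot.1 (h ▸ subset_normalClosure rfl))
  let U : Submodule ℂ W := LinearMap.ker (σ g - α • LinearMap.id)
  have hU : ∀ v, v ∈ U ↔ σ g v = α • v := fun v => by
    simp [U, LinearMap.mem_ker, sub_eq_zero]
  have := (hirr.2 U fun x v hv => (hU _).2 (blich_normalClosure hσ hα hδ0 hδ hg
    (hN ▸ mem_top x) ((hU v).1 hv))).resolve_left fun h =>
      hu0 ((Submodule.mem_bot ℂ).1 (h ▸ (hU u).2 hu))
  rw [← hc, mem_charCenter_character]
  exact ⟨α, LinearMap.ext fun v => (hU v).1 (this ▸ Submodule.mem_top)⟩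

theorem brauer_tuan [IsSimpleGroup G] {p q a b g₀ : ℕ} (hp : p.Prime) (hq : q.Prime)
    (ha : 0 < a) (hg : Nat.card G = p ^ a * q ^ b * g₀) (hpq : p ≠ q) (hcop : ¬ p ∣ g₀)
    (hne : Nat.card G ≠ p) : p < 6 ^ (g₀ - 1) := by
  haveI := Fact.mk hp
  by_contra hlt
  push Not at hlt
  have hlt' : 6 ^ (g₀ - 1) < p := by
    refine lt_of_le_of_ne hlt fun e => ?_
    rcases Nat.eq_zero_or_pos (g₀ - 1) with h | h
    · rw [h] at e; exact hp.one_lt.ne (by simpa using e)
    · have h2 : 2 ∣ p := e ▸ (dvd_pow (by norm_num) h.ne')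
      have h3 : 3 ∣ p := e ▸ (dvd_pow (by norm_num) h.ne')
      have := (Nat.prime_dvd_prime_iff_eq Nat.prime_two hp).1 h2
      omega
  have hg0 : 0 < g₀ := Nat.pos_of_ne_zero fun e => hcop (e ▸ dvd_zero p)
  have hgp : g₀ < p := by
    have := Nat.lt_pow_self (n := g₀ - 1) (show 1 < 6 by norm_num)
    omega
  have hpG : p ∣ Nat.card G := by
    rw [hg, mul_assoc]; exact (dvd_pow_self p ha.ne').mul_right _
  have hZ : center G = ⊥ := by
    refine (IsSimpleGroup.eq_bot_or_eq_top_of_normal _ inferInstance).resolve_right fun h => ?_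
    letI : CommGroup G := { (inferInstance : Group G) with
      mul_comm := fun x y => (mem_center_iff.1 (h ▸ mem_top y) x) }
    exact hne ((Nat.prime_dvd_prime_iff_eq hp IsSimpleGroup.prime_card).1 hpG).symm
  obtain ⟨P⟩ : Nonempty (Sylow p G) := inferInstance
  have hPi : (P : Subgroup G).index ∣ q ^ b * g₀ := by
    have h1 := (P : Subgroup G).index_dvd_card
    rw [hg, mul_assoc] at h1
    exact (Nat.Coprime.pow_right a ((hp.coprime_iff_not_dvd.2 P.not_dvd_index).symm)).dvd_of_dvd_mul_left h1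
  haveI : Nontrivial (P : Subgroup G) := by
    rw [← Finite.one_lt_card_iff_nontrivial, P.card_eq_multiplicity]
    exact Nat.one_lt_pow (hp.factorization_pos_of_dvd Nat.card_pos.ne' hpG).ne' hp.one_lt
  haveI := P.isPGroup'.center_nontrivial
  obtain ⟨u0, hu0⟩ := exists_prime_orderOf_dvd_card' (G := center (P : Subgroup G)) p (by
    obtain ⟨k, hk0, hk⟩ := (P.isPGroup'.to_subgroup (center (P : Subgroup G))).nontrivial_iff_card.1
      inferInstance
    rw [hk]; exact dvd_pow_self p hk0.ne')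
  set u : G := ((u0 : (P : Subgroup G)) : G) with hu
  have huo : orderOf u = p := by rw [hu, orderOf_coe, orderOf_coe, hu0]
  have hPu : ∀ k : ℕ, (P : Subgroup G) ≤ centralizer {u ^ k} := fun k x hx =>
    mem_centralizer_singleton_iff.2 (Commute.pow_right
      (congrArg Subtype.val (mem_center_iff.1 u0.2 ⟨x, hx⟩)) k)
  obtain ⟨O, hO⟩ := H19.exists_val p
  obtain ⟨χ, hχB, hχ1, hχq⟩ := exists_B0_not_dvd (O := O) (p := p) hq (u := u) (huo ▸ dvd_rfl)
  have hker : charKer (χ : G → ℂ) = ⊥ :=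
    χ.2.charKer_eq_bot_of_simple fun e => hχ1 (Subtype.ext e)
  obtain ⟨W, _, _, _, σ, hσ, hc⟩ := exists_unitary χ.2.isCharacter
  set n := finrank ℂ W with hn
  obtain ⟨β, l, hβ⟩ : ∃ (b : Basis (Fin n) ℂ W) (l : Fin n → (zpowers u →* ℂˣ)),
      ∀ g i, σ (g : zpowers u) (b i) = (l i g : ℂ) • b i :=
    exists_eigenbasis (σ.comp (zpowers u).subtype : Representation ℂ _ W)
      (IsMulCommutative.is_comm (M := zpowers u)).1
  have hχn : (χ : G → ℂ) 1 = n := by rw [← hc, Representation.char_one]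
  have hdeg : charDegree (χ : G → ℂ) = n := charDegree_eq_of_one hχn
  have hn0 : 0 < n := hdeg ▸ charDegree_pos χ.2
  have hnC : (n : ℂ) ≠ 0 := Nat.cast_ne_zero.2 hn0.ne'
  haveI : Nonempty (Fin n) := ⟨⟨0, hn0⟩⟩
  have hζ := Complex.isPrimitiveRoot_exp p hp.ne_zero
  set ζ := Complex.exp (2 * Real.pi * Complex.I / p) with hζdef
  haveI : NeZero p := ⟨hp.ne_zero⟩
  have hε : ∀ i, ∃ j < p, ζ ^ j = (l i ⟨u, mem_zpowers u⟩ : ℂ) := fun i =>
    hζ.eq_pow_of_pow_eq_one (by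
      rw [← Units.val_pow_eq_pow_val, ← map_pow]
      have : (⟨u, mem_zpowers u⟩ : zpowers u) ^ p = 1 :=
        Subtype.ext (by simp [← huo])
      rw [this, map_one, Units.val_one])
  choose e he hee using hε
  have hζ1 : ‖ζ‖ = 1 := norm_eq_one_of_pow_eq_one' hp.ne_zero hζ.pow_eq_one
  have hζ0 : ζ ≠ 0 := hζ.ne_zero hp.ne_zero
  have hev : ∀ (k : ℕ) i, σ (u ^ k) (β i) = (ζ ^ e i) ^ k • β i := by
    intro k i
    have := hβ (⟨u, mem_zpowers u⟩ ^ k) i
    rw [map_pow (l i), Units.val_pow_eq_pow_val, ← hee] at this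
    exact this
  have hval : ∀ k : ℕ, (χ : G → ℂ) (u ^ k) = ∑ i, (ζ ^ e i) ^ k := fun k => by
    rw [← hc]; exact trace_eq_sum_eig β (hev k)
  have hfew := few_eig (O := O) hζ e he hg0 hgp
    (by
      intro k _ _
      rw [← hval, Fintype.card_fin]
      have h1 := χ.2.isIntegral_central (u ^ k)
      obtain ⟨c, hc⟩ := (index_dvd_of_le (hPu k)).trans hPi
      have h2 : IsIntegral ℤ (((q ^ b * g₀ : ℕ) : ℂ) * (χ : G → ℂ) (u ^ k) / n) := by
        have e1 : ((q ^ b * g₀ : ℕ) : ℂ) * (χ : G → ℂ) (u ^ k) / n = (c : ℂ) *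
            (((centralizer ({u ^ k} : Set G)).index : ℂ) * (χ : G → ℂ) (u ^ k) / (χ : G → ℂ) 1) := by
          rw [hc, hχn]; push_cast; ring
        rw [e1]
        exact (isIntegral_natCast (B := ℂ) c).mul h1
      have h3 : IsCoprime ((q ^ b : ℕ) : ℤ) (n : ℤ) := Nat.isCoprime_iff_coprime.2
        (Nat.Coprime.pow_left b (hq.coprime_iff_not_dvd.2 (hdeg ▸ hχq)))
      obtain ⟨x, y, hxy⟩ := h3
      have h4 : (x : ℂ) * (q : ℂ) ^ b + y * n = 1 := by exact_mod_cast hxy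
      have e2 : (g₀ : ℂ) * (χ : G → ℂ) (u ^ k) / n =
          (x : ℂ) * (((q ^ b * g₀ : ℕ) : ℂ) * (χ : G → ℂ) (u ^ k) / n) +
            (y : ℂ) * ((g₀ : ℂ) * (χ : G → ℂ) (u ^ k)) := by
        push_cast
        field_simp
        linear_combination (-(g₀ : ℂ) * (χ : G → ℂ) (u ^ k)) * h4
      rw [e2]
      exact ((isIntegral_intCast (B := ℂ) x).mul h2).add ((isIntegral_intCast (B := ℂ) y).mul
        ((isIntegral_natCast (B := ℂ) g₀).mul (χ.2.isCharacter.isIntegral (u ^ k)))))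
    (by
      have h1 := hval 1
      simp only [pow_one] at h1
      rw [← h1, Fintype.card_fin]
      have h2 := (H19.lam_eq_iff χ (H19.triv G)).1 hχB u
      have h3 : ¬ p ∣ (centralizer ({u} : Set G)).index := fun e =>
        P.not_dvd_index (e.trans (index_dvd_of_le (by simpa using hPu 1)))
      have h4 := H19.nonunits_mul_left (O.mul_mem _ _ (natCast_mem O g₀)
        (H19.inv_natCast_mem p h3)) h2
      have h5 : ((centralizer ({u} : Set G)).index : ℂ) ≠ 0 :=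
        Nat.cast_ne_zero.2 index_ne_zero_of_finite
      convert h4 using 1
      simp only [centralChar, H19.triv_apply, hχn]
      field_simp)
  let i0 : Fin n := ⟨0, hn0⟩
  obtain ⟨d, hd0, hdp, hd⟩ := exists_pow_close
    (((Finset.univ.image e).erase (e i0)).image fun j => ζ ^ j * (ζ ^ e i0)⁻¹)
    (by
      intro z hz
      obtain ⟨j, -, rfl⟩ := Finset.mem_image.1 hz
      simp [hζ1])
    (lt_of_le_of_lt (Nat.pow_le_pow_right (by norm_num) (Finset.card_image_le.trans (by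
      rw [Finset.card_erase_of_mem (Finset.mem_image_of_mem e (Finset.mem_univ i0))]
      omega))) hlt')
  have hcl : ∀ i, ‖(ζ ^ e i) ^ d - (ζ ^ e i0) ^ d‖ < 1 := by
    intro i
    by_cases h : e i = e i0
    · rw [h]; simp
    · have h1 := hd _ (Finset.mem_image_of_mem _ (Finset.mem_erase.2
        ⟨h, Finset.mem_image_of_mem e (Finset.mem_univ i)⟩))
      have h2 : (ζ ^ e i) ^ d - (ζ ^ e i0) ^ d =
          (ζ ^ e i0) ^ d * ((ζ ^ e i * (ζ ^ e i0)⁻¹) ^ d - 1) := by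
        rw [mul_sub, ← mul_pow, mul_one, mul_comm (ζ ^ e i), mul_inv_cancel_left₀ (pow_ne_zero _ hζ0)]
      rw [h2, norm_mul]
      simpa [hζ1] using h1
  obtain ⟨i1, hi1⟩ := Finite.exists_max fun i => ‖(ζ ^ e i) ^ d - (ζ ^ e i0) ^ d‖
  have hud : u ^ d ≠ 1 := pow_ne_one_of_lt_orderOf hd0.ne' (huo ▸ hdp)
  have hcen := scalar_of_close χ.2 hσ hc hud (α := (ζ ^ e i0) ^ d) (by simp [hζ1])
    (norm_nonneg _) (hcl i1)
    (norm_sub_le_of_eig hσ β (hev d) (fun i => by simp [hζ1]) (norm_nonneg _) hi1)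
    (β.ne_zero i0) (hev d i0)
  rw [χ.2.charCenter_eq_center hker, hZ] at hcen
  exact hud (mem_bot.1 hcen)

end H21
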