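import Cfsg.Agent.H21.Bl1
import Cfsg.Agent.H21.Basic
import Cfsg.Agent.H9.Basic
import Cfsg.Agent.H1.Cores

/-! Linear groups of degree less than `2 p` with non-abelian Sylow `p`-subgroups. -/

set_option autoImplicit false
set_option linter.unusedSectionVars false
open Cfsg H17 Subgroup Module
open scoped ComplexConjugate InnerProductSpace Classical commutatorElement

namespace H21

variable {G : Type*} [Group G] [Finite G]

theorem pgroup_deg {p : ℕ} [hp : Fact p.Prime] (hG : IsPGroup p G) {θ : G → ℂ}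
    (hθ : IsIrrCharacter G θ) : ∃ k, charDegree θ = p ^ k := by
  obtain ⟨k, hk⟩ := IsPGroup.iff_card.1 hG
  have := hθ.degree_dvd_card (charDegree_cast hθ.isCharacter).symm
  rw [hk] at this
  exact ((Nat.dvd_prime_pow hp.out).1 this).imp fun _ h => h.2

theorem lin_apply_comm {θ : G → ℂ} (hθ : IsIrrCharacter G θ) (h : charDegree θ = 1) {y : G}
    (hy : y ∈ commutator G) : θ y = 1 := by
  have h1 := (charDegree_eq_one_iff hθ.isCharacter).1 h
  rw [apply_eq_of_mem_charKer (hθ.one_eq_one_iff.1 h1 hy), h1]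

theorem deg_sum {φ : G → ℂ} {r n : ℕ} {f : Fin r → G → ℂ} (hf : ∀ i, IsIrrCharacter G (f i))
    (h : φ = ∑ i, f i) (hn : φ 1 = n) : ∑ i, charDegree (f i) = n := by
  have : ((∑ i, charDegree (f i) : ℕ) : ℂ) = n := by
    rw [← hn, h, Finset.sum_apply]; push_cast
    exact Finset.sum_congr rfl fun i _ => charDegree_cast (hf i).isCharacter
  exact_mod_cast this

theorem comm_le_ker_of_lt {p : ℕ} [hp : Fact p.Prime] (hG : IsPGroup p G) {φ : G → ℂ}
    (hφ : IsCharacter G φ) {d : ℕ} (hd : φ 1 = d) (hdp : d < p) : commutator G ≤ charKer φ := by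
  obtain ⟨r, f, hf, h⟩ := hφ.exists_fin_sum
  have hs := deg_sum hf h hd
  have h1 : ∀ i, charDegree (f i) = 1 := by
    intro i
    obtain ⟨k, hk⟩ := pgroup_deg hG (hf i)
    have h2 : charDegree (f i) ≤ d := hs ▸ Finset.single_le_sum
      (f := fun i => charDegree (f i)) (fun _ _ => Nat.zero_le _) (Finset.mem_univ i)
    rcases k with _ | k
    · simpa using hk
    · have := Nat.le_of_dvd (charDegree_pos (hf i)) (hk ▸ dvd_pow_self p (Nat.succ_ne_zero k))
      omega
  intro y hy
  rw [hφ.mem_charKer, h, Finset.sum_apply, Finset.sum_apply]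
  exact Finset.sum_congr rfl fun i _ => by
    rw [lin_apply_comm (hf i) (h1 i) hy, lin_apply_comm (hf i) (h1 i) (one_mem _)]

theorem exists_two_eig {p : ℕ} [hp : Fact p.Prime] (hG : IsPGroup p G) {φ : G → ℂ}
    (hφ : IsCharacter G φ) (hf : ∀ g, φ g = φ 1 → g = 1) {n : ℕ} (hn : φ 1 = n) (h2 : n < 2 * p)
    (hna : commutator G ≠ ⊥) {ω : ℂ} (hω : IsPrimitiveRoot ω p) :
    p ≤ n ∧ ∃ z : G, ∀ k : ℕ, φ (z ^ k) = (n - p : ℂ) + p * ω ^ k := by
  haveI : Group.IsNilpotent G := hG.isNilpotent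
  obtain ⟨r, f, hfi, h⟩ := hφ.exists_fin_sum
  have hs := deg_sum hfi h hn
  have hge : ∀ i, charDegree (f i) ≠ 1 → p ≤ charDegree (f i) := by
    intro i hi
    obtain ⟨k, hk⟩ := pgroup_deg hG (hfi i)
    rcases k with _ | k
    · exact absurd (by simpa using hk) hi
    · exact Nat.le_of_dvd (charDegree_pos (hfi i)) (hk ▸ dvd_pow_self p (Nat.succ_ne_zero k))
  obtain ⟨i0, hi0⟩ : ∃ i, charDegree (f i) ≠ 1 := by
    by_contra hne
    push Not at hne
    apply hna
    rw [eq_bot_iff]
    intro y hy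
    apply hf
    rw [h, Finset.sum_apply, Finset.sum_apply]
    exact Finset.sum_congr rfl fun i _ => by
      rw [lin_apply_comm (hfi i) (hne i) hy, lin_apply_comm (hfi i) (hne i) (one_mem _)]
  have hs' := hs
  rw [← Finset.add_sum_erase _ _ (Finset.mem_univ i0)] at hs'
  have hp0 := hge i0 hi0
  have hlin : ∀ i ∈ Finset.univ.erase i0, charDegree (f i) = 1 := by
    intro i hi
    by_contra hne
    have h3 := hge i hne
    have h4 := Finset.single_le_sum (f := fun i => charDegree (f i)) (fun _ _ => Nat.zero_le _) hi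
    omega
  have hdp : charDegree (f i0) = p := by
    obtain ⟨k, hk⟩ := pgroup_deg hG (hfi i0)
    rcases k with _ | _ | k
    · exact absurd (by simpa using hk) hi0
    · simpa using hk
    · have h3 : p ^ 2 ≤ charDegree (f i0) := hk ▸ Nat.pow_le_pow_right hp.out.pos (by omega)
      have := hp.out.two_le
      have h4 : charDegree (f i0) < 2 * p := by omega
      nlinarith
  refine ⟨by omega, ?_⟩
  have hZ := H9.inf_center_ne_bot hna
  haveI : Nontrivial (commutator G ⊓ center G : Subgroup G) := (nontrivial_iff_ne_bot _).2 hZ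
  obtain ⟨z0, hz0⟩ := exists_prime_orderOf_dvd_card' (G := (commutator G ⊓ center G : Subgroup G))
    p (by
      obtain ⟨k, hk0, hk⟩ := (hG.to_subgroup (commutator G ⊓ center G)).nontrivial_iff_card.1
        inferInstance
      rw [hk]; exact dvd_pow_self p hk0.ne')
  obtain ⟨l, hl⟩ := (hfi i0).exists_linear_center
  set μ : ℂ := ((l ⟨z0, z0.2.2⟩ : ℂˣ) : ℂ) with hμ
  have hval : ∀ k : ℕ, φ ((z0 : G) ^ k) = (n - p : ℂ) + p * μ ^ k := by
    intro k
    rw [h, Finset.sum_apply, ← Finset.add_sum_erase _ _ (Finset.mem_univ i0)]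
    have h3 := hl (⟨z0, z0.2.2⟩ ^ k) 1
    rw [mul_one, map_pow, Units.val_pow_eq_pow_val, ← charDegree_cast (hfi i0).isCharacter,
      hdp] at h3
    have h4 : ∑ i ∈ Finset.univ.erase i0, f i ((z0 : G) ^ k) =
        ((∑ i ∈ Finset.univ.erase i0, charDegree (f i) : ℕ) : ℂ) := by
      push_cast
      exact Finset.sum_congr rfl fun i hi => by
        rw [lin_apply_comm (hfi i) (hlin i hi) (pow_mem z0.2.1 k), hlin i hi, Nat.cast_one]
    have h5 : ((∑ i ∈ Finset.univ.erase i0, charDegree (f i) : ℕ) : ℂ) = n - p := by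
      rw [← hs', hdp]; push_cast; ring
    rw [h4, h5]
    erw [h3]
    ring
  have hμp : μ ^ p = 1 := by
    rw [hμ, ← Units.val_pow_eq_pow_val, ← map_pow]
    have : (⟨z0, z0.2.2⟩ : center G) ^ p = 1 :=
      Subtype.ext (congrArg (fun x : (commutator G ⊓ center G : Subgroup G) => (x : G))
        (hz0 ▸ pow_orderOf_eq_one z0))
    rw [this, map_one, Units.val_one]
  have hμ1 : μ ≠ 1 := by
    intro e
    have h3 := hval 1
    rw [e, pow_one, ← hn] at h3
    have h4 := hf _ (h3.trans (by ring))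
    have h5 : z0 = 1 := Subtype.ext h4
    rw [h5, orderOf_one] at hz0
    exact hp.out.one_lt.ne hz0
  have hμprim : IsPrimitiveRoot μ p := by
    have := orderOf_eq_prime hμp hμ1
    rw [← this]; exact IsPrimitiveRoot.orderOf μ
  haveI : NeZero p := ⟨hp.out.ne_zero⟩
  obtain ⟨j, -, hj⟩ := hμprim.eq_pow_of_pow_eq_one hω.pow_eq_one
  exact ⟨(z0 : G) ^ j, fun k => by rw [← pow_mul, hval, pow_mul, hj]⟩

theorem eig_mem_two {ι : Type*} [Fintype ι] {ε : ι → ℂ} {p : ℕ} (hp : 0 < p)
    (hε : ∀ i, ε i ^ p = 1) {a b ω : ℂ} (h : ∀ k : ℕ, ∑ i, ε i ^ k = a + b * ω ^ k) (i : ι) :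
    ε i = 1 ∨ ε i = ω := by
  have h1 : ∀ F : Polynomial ℂ, ∑ i, F.eval (ε i) = a * F.eval 1 + b * F.eval ω := by
    intro F
    induction F using Polynomial.induction_on' with
    | add F H ih1 ih2 =>
      simp only [Polynomial.eval_add, Finset.sum_add_distrib, ih1, ih2]; ring
    | monomial k c =>
      simp only [Polynomial.eval_monomial, one_pow]
      rw [← Finset.mul_sum, h]; ring
  open Polynomial in
  have h2 := h1 ((X - 1) * (X - C ω) * ((X ^ (p - 1) - 1) * (X ^ (p - 1) - C (conj ω))))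
  simp only [Polynomial.eval_mul, Polynomial.eval_sub, Polynomial.eval_X, Polynomial.eval_one,
    Polynomial.eval_C, Polynomial.eval_pow, sub_self, zero_mul, mul_zero, add_zero] at h2
  have h3 : ∀ i, (ε i - 1) * (ε i - ω) * ((ε i ^ (p - 1) - 1) * (ε i ^ (p - 1) - conj ω)) =
      ((‖(ε i - 1) * (ε i - ω)‖ ^ 2 : ℝ) : ℂ) := by
    intro i
    have h4 : ε i ^ (p - 1) = conj (ε i) := by
      have h5 : conj (ε i) * ε i = 1 := by
        rw [Complex.conj_mul', norm_eq_one_of_pow_eq_one' hp.ne' (hε i)]; simp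
      have h6 : ε i * ε i ^ (p - 1) = 1 := by
        rw [← pow_succ', Nat.sub_add_cancel hp, hε]
      linear_combination (-ε i ^ (p - 1)) * h5 + conj (ε i) * h6
    rw [h4]
    push_cast
    rw [← Complex.mul_conj']
    simp
  simp_rw [h3] at h2
  have h4 : ∑ i, ‖(ε i - 1) * (ε i - ω)‖ ^ 2 = 0 := by exact_mod_cast h2
  have h5 := (Finset.sum_eq_zero_iff_of_nonneg fun i _ => sq_nonneg _).1 h4 i (Finset.mem_univ i)
  simpa [sub_eq_zero] using h5

theorem ind_comm [Fintype G] {T H : Subgroup G} {ψ : T → ℂ} (hψ : IsCharacter T ψ)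
    (hH : H ≤ T.normalCore)
    (h : ∀ φ : H → ℂ, IsCharacter H φ → φ 1 = ψ 1 → commutator H ≤ charKer φ) {y : H}
    (hy : y ∈ commutator H) : indFun T ψ y = indFun T ψ 1 := by
  rw [indFun_apply', indFun_apply']
  congr 1
  refine Finset.sum_congr rfl fun x _ => ?_
  let f : H →* T := ((MulAut.conj x).toMonoidHom.comp H.subtype).codRestrict T fun a => hH a.2 x
  have h1 := apply_eq_of_mem_charKer (h _ (hψ.comp f) (by rw [map_one]) hy)
  rw [extendByZero_of_mem ψ (hH y.2 x), extendByZero_of_mem ψ (by simp)]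
  exact h1

theorem not_sq_dvd_factorial {p : ℕ} (hp : p.Prime) {m : ℕ} (hm : m < 2 * p) :
    ¬ p ^ 2 ∣ m.factorial := by
  induction m with
  | zero => simpa using hp.one_lt.ne'
  | succ m ih =>
    rw [Nat.factorial_succ]
    intro h
    by_cases h1 : p ∣ m + 1
    · obtain ⟨c, hc⟩ := h1
      have hc1 : c = 1 := by
        rcases c with _ | _ | c
        · omega
        · rfl
        · nlinarith
      rw [hc1, mul_one] at hc
      rw [hc, pow_two] at h
      have := (hp.dvd_factorial).1 (Nat.dvd_of_mul_dvd_mul_left hp.pos h)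
      omega
    · exact ih (by omega) ((Nat.Coprime.pow_left 2 (hp.coprime_iff_not_dvd.2 h1)).dvd_of_dvd_mul_left h)

theorem not_sq_dvd_index {χ : G → ℂ} (hχ : IsIrrCharacter G χ) (hf : ∀ g, χ g = χ 1 → g = 1)
    {n p : ℕ} (hn : χ 1 = n) (hp : p.Prime) (h7 : 7 ≤ p) (h2 : n < 2 * p) (hnp : n ≠ p)
    (P : Sylow p G) (hna : commutator (P : Subgroup G) ≠ ⊥) : ¬ p ^ 2 ∣ (pCore p G).index := by
  haveI := Fact.mk hp
  letI := Fintype.ofFinite G
  have hω := Complex.isPrimitiveRoot_exp p hp.ne_zero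
  set ω := Complex.exp (2 * Real.pi * Complex.I / p) with hωdef
  have hω1 : ‖ω - 1‖ < 1 := by
    have h1 : ω = Complex.exp (Complex.I * ((2 * Real.pi / p : ℝ) : ℂ)) := by
      rw [hωdef]; congr 1; push_cast; ring
    rw [h1]
    refine Real.norm_exp_I_mul_ofReal_sub_one_le.trans_lt ?_
    have h3 : (7 : ℝ) ≤ p := by exact_mod_cast h7
    rw [Real.norm_of_nonneg (by positivity), div_lt_one (by linarith)]
    linarith [Real.pi_lt_d2]
  obtain ⟨hpn, z, hz⟩ := exists_two_eig P.isPGroup' (hχ.isCharacter.restrict P)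
    (fun g hg => Subtype.ext (hf g hg)) hn h2 hna hω
  have hker : charKer χ = ⊥ := eq_bot_iff.2 fun g hg => hf g (apply_eq_of_mem_charKer hg)
  have hzp : (z : G) ^ p = 1 := hf _ (by
    have := hz p
    rw [hω.pow_eq_one] at this
    rw [hn]; exact this.trans (by ring))
  obtain ⟨W, _, _, _, σ, hσ, hc⟩ := exists_unitary hχ.isCharacter
  obtain ⟨β, l, hβ⟩ : ∃ (b : Basis (Fin (finrank ℂ W)) ℂ W)
      (l : Fin (finrank ℂ W) → (zpowers (z : G) →* ℂˣ)),
      ∀ g i, σ (g : zpowers (z : G)) (b i) = (l i g : ℂ) • b i :=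
    exists_eigenbasis (σ.comp (zpowers (z : G)).subtype : Representation ℂ _ W)
      (IsMulCommutative.is_comm (M := zpowers (z : G))).1
  let ε : Fin (finrank ℂ W) → ℂ := fun i => l i ⟨z, mem_zpowers _⟩
  have hev : ∀ (k : ℕ) i, σ ((z : G) ^ k) (β i) = ε i ^ k • β i := by
    intro k i
    have := hβ (⟨z, mem_zpowers _⟩ ^ k) i
    rw [map_pow (l i), Units.val_pow_eq_pow_val] at this
    exact this
  have hεp : ∀ i, ε i ^ p = 1 := by
    intro i
    have := hev p i
    rw [hzp, map_one] at this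
    have h3 : (ε i ^ p - 1) • β i = 0 := by rw [sub_smul, ← this, one_smul]; simp
    exact sub_eq_zero.1 ((smul_eq_zero.1 h3).resolve_right (β.ne_zero i))
  have hε := eig_mem_two hp.pos hεp (a := n - p) (b := p) (ω := ω) fun k => by
    rw [← hz k, ← trace_eq_sum_eig β (hev k), ← hc]; rfl
  have hε1 : ∀ i, ‖ε i‖ = 1 := fun i => norm_eq_one_of_pow_eq_one' hp.ne_zero (hεp i)
  have hev1 : ∀ i, σ z (β i) = ε i • β i := fun i => by simpa using hev 1 i
  set A := normalClosure ({(z : G)} : Set G) with hA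
  have hzA : ∀ x ∈ A, (z : G) * x = x * z := by
    intro x hx
    have h3 : σ ((z : G) * x) = σ (x * z) := β.ext fun i => by
      rw [rep_mul_apply, rep_mul_apply, hev1, map_smul]
      refine blich_normalClosure hσ (hε1 i) (norm_nonneg _) hω1
        (norm_sub_le_of_eig hσ β hev1 hε1 (norm_nonneg _) fun j => ?_) hx (hev1 i)
      rcases hε i with h | h <;> rcases hε j with h' | h' <;> rw [h, h'] <;>
        simp [norm_sub_rev]
    have h4 : (z : G) * x * (x * z)⁻¹ = 1 := hf _ (by
      rw [← hc]; unfold Representation.character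
      rw [map_mul, h3, ← map_mul, mul_inv_cancel])
    exact mul_inv_eq_one.1 h4
  have hAc : A ≤ centralizer (A : Set G) :=
    normalClosure_le_normal (by
      rintro _ rfl
      exact fun x hx => (hzA x hx).symm)
  obtain ⟨T, -, hT, ψ, hψ, hχT⟩ := hχ.exists_induced A
    (by rw [commutator_eq_bot_iff_le_centralizer.2 hAc]; exact bot_le)
    (by
      intro h
      obtain ⟨w, hw⟩ := mem_charCenter_def.1 (h (subset_normalClosure rfl))
      have h3 := hz 1
      have h4 := hz 2
      have h5 := hw 1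
      have h6 := hw z
      simp only [pow_one, mul_one] at h3 h5
      rw [hn, h3] at h5
      rw [← pow_two, h3] at h6
      erw [h4] at h6
      have h7' : (n - p : ℂ) * p * (ω - 1) ^ 2 = 0 := by
        linear_combination (n : ℂ) * h6 - ((n - p : ℂ) + p * ω) * h5
      have h8 : (n - p : ℂ) ≠ 0 := sub_ne_zero.2 (by exact_mod_cast hnp)
      have h9 : (p : ℂ) ≠ 0 := Nat.cast_ne_zero.2 hp.ne_zero
      exact hω.ne_one hp.one_lt (by simpa [h8, h9, sub_eq_zero] using h7'))
  set d := charDegree ψ with hd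
  have hψd : ψ 1 = d := (charDegree_cast hψ.isCharacter).symm
  have hd0 : 0 < d := charDegree_pos hψ
  have hnd : n = T.index * d := by
    have := hn
    rw [hχT, indFun_one, hψd] at this
    exact_mod_cast this.symm
  have hm2 : 2 ≤ T.index := by
    have h3 : T.index ≠ 1 := fun e => hT (index_eq_one.1 e)
    have h4 : T.index ≠ 0 := index_ne_zero_of_finite
    omega
  set N := T.normalCore with hN
  have hNi : N.index ∣ T.index.factorial := by
    rw [hN, normalCore_eq_ker, index_ker, index_eq_card, ← Nat.card_perm]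
    exact card_subgroup_dvd_card (MulAction.toPermHom G (G ⧸ T)).range
  have hpN : p ∣ N.index := by
    by_contra hnd'
    have hPN : (P : Subgroup G) ≤ N := by
      apply H1.le_of_coprime_index
      rw [P.card_eq_multiplicity]
      exact Nat.Coprime.pow_left _ (hp.coprime_iff_not_dvd.2 hnd')
    apply hna
    rw [eq_bot_iff]
    intro y hy
    refine Subtype.ext (hf _ ?_)
    rw [hχT]
    exact ind_comm hψ.isCharacter hPN (fun φ hφ h1 =>
      comm_le_ker_of_lt P.isPGroup' hφ (h1.trans hψd) (by nlinarith)) hy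
  have hpm : p ≤ T.index := hp.dvd_factorial.1 (hpN.trans hNi)
  have hd1 : d = 1 := by
    by_contra h
    have : 2 ≤ d := by omega
    nlinarith
  have hNc : commutator N = ⊥ := by
    rw [eq_bot_iff]
    intro y hy
    refine Subtype.ext (hf _ ?_)
    rw [hχT]
    exact ind_comm hψ.isCharacter le_rfl (fun φ hφ h1 =>
      hφ.commutator_le_charKer (by rw [h1, hψd, hd1, Nat.cast_one])) hy
  obtain ⟨Q⟩ : Nonempty (Sylow p N) := inferInstance
  haveI : (Q : Subgroup N).Normal := ⟨fun a ha b => by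
    have : b * a * b⁻¹ * a⁻¹ = 1 :=
      mem_bot.1 (hNc ▸ commutator_mem_commutator (mem_top b) (mem_top a))
    rwa [mul_inv_eq_one.1 this]⟩
  have h3 := index_dvd_of_le (H1.map_pCore_subtype_le p N)
  rw [index_map_subtype, H1.pCore_eq_sylow_of_normal Q] at h3
  intro h
  exact not_sq_dvd_factorial hp (by nlinarith) (((Nat.Coprime.pow_left 2
    (hp.coprime_iff_not_dvd.2 Q.not_dvd_index)).dvd_of_dvd_mul_left (h.trans h3)).trans hNi)

end H21
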