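/-
Bridges between the frozen statements of Peterfalvi sections 3, 4 and the ambient API.
-/
import Cfsg.Agent.H21.PF4c
import Cfsg.Agent.Lead.Types

set_option autoImplicit false
set_option linter.unusedSectionVars false
open H17 Cfsg H15 CF
open scoped ComplexConjugate

namespace H21

variable {G : Type*} [Group G] [Finite G] {W W1 W2 N : Subgroup G}

theorem snc_dp (h : IsSelfNormalizingCyclic W1 W2) : AbDP (W1 ⊔ W2) W1 W2 :=
  ⟨rfl, h.2.2.1, comm_of_cyclic h.2.2.2.2.1⟩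

theorem snc_ti (h : IsSelfNormalizingCyclic W1 W2) :
    NormedTI (cycV (W1 ⊔ W2) W1 W2) ⊤ (W1 ⊔ W2) :=
  ⟨(snc_dp h).cycV_nonempty h.1 h.2.1, le_top, fun _ ha g _ =>
    ⟨fun e => FT.snc_mem h ha.1 (mem_cycV.1 ha).2.1 (mem_cycV.1 ha).2.2 (mem_cycV.1 e).1,
      fun hg => by rwa [(snc_dp h).conj_eq hg (mem_cycV.1 ha).1]⟩⟩

theorem snc_cycTI (h : IsSelfNormalizingCyclic W1 W2) (ho : Odd (Nat.card ↥(W1 ⊔ W2))) :
    CycTI ⊤ (W1 ⊔ W2) W1 W2 := ⟨rfl, h.2.2.1, h.2.2.2.2.1, ho, snc_ti h⟩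

theorem CycTI.snc (h : CycTI ⊤ W W1 W2) : IsSelfNormalizingCyclic W1 W2 := by
  have e := h.sup
  subst e
  exact FT.snc_of_ti h.ne1 h.ne2 h.disj h.cyc fun x hx h1 h2 g h3 h4 h5 =>
    h.ti.mem_of_conj (mem_cycV.2 ⟨hx, h1, h2⟩) trivial (mem_cycV.2 ⟨h3, h4, h5⟩)

theorem ofHom_mem_Irr (ω : W →* ℂˣ) : ofHom W ω ∈ Irr W := (isLin_ofHom ω).mem_Irr

theorem ofHom_eq_one_iff {ω : W →* ℂˣ} : ofHom W ω = one W ↔ ω = 1 := by
  rw [← ofHom_one, ofHom_injective.eq_iff]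

theorem ofHom_mem_IrrQ (hN : N ≤ W) {ω : W →* ℂˣ} :
    ofHom W ω ∈ IrrQ W N ↔ ∀ w : W, (w : G) ∈ N → ω w = 1 := by
  rw [mem_IrrQ]
  refine ⟨fun h w hw => ?_, fun h => ⟨ofHom_mem_Irr ω, fun x hx => ?_⟩⟩
  · have := (isLin_ofHom ω).mem_cfker.1 (h.2 hw)
    rw [ofHom_coe] at this
    exact Units.val_eq_one.1 this
  · rw [(isLin_ofHom ω).mem_cfker, ofHom_apply ω (hN hx), h ⟨x, hN hx⟩ hx, Units.val_one]

theorem exists_ofHom (hW : IsMulCommutative W) {ω : G → ℂ} (h : ω ∈ Irr W) :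
    ∃ l : W →* ℂˣ, ω = ofHom W l := (isLin_of_comm hW h).exists_hom

theorem cford_ofHom (ω : W →* ℂˣ) : cford W (ofHom W ω) = orderOf ω := by
  have : ∀ n, cford W (ofHom W ω) ∣ n ↔ orderOf ω ∣ n := fun n => by
    rw [cford_dvd_iff, orderOf_dvd_iff_pow_eq_one, MonoidHom.ext_iff]
    refine ⟨fun h x => ?_, fun h x hx => ?_⟩
    · have := h x x.2
      rw [ofHom_coe, ← Units.val_pow_eq_pow_val, Units.val_eq_one] at this
      simpa using this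
    · have := h ⟨x, hx⟩
      rw [ofHom_apply ω hx, ← Units.val_pow_eq_pow_val, Units.val_eq_one]
      simpa using this
  exact Nat.dvd_antisymm ((this _).2 dvd_rfl) ((this _).1 dvd_rfl)

theorem res_alpha (φ ψ : W →* ℂˣ) : res W (cycAlpha W (ofHom W φ) (ofHom W ψ)) =
    fun w : W => 1 - (φ w : ℂ) - (ψ w : ℂ) + (φ w : ℂ) * (ψ w : ℂ) := by
  funext w
  simp only [res_apply, cycAlpha, Pi.mul_apply, Pi.sub_apply, one_of_mem w.2, ofHom_coe]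
  ring

open Classical in
/-- the linear map attached to a family indexed by the linear characters -/
noncomputable def famSig (W : Subgroup G) (χ : (W →* ℂˣ) → (G → ℂ)) : (G → ℂ) →ₗ[ℂ] (G → ℂ) :=
  extend W (Irr W) fun ω => if h : ∃ l, ω = ofHom W l then χ h.choose else 0

theorem famSig_ofHom (χ : (W →* ℂˣ) → (G → ℂ)) (l : W →* ℂˣ) : famSig W χ (ofHom W l) = χ l := by
  have h : ∃ l', ofHom W l = ofHom W l' := ⟨l, rfl⟩
  rw [famSig, extend_of_mem _ (on_Irr W).pairOrth (ofHom_mem_Irr l), dif_pos h,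
    ← ofHom_injective h.choose_spec]

theorem famSig_spec [Fintype G] (h : IsSelfNormalizingCyclic W1 W2)
    {χ : (↥(W1 ⊔ W2) →* ℂˣ) → (G → ℂ)} (hχ : IsCyclicTIFamily W1 W2 χ) :
    SigSpec ⊤ (W1 ⊔ W2) (cycV (W1 ⊔ W2) W1 W2) (famSig (W1 ⊔ W2) χ) := by
  classical
  have d := snc_dp h
  have hone : famSig (W1 ⊔ W2) χ (one (W1 ⊔ W2)) = one ⊤ := by
    rw [← ofHom_one, famSig_ofHom, hχ.map_one, one_top]; rfl
  refine ⟨fun ω hω => ?_, fun ω hω ω' hω' => ?_, hone, fun f hf => ?_, fun φ => ?_⟩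
  · obtain ⟨l, rfl⟩ := exists_ofHom d.comm hω
    rw [famSig_ofHom]
    rcases hχ.irr_or_neg l with e | e
    · exact irr_vchar (mem_Irr_top.2 e)
    · exact neg_mem_iff.1 (irr_vchar (mem_Irr_top.2 e))
  · obtain ⟨l, rfl⟩ := exists_ofHom d.comm hω
    obtain ⟨l', rfl⟩ := exists_ofHom d.comm hω'
    rw [famSig_ofHom, famSig_ofHom, dot_top, hχ.orthonormal, dot_irr hω hω']
    simp only [ofHom_injective.eq_iff]
    congr
  · rw [d.eq_sum_alpha hf]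
    simp only [map_sum, map_smul]
    refine Finset.sum_congr rfl fun φ hφ => Finset.sum_congr rfl fun ψ hψ => ?_
    congr 1
    by_cases n1 : φ = one (W1 ⊔ W2)
    · rw [n1, cycAlpha_one_left, map_zero, map_zero]
    by_cases n2 : ψ = one (W1 ⊔ W2)
    · rw [n2, cycAlpha_one_right, map_zero, map_zero]
    obtain ⟨l, rfl⟩ := exists_ofHom d.comm (irrQ_irr hφ)
    obtain ⟨l', rfl⟩ := exists_ofHom d.comm (irrQ_irr hψ)
    rw [Ind_top_eq, res_alpha, hχ.induced_eq l l' (fun e => n1 (ofHom_eq_one_iff.2 e))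
      (fun e => n2 (ofHom_eq_one_iff.2 e)) ((ofHom_mem_IrrQ d.le2).1 hφ)
      ((ofHom_mem_IrrQ d.le1).1 hψ), d.alpha_eq (irrQ_irr hφ) (irrQ_irr hψ), map_add, map_sub,
      map_sub, hone, ← ofHom_mul, famSig_ofHom, famSig_ofHom, famSig_ofHom, one_top]
    rfl
  · rw [famSig, extend_apply_on _ (on_Irr _)]
    refine Finset.sum_congr rfl fun ω hω => ?_
    rw [extend_of_mem _ (on_Irr _).pairOrth hω]

theorem famSig_iso [Fintype G] (h : IsSelfNormalizingCyclic W1 W2)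
    (ho : Odd (Nat.card ↥(W1 ⊔ W2))) {χ : (↥(W1 ⊔ W2) →* ℂˣ) → (G → ℂ)}
    (hχ : IsCyclicTIFamily W1 W2 χ) : CycIso ⊤ (W1 ⊔ W2) W1 W2 (famSig (W1 ⊔ W2) χ) :=
  ⟨snc_cycTI h ho, famSig_spec h hχ⟩

theorem primeTI_of {K : Subgroup G} [hK : K.Normal] (h1 : K ⊓ W1 = ⊥) (h2 : K ⊔ W1 = ⊤)
    (h3 : W1 ≠ ⊥) (h4 : IsCyclic W1) (h5 : Nat.Coprime (Nat.card W1) W1.index) (h6 : W2 ≠ ⊥)
    (h7 : IsCyclic W2) (h8 : ∀ x ∈ W1, x ≠ 1 → K ⊓ Subgroup.centralizer ({x} : Set G) = W2)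
    (h9 : Odd (Nat.card ↥(W1 ⊔ W2))) : PrimeTI ⊤ K (W1 ⊔ W2) W1 W2 := by
  have hn : W1 ≤ 𝒩(K) := le_top.trans (top_le_norm K)
  have hc : IsComplIn K W1 ⊤ := FT.compl_mk le_top le_top h1 h2 (Or.inr hn)
  refine ⟨hc, hn, h4, h3, ?_, h7, h6, h8, rfl, h9⟩
  rw [← relIndex_compl' hc, Subgroup.relIndex_top_right]
  exact h5.symm

end H21
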