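/-
Finite primitive linear groups of degree two.
-/
import Cfsg.Agent.H4.Dk1
import Cfsg.Agent.H17.Deg

set_option autoImplicit false
set_option linter.unusedSectionVars false
open H17 Cfsg H4 Matrix MulAction
open scoped MatrixGroups LinearAlgebra.Projectivization commutatorElement

namespace H21

variable {G : Type*} [Group G] [Finite G]

/-- the matrices of a representation of degree two -/
noncomputable def glOf (ρ : Representation ℂ G (Fin 2 → ℂ)) : G →* GL (Fin 2) ℂ :=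
  MonoidHom.toHomUnits
    ((LinearMap.toMatrixAlgEquiv' : _ ≃ₐ[ℂ] Matrix (Fin 2) (Fin 2) ℂ).toMulEquiv.toMonoidHom.comp ρ)

theorem glOf_mulVec (ρ : Representation ℂ G (Fin 2 → ℂ)) (g : G) (v : Fin 2 → ℂ) :
    (glOf ρ g).1 *ᵥ v = ρ g v := LinearMap.toMatrix'_mulVec _ _

theorem exists_second (ρ : Representation ℂ G (Fin 2 → ℂ)) (S : Subgroup G) {v : Fin 2 → ℂ}
    (hv : v ≠ 0) (h : ∀ s ∈ S, ∃ c : ℂ, ρ s v = c • v) :
    ∃ w, det2 w v ≠ 0 ∧ ∀ s ∈ S, ∃ c : ℂ, ρ s w = c • w := by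
  let σ : Representation ℂ S (Fin 2 → ℂ) := ρ.comp S.subtype
  let U : Subrepresentation σ := ⟨ℂ ∙ v, fun g x hx => by
    obtain ⟨a, rfl⟩ := Submodule.mem_span_singleton.1 hx
    obtain ⟨c, hc⟩ := h g g.2
    exact Submodule.mem_span_singleton.2 ⟨a * c, by
      rw [map_smul, mul_smul]; exact congrArg _ hc.symm⟩⟩
  obtain ⟨T, hT⟩ := exists_isCompl U
  have hc := subrep_isCompl hT
  have h1 := Submodule.finrank_add_eq_of_isCompl hc
  rw [show Module.finrank ℂ U.toSubmodule = 1 from finrank_span_singleton hv,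
    Module.finrank_fin_fun] at h1
  obtain ⟨w, h2, h3⟩ := (finrank_eq_one_iff' (K := ℂ) (V := T.toSubmodule)).1 (by omega)
  refine ⟨w, fun e => h2 (Subtype.ext ?_), fun s hs => ?_⟩
  · obtain ⟨c, e⟩ := (det2_eq_zero_iff hv).1 e
    exact (Submodule.disjoint_def.1 hc.disjoint) _ (Submodule.mem_span_singleton.2 ⟨c, e.symm⟩) w.2
  · obtain ⟨c, e⟩ := h3 ⟨_, T.apply_mem_toSubmodule ⟨s, hs⟩ w.2⟩
    exact ⟨c, (congrArg Subtype.val e).symm⟩

theorem comm_of_fix (ρ : Representation ℂ G (Fin 2 → ℂ)) {v : Fin 2 → ℂ} (hv : v ≠ 0) {g h : G}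
    (hg : ∃ c : ℂ, ρ g v = c • v) (hh : ∃ c : ℂ, ρ h v = c • v) :
    glOf ρ g * glOf ρ h = glOf ρ h * glOf ρ g := by
  let S := (stabilizer PGL(2, ℂ) (Projectivization.mk ℂ v hv)).comap (pmk.comp (glOf ρ))
  have hS : ∀ s, s ∈ S ↔ ∃ c : ℂ, ρ s v = c • v := fun s => by
    simp only [← glOf_mulVec]; exact pmk_fix_iff hv
  obtain ⟨w, h1, h2⟩ := exists_second ρ S hv fun s hs => (hS s).1 hs
  obtain ⟨a, ha⟩ := h2 g ((hS g).2 hg)
  obtain ⟨b, hb⟩ := h2 h ((hS h).2 hh)
  obtain ⟨c, hc⟩ := hg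
  obtain ⟨d, hd⟩ := hh
  rw [← glOf_mulVec] at ha hb hc hd
  exact Units.ext (comm_of_eig h1 ha hc hb hd)

/-- the action of a finite subgroup of `PGL₂(ℂ)` on the projective line -/
noncomputable def lineC (ρ : Representation ℂ G (Fin 2 → ℂ)) {p : ℕ} (hp : p.Prime)
    (hd : ¬ p ∣ Nat.card G) : LineAct p (pmk.comp (glOf ρ)).range (ℙ ℂ (Fin 2 → ℂ)) where
  U _ := ⊥
  mem_U x g := by
    refine ⟨fun h => by rw [Subgroup.mem_bot.1 h]; exact ⟨one_smul _ _, 0, one_pow _⟩,
      fun ⟨_, k, hk⟩ => Subgroup.mem_bot.2 (orderOf_eq_one_iff.1 ?_)⟩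
    exact Nat.eq_one_of_dvd_coprimes (((Nat.Prime.coprime_iff_not_dvd hp).2 hd).pow_left k)
      (orderOf_dvd_of_pow_eq_one hk)
      ((orderOf_dvd_natCard g).trans (Subgroup.card_range_dvd _))
  exists_fix := by
    rintro ⟨_, g, rfl⟩
    obtain ⟨c, hc⟩ := Module.End.exists_eigenvalue (ρ g)
    obtain ⟨v, hv⟩ := hc.exists_hasEigenvector
    exact ⟨_, (pmk_fix_iff hv.2).2 ⟨c, by rw [glOf_mulVec, hv.apply_eq_smul]⟩⟩
  three := by
    rintro ⟨_, g, rfl⟩ hg x y z hx hy hz
    induction x using Projectivization.ind with | _ u hu =>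
    induction y using Projectivization.ind with | _ v hv =>
    induction z using Projectivization.ind with | _ w hw =>
    obtain ⟨c, hc⟩ := (pmk_fix_iff hu).1 hx
    obtain ⟨d, hd⟩ := (pmk_fix_iff hv).1 hy
    obtain ⟨e, he⟩ := (pmk_fix_iff hw).1 hz
    simp only [mk_eq_mk_iff_det2]
    by_contra h
    push Not at h
    have key : ∀ {u w : Fin 2 → ℂ} {c e : ℂ}, det2 u w ≠ 0 → (glOf ρ g).1 *ᵥ u = c • u →
        (glOf ρ g).1 *ᵥ w = e • w → c * e = (glOf ρ g).1.det := fun {u w c e} h0 h1 h2 => by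
      have := det2_mulVec (glOf ρ g).1 u w
      rw [h1, h2] at this
      refine mul_right_cancel₀ h0 (this ▸ ?_)
      simp only [det2, Pi.smul_apply, smul_eq_mul]; ring
    have h1 := key h.2.1 hc he
    have h2 := key h.2.2 hd he
    have h3 : e ≠ 0 := fun e0 => gl_det_ne_zero _ (by rw [← h1, e0, mul_zero])
    obtain rfl : c = d := mul_right_cancel₀ h3 (h1.trans h2.symm)
    have h4 : (glOf ρ g).1 = c • (1 : M2 ℂ) :=
      eq_of_mulVec_eq h.1 (by rw [hc, smul_mulVec, one_mulVec]) (by rw [hd, smul_mulVec, one_mulVec])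
    exact hg (Subtype.ext (pmk_eq_one_iff.2 (by rw [h4]; simp [Sc])))
  uniq _ _ hg h1 := absurd (Subgroup.mem_bot.1 hg) h1
  second := by
    rintro x ⟨_, g, rfl⟩ hx -
    induction x using Projectivization.ind with | _ u hu =>
    let S := (stabilizer PGL(2, ℂ) (Projectivization.mk ℂ u hu)).comap (pmk.comp (glOf ρ))
    obtain ⟨w, h1, h2⟩ := exists_second ρ S hu fun s hs => by
      simp only [← glOf_mulVec]; exact (pmk_fix_iff hu).1 hs
    have hw0 : w ≠ 0 := by rintro rfl; simp [det2] at h1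
    refine ⟨_, fun h => h1 ((mk_eq_mk_iff_det2 hw0 hu).1 h), (pmk_fix_iff hw0).2 ?_⟩
    simp only [glOf_mulVec]
    exact h2 g hx
  comm := by
    rintro x ⟨_, g, rfl⟩ ⟨_, h, rfl⟩ hg hh
    induction x using Projectivization.ind with | _ u hu =>
    have h1 := (pmk_fix_iff hu).1 hg
    have h2 := (pmk_fix_iff hu).1 hh
    simp only [glOf_mulVec] at h1 h2
    rw [Subgroup.mem_bot, commutatorElement_eq_one_iff_mul_comm]
    exact Subtype.ext ((map_mul pmk _ _).symm.trans
      ((congrArg pmk (comm_of_fix ρ hu h1 h2)).trans (map_mul pmk _ _)))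

theorem prim_deg_two [Fintype G] {χ : G → ℂ} (hχ : IsIrrCharacter G χ) (hf : charKer χ = ⊥)
    (h2 : χ 1 = 2) (hprim : ∀ H : Subgroup G, H ≠ ⊤ → ∀ θ : H → ℂ, IsCharacter H θ →
      χ ≠ indFun H θ) : Nonempty ((G ⧸ Subgroup.center G) ≃* alternatingGroup (Fin 4)) ∨
      Nonempty ((G ⧸ Subgroup.center G) ≃* Equiv.Perm (Fin 4)) ∨
      Nonempty ((G ⧸ Subgroup.center G) ≃* alternatingGroup (Fin 5)) := by
  obtain ⟨n, ρ, hρ, rfl⟩ := id hχ
  obtain rfl : n = 2 := by
    rw [Representation.char_one, Module.finrank_fin_fun] at h2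
    exact_mod_cast h2
  have hinj : Function.Injective (glOf ρ) := (injective_iff_map_eq_one _).2 fun g hg => by
    rw [← Subgroup.mem_bot, ← hf, charKer_character, MonoidHom.mem_ker]
    exact LinearMap.ext fun v => by rw [← glOf_mulVec, hg, Units.val_one, one_mulVec]; rfl
  have hk : (pmk.comp (glOf ρ)).ker = Subgroup.center G := by
    rw [← hχ.charCenter_eq_center hf]
    ext g
    rw [mem_charCenter_character, MonoidHom.mem_ker, MonoidHom.comp_apply, pmk_eq_one_iff, sc_iff]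
    refine exists_congr fun c => ⟨fun h => LinearMap.ext fun v => ?_, fun h => ?_⟩
    · rw [← glOf_mulVec, h, smul_mulVec, one_mulVec]; rfl
    · exact Matrix.ext_of_mulVec_single fun i => by
        rw [glOf_mulVec, h, smul_mulVec, one_mulVec]; rfl
  obtain ⟨p, hp1, hp⟩ := Nat.exists_infinite_primes (Nat.card G + 1)
  haveI := Fact.mk hp
  have hna : ∀ A : Subgroup G, A.index ≤ 2 → ¬ IsMulCommutative A := fun A h1 h3 => by
    have h0 := A.index_ne_zero_of_finite
    haveI : A.Normal := by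
      by_cases h : A.index = 1
      · rw [Subgroup.index_eq_one.1 h]; infer_instance
      · exact Subgroup.normal_of_index_eq_two (by omega)
    obtain ⟨T, -, h4, ψ, h5, h6⟩ := hχ.exists_induced A (by
      rw [Subgroup.commutator_eq_bot_iff_le_centralizer.2 (Subgroup.le_centralizer A)]
      exact bot_le) fun h => by
        rw [hχ.charCenter_eq_center hf] at h
        have := Nat.le_of_dvd (by omega) (Subgroup.index_dvd_of_le h)
        have := hχ.sq_le_index_center (n := 2) h2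
        omega
    exact hprim T h4 ψ h5.isCharacter h6
  have hst : ∀ x : ℙ ℂ (Fin 2 → ℂ),
      IsMulCommutative ((stabilizer PGL(2, ℂ) x).comap (pmk.comp (glOf ρ))) := fun x => by
    induction x using Projectivization.ind with | _ u hu =>
    refine ⟨⟨fun a b => Subtype.ext (hinj ?_)⟩⟩
    have h1 := (pmk_fix_iff hu).1 a.2
    have h2 := (pmk_fix_iff hu).1 b.2
    simp only [glOf_mulVec] at h1 h2
    simpa using comm_of_fix ρ hu h1 h2
  have e := (QuotientGroup.quotientMulEquivOfEq hk.symm).trans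
    (QuotientGroup.quotientKerEquivRange (pmk.comp (glOf ρ)))
  haveI : Finite (pmk.comp (glOf ρ)).range := Finite.of_equiv _ e.toEquiv
  rcases (lineC ρ hp (Nat.not_dvd_of_pos_of_lt Nat.card_pos hp1)).cases_of_U (fun _ => rfl) with
    ⟨x, h⟩ | ⟨x, y, hxy, h⟩ | h
  · refine absurd (hst x) (hna _ ?_)
    exact (Subgroup.index_eq_one.2 (eq_top_iff.2 fun g _ => h ⟨_, g, rfl⟩)).le.trans one_le_two
  · refine absurd (hst x) (hna _ ?_)
    have h1 := Subgroup.index_comap_of_surjective (stabilizer (pmk.comp (glOf ρ)).range x)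
      (pmk.comp (glOf ρ)).rangeRestrict_surjective
    rw [index_stabilizer] at h1
    refine h1.le.trans ((Set.ncard_le_ncard (t := {x, y}) ?_).trans (Set.ncard_pair hxy).le)
    rintro _ ⟨g, rfl⟩
    exact (h g).imp And.left And.left
  · exact h.imp (fun ⟨f⟩ => ⟨e.trans f⟩) (Or.imp (fun ⟨f⟩ => ⟨e.trans f⟩) fun ⟨f⟩ => ⟨e.trans f⟩)

end H21
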