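/-
Faithful irreducible characters of degree `p - 2`: the alternating square and the centralizers
of involutions.
-/
import Cfsg.Agent.H21.Dp1

set_option autoImplicit false
set_option linter.unusedSectionVars false
open H17 Cfsg H15 CF Subgroup
open H20 (cent)
open H19 (IsPElt ppart rpart)
open scoped Classical ComplexConjugate

namespace H21

variable {G : Type*} [Group G] [Finite G] {p : ℕ} [hp : Fact p.Prime] {D : Subgroup G}
  {ζ χ l m : G → ℂ} {g u v w z τ : G}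

theorem crt_pow {a b i : ℕ} (h : Nat.card G = a * b) (hab : a.Coprime b) (hi : i.Coprime a) :
    ∃ k : ℕ, k.Coprime (Nat.card G) ∧ (∀ x : G, orderOf x ∣ a → x ^ k = x ^ i) ∧
      ∀ x : G, orderOf x ∣ b → x ^ k = x := by
  obtain ⟨k, h1, h2⟩ := Nat.chineseRemainder hab i 1
  refine ⟨k, h ▸ Nat.Coprime.mul_right (h1.gcd_eq.trans hi) (h2.gcd_eq.trans (by simp)),
    fun x hx => pow_eq_pow_iff_modEq.2 (h1.of_dvd hx), fun x hx => ?_⟩
  rw [pow_eq_pow_iff_modEq.2 (h2.of_dvd hx), pow_one]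

theorem iter_sq {F : G → ℝ} {N : ℝ} (hN : 0 < N) (hv : ¬ 2 ∣ orderOf v) (h0 : 0 ≤ F v)
    (h : ∀ k : ℕ, F (v ^ 2 ^ k) ^ 2 = N * F ((v ^ 2 ^ k) ^ 2)) : F v = 0 ∨ F v = N := by
  have h1 : ∀ k : ℕ, F (v ^ 2 ^ k) / N = (F v / N) ^ 2 ^ k := fun k => by
    induction k with
    | zero => simp
    | succ k ih => rw [pow_succ, pow_mul, pow_mul, ← ih, div_pow, h]; field_simp
  have h2 := h1 (orderOf v).totient
  rw [pow_eq_pow_iff_modEq.2 (Nat.ModEq.pow_totient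
    ((Nat.Prime.coprime_iff_not_dvd Nat.prime_two).2 hv)), pow_one] at h2
  obtain ⟨k, hk⟩ : ∃ k, 2 ^ (orderOf v).totient = k + 2 := ⟨_, (Nat.sub_add_cancel
    (Nat.le_self_pow (Nat.totient_pos.2 (orderOf_pos v)).ne' 2)).symm⟩
  rw [hk, pow_succ] at h2
  by_cases h3 : F v / N = 0
  · exact Or.inl ((div_eq_zero_iff.1 h3).resolve_right hN.ne')
  · refine Or.inr ((div_eq_one_iff_eq hN.ne').1 ?_)
    exact (pow_eq_one_iff_of_nonneg (div_nonneg h0 hN.le) k.succ_ne_zero).1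
      (mul_right_cancel₀ h3 (by rw [← h2, one_mul]))

/-- the hypotheses after the block theoretic step -/
structure DP (p : ℕ) (ζ : G → ℂ) (D : Subgroup G) (l : G → ℂ) : Prop extends Hyp p ζ where
  card : Nat.card D = p
  cen : ∀ y ∈ cent D, ¬ p ∣ orderOf y → y ∈ center G
  lin : IsLin D l
  ne : l ≠ CF.one D
  val : ∀ w ∈ D, w ≠ 1 → ζ w = -(l w + l w⁻¹)
  odd : Odd (Nat.card (center G))

namespace DP
variable (h : DP p ζ D l)
include h

theorem sing (hg : p ∣ orderOf g) :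
    ∃ c, ∃ w ∈ D, w ≠ 1 ∧ ∃ z ∈ center G, ¬ p ∣ orderOf z ∧ c * g * c⁻¹ = w * z := by
  obtain ⟨c, -, hc⟩ := (h.syl h.card).exists_cj_le (H19.ppart_isPElt (p := p) g).isPGroup_zpowers le_top
  have h1 : ppart p (c * g * c⁻¹) ∈ D := by
    rw [H19.ppart_conj]; exact hc ⟨_, mem_zpowers _, rfl⟩
  have h2 : ppart p (c * g * c⁻¹) ≠ 1 := fun e =>
    (H19.isPPart_eq_one_iff (H19.isPPart_ppart _)).1 e (by rwa [H19.orderOf_conj'])
  refine ⟨c, _, h1, h2, _, h.cen _ ?_ (H19.rpart_reg _), H19.rpart_reg _,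
    (H19.ppart_mul_rpart _).symm⟩
  rw [← H20.zpowers_eq_of_card h.card h1 h2]
  rintro _ ⟨k, rfl⟩
  exact ((H19.commute_ppart_rpart _).zpow_left k).eq

theorem odd_ord (hz : z ∈ center G) : ¬ 2 ∣ orderOf z := fun e =>
  Nat.not_even_iff_odd.2 h.odd (even_iff_two_dvd.2 (e.trans (orderOf_dvd_natCard _ hz)))

theorem val_pow (hw : w ∈ D) (h1 : w ≠ 1) {i : ℕ} (hi : ¬ p ∣ i) :
    ζ (w ^ i) = -(l w ^ i + (l w)⁻¹ ^ i) := by
  have h2 := lin_prim h.card h.lin h.ne hw h1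
  rw [h.val _ (pow_mem hw i) fun e => hi (h2.dvd_of_pow_eq_one i (by
    rw [← h.lin.map_pow hw, e, h.lin.one_apply])), h.lin.map_inv (pow_mem hw i), h.lin.map_pow hw,
    inv_pow]

theorem key (hu : IsPElt 2 u) (hv : ¬ p ∣ orderOf v) (hv2 : ¬ 2 ∣ orderOf v) (hc : Commute u v) :
    ζ (u * v) ^ 2 - ζ (u * v * (u * v)) = (p - 3) * ζ (u * v ^ 2) := by
  have p5 := h.hp
  have p2 : p.Coprime 2 := (Nat.coprime_primes hp.out Nat.prime_two).2 (by omega)
  obtain ⟨b, hb⟩ := h.dvd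
  have hpb : p.Coprime b := (Nat.Prime.coprime_iff_not_dvd hp.out).2 fun e =>
    h.sq (by rw [hb, pow_two]; exact mul_dvd_mul_left _ e)
  obtain ⟨β, m, hm, rfl⟩ := Nat.exists_eq_two_pow_mul_odd (n := b)
    (by rintro rfl; exact Nat.card_pos.ne' hb)
  have hm2 : m.Coprime 2 := Nat.coprime_two_right.2 hm
  have hG : Nat.card G = m * (p * 2 ^ β) := by rw [hb]; ring
  have hmp : m.Coprime (p * 2 ^ β) :=
    Nat.Coprime.mul_right (Nat.Coprime.coprime_mul_left_right hpb).symm (hm2.pow_right β)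
  obtain ⟨κ, k1, k2, k3⟩ := crt_pow hG hmp hm2.symm
  have k4 : ∀ y : G, ¬ p ∣ orderOf y → ¬ 2 ∣ orderOf y → y ^ κ = y ^ 2 := fun y h1 h2 =>
    k2 y (Nat.Coprime.dvd_of_dvd_mul_right (Nat.Coprime.mul_right
      ((Nat.Prime.coprime_iff_not_dvd hp.out).2 h1).symm
      (((Nat.Prime.coprime_iff_not_dvd Nat.prime_two).2 h2).symm.pow_right β))
      (hG ▸ orderOf_dvd_natCard y))
  have oD : ∀ w ∈ D, orderOf w ∣ p := fun w hw => h.card ▸ D.orderOf_dvd_natCard hw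
  have hj : ∀ i : ℕ, ∃ k : ℕ, ¬ p ∣ i → k.Coprime (Nat.card G) ∧ (∀ x ∈ D, x ^ k = x ^ i) ∧
      ∀ x : G, ¬ p ∣ orderOf x → x ^ k = x := fun i => by
    by_cases hi : p ∣ i
    · exact ⟨0, fun e => (e hi).elim⟩
    obtain ⟨k, h1, h2, h3⟩ := crt_pow hb hpb ((Nat.Prime.coprime_iff_not_dvd hp.out).2 hi).symm
    exact ⟨k, fun _ => ⟨h1, fun x hx => h2 x (oD x hx), fun x hx => h3 x
      (((Nat.Prime.coprime_iff_not_dvd hp.out).2 hx).symm.dvd_of_dvd_mul_left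
        (hb ▸ orderOf_dvd_natCard x))⟩⟩
  choose j hj using hj
  set ξ : ℕ → G → ℂ := fun i g => ζ ((g ^ j i) ^ κ) with hξ
  have nd : ∀ i ∈ Finset.Ico 1 p, ¬ p ∣ i := fun i hi e => by
    have := Finset.mem_Ico.1 hi
    have := Nat.le_of_dvd (by omega) e
    omega
  have m2 : 2 ∈ Finset.Ico 1 p := Finset.mem_Ico.2 (by omega)
  have x1 : ∀ i ∈ Finset.Ico 1 p, ξ i ∈ Irr (⊤ : Subgroup G) := fun i hi =>
    mem_Irr_top.2 ((h.irr.comp_pow k1).comp_pow (hj i (nd i hi)).1)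
  have x2 : ∀ i ∈ Finset.Ico 1 p, ∀ g, ¬ p ∣ orderOf g → ξ i g = ζ (g ^ κ) := fun i hi g hg => by
    simp only [hξ, (hj i (nd i hi)).2.2 g hg]
  obtain ⟨lam, hlam⟩ := h.irr.exists_linear_center
  have cz : ∀ z (hz : z ∈ center G) x, ζ (x * z ^ 2) = lam ⟨z, hz⟩ ^ 2 * ζ x := fun z hz x => by
    rw [mem_center_iff.1 (pow_mem hz 2) x, hlam ⟨_, pow_mem hz 2⟩, ← Units.val_pow_eq_pow_val,
      ← map_pow]; rfl
  have x3 : ∀ i ∈ Finset.Ico 1 p, ∀ w ∈ D, w ≠ 1 → ∀ z (hz : z ∈ center G), ¬ p ∣ orderOf z →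
      ξ i (w * z) = lam ⟨z, hz⟩ ^ 2 * -(l w ^ i + (l w)⁻¹ ^ i) := fun i hi w hw h1 z hz hr => by
    have h2 : ∀ x, Commute x z := fun x => mem_center_iff.1 hz x
    simp only [hξ]
    rw [(h2 w).mul_pow, (hj i (nd i hi)).2.1 w hw, (hj i (nd i hi)).2.2 z hr, (h2 _).mul_pow,
      k3 _ ((oD _ (pow_mem hw i)).mul_right _), k4 z hr (h.odd_ord hz), cz,
      h.val_pow hw h1 (nd i hi)]
  obtain ⟨S, A, -, hA, a1, a2⟩ := h.irr.isCharacter.exists_sym_alt
  have a3 : ∀ g, 2 * A g = ζ g ^ 2 - ζ (g * g) := fun g => by rw [a1, a2]; ring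
  have cA := isChar_top.2 hA
  have cΦ := (cA.add (irr_char (x1 2 m2))).nsmul 2
  have cΘ := isChar_sum _ _ fun i hi => irr_char (x1 i hi)
  set Φ := 2 • (A + ξ 2) with hΦ
  set Θ := ∑ i ∈ Finset.Ico 1 p, ξ i with hΘ
  have ev : ∀ g, (Φ - Θ) g = 2 * A g + 2 * ξ 2 g - ∑ i ∈ Finset.Ico 1 p, ξ i g := fun g => by
    simp [hΦ, hΘ, Finset.sum_apply]
  have geo : ∀ ω : ℂ, IsPrimitiveRoot ω p → ∑ i ∈ Finset.Ico 1 p, ω ^ i = -1 := fun ω hω => by
    have := hω.geom_sum_eq_zero hp.out.one_lt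
    rw [Finset.range_eq_Ico, Finset.sum_eq_sum_Ico_succ_bot hp.out.pos] at this
    linear_combination this
  have s1 : ∀ g, p ∣ orderOf g → (Φ - Θ) g = 0 := fun g hg => by
    obtain ⟨c, w, hw, h1, z, hz, hr, e⟩ := h.sing hg
    have h2 := lin_prim h.card h.lin h.ne hw h1
    have h3 := h2.ne_zero hp.out.ne_zero
    rw [← cf_conj (sub_mem cΦ.cf cΘ.cf) g (mem_top c), e, ev, a3, x3 2 m2 w hw h1 z hz hr,
      Finset.sum_congr rfl fun i hi => x3 i hi w hw h1 z hz hr, ← Finset.mul_sum,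
      Finset.sum_neg_distrib, Finset.sum_add_distrib, geo _ h2, geo _ h2.inv,
      show w * z * (w * z) = w ^ 2 * z ^ 2 by
        rw [← pow_two, (show Commute w z from mem_center_iff.1 hz w).mul_pow],
      cz z hz, h.val_pow hw h1 (nd 2 m2), mem_center_iff.1 hz w, hlam ⟨z, hz⟩, h.val w hw h1,
      h.lin.map_inv hw]
    field_simp
    ring
  have s2 : ∀ i ∈ Finset.Ico 1 p, dot ⊤ (Φ - Θ) (ξ i) = dot ⊤ (Φ - Θ) (ξ 2) := fun i hi => by
    rw [← sub_eq_zero, ← dot_sub_right, dot_def, sum_fs_eq_zero, mul_zero]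
    intro g _
    by_cases hg : p ∣ orderOf g
    · rw [s1 g hg, zero_mul]
    · rw [Pi.sub_apply (ξ i), x2 i hi g hg, x2 2 m2 g hg, sub_self, map_zero, mul_zero]
  have s3 : (dot ⊤ Θ (ξ 2)).re ≤ 2 := by
    rw [hΘ, dot_sum_left, Finset.sum_congr rfl fun i hi => dot_irr (x1 i hi) (x1 2 m2),
      Finset.sum_boole, Complex.natCast_re]
    refine Nat.cast_le_ofNat.2
      ((Finset.card_le_card (t := {2, p - 2}) fun i hi => ?_).trans Finset.card_le_two)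
    obtain ⟨hi, e⟩ := Finset.mem_filter.1 hi
    obtain ⟨w, hw, h1⟩ := D.bot_or_exists_ne_one.resolve_left fun e => by
      have := h.card; rw [e, card_bot] at this; omega
    have h2 := lin_prim h.card h.lin h.ne hw h1
    have h3 := h2.ne_zero hp.out.ne_zero
    have h4 := congrFun e (w * 1)
    rw [x3 i hi w hw h1 1 (one_mem _) H19.preg_one, x3 2 m2 w hw h1 1 (one_mem _) H19.preg_one,
      mul_right_inj' (pow_ne_zero 2 (Units.ne_zero _)), neg_inj, inv_pow] at h4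
    have h5 : (l w ^ i - l w ^ 2) * (l w ^ (i + 2) - 1) = 0 := by
      have h6 := pow_ne_zero i h3
      rw [pow_add]
      field_simp at h4
      linear_combination h4
    have hi' := Finset.mem_Ico.1 hi
    rcases mul_eq_zero.1 h5 with h6 | h6
    · rw [h2.pow_inj hi'.2 (by omega) (sub_eq_zero.1 h6)]; simp
    · obtain ⟨t, ht⟩ := h2.dvd_of_pow_eq_one _ (sub_eq_zero.1 h6)
      have : t = 1 := by
        rcases t with _ | _ | t
        · omega
        · rfl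
        · nlinarith
      subst this
      rw [show i = p - 2 by omega]; simp
  have s4 : 2 ≤ (dot ⊤ Φ (ξ 2)).re := by
    have := cA.dot_re_nonneg (irr_char (x1 2 m2))
    rw [hΦ, dot_nsmul_left, dot_add_left, dot_irr_self (x1 2 m2)]
    simp; linarith
  have s5 := (cΦ.sub_of_le cΘ fun ψ hψ => by
    by_cases e : ∃ i ∈ Finset.Ico 1 p, ξ i = ψ
    · obtain ⟨i, hi, rfl⟩ := e
      have := congrArg Complex.re (s2 i hi)
      simp only [dot_sub_left, Complex.sub_re] at this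
      linarith
    · rw [hΘ, dot_sum_left, Finset.sum_eq_zero fun i hi =>
        dot_irr_ne (x1 i hi) hψ fun e' => e ⟨i, hi, e'⟩]
      exact cΦ.dot_re_nonneg (irr_char hψ))
  have s6 : ∀ g, ¬ p ∣ orderOf g → (Φ - Θ) g = ζ g ^ 2 - ζ (g * g) - (p - 3) * ζ (g ^ κ) :=
    fun g hg => by
      rw [ev, a3, x2 2 m2 g hg, Finset.sum_congr rfl fun i hi => x2 i hi g hg, Finset.sum_const,
        Nat.card_Ico, nsmul_eq_mul, Nat.cast_sub hp.out.one_le]
      push_cast; ring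
  have s7 := s5.eq_zero_of_one (by
    rw [s6 1 H19.preg_one, one_pow, mul_one, h.deg, Nat.cast_sub (by omega)]; push_cast; ring)
  have hu' : (orderOf u).Coprime (m * p) := hu.coprime fun e =>
    ((Nat.Prime.dvd_mul Nat.prime_two).1 e).elim
      ((Nat.Prime.coprime_iff_not_dvd Nat.prime_two).1 hm2.symm)
      ((Nat.Prime.coprime_iff_not_dvd Nat.prime_two).1 p2.symm)
  have s8 := s6 (u * v) (H19.preg_mul ((Nat.Prime.coprime_iff_not_dvd hp.out).1
    (Nat.Coprime.coprime_mul_left_right hu').symm) hv hc)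
  rw [s7, hc.mul_pow, k4 v hv hv2, k3 u ((Nat.Coprime.coprime_mul_right_right hu').dvd_of_dvd_mul_left
    (hG ▸ orderOf_dvd_natCard u))] at s8
  exact sub_eq_zero.1 s8.symm

end DP

end H21
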