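/-
Faithful irreducible characters of degree `p - 2`: centralizers of involutions are abelian.
-/
import Cfsg.Agent.H21.Dp2

set_option autoImplicit false
set_option linter.unusedSectionVars false
open H17 Cfsg H15 CF Subgroup
open H20 (cent)
open H19 (IsPElt ppart rpart)
open scoped Classical ComplexConjugate

namespace H21

variable {G : Type*} [Group G] [Finite G] {p : ℕ} [hp : Fact p.Prime] {D : Subgroup G}
  {ζ χ l m : G → ℂ} {g u v w y z τ : G}

theorem sum_coset_le {C N : Subgroup G} (hCN : C ≤ N) (h2 : C.relIndex N = 2) {n : G}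
    (hn : n ∈ N) (hn' : n ∉ C) (hχ : IsChar ⊤ χ) :
    ∑ c ∈ fs (C : Set G), ‖χ (c * n)‖ ^ 2 ≤ ∑ c ∈ fs (C : Set G), ‖χ c‖ ^ 2 := by
  have h1 := (hχ.mul hχ.star).Res (le_top (a := N))
  have h3 := (((h1.sub_smul_irr (one_mem_Irr N)).Res hCN).dot_re_nonneg isChar_one)
  rw [dot_Res_left, dot_sub_left, dot_smul_left, dot_Res_left_of_le hCN, dot_Res_left,
    ← dot_Res_left (φ := CF.one N), Res_one_of_le hCN, dot_one_one, mul_one, ← dot_eq_dot_one,
    ← dot_eq_dot_one, dot_self_eq, dot_self_eq, ← Complex.ofReal_sub, Complex.ofReal_re,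
    sum_index_two hCN h2 hn hn', ← card_mul_relIndex hCN, h2] at h3
  have h4 := card_pos' C
  push_cast at h3
  have h5 := mul_nonneg (mul_pos h4 two_pos).le h3
  field_simp at h5
  linarith

namespace DP
variable (h : DP p ζ D l)
include h

theorem cast_deg : ((p - 2 : ℕ) : ℂ) = p - 2 := by
  have := h.hp
  rw [Nat.cast_sub (by omega)]; rfl

theorem zero_odd (hv : ¬ p ∣ orderOf v) (hv2 : ¬ 2 ∣ orderOf v) (hz : v ∉ center G) : ζ v = 0 := by
  have p5 := h.hp
  refine norm_eq_zero.1 ((iter_sq (F := fun x => ‖ζ x‖) (N := (p - 2 : ℕ))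
    (Nat.cast_pos.2 (by omega)) hv2 (norm_nonneg _) fun k => ?_).resolve_right
    fun e => hz (h.mem_center.2 e))
  have := h.key H19.isPElt_one (H19.preg_of_dvd hv (orderOf_pow_dvd (2 ^ k)))
    (H19.preg_of_dvd hv2 (orderOf_pow_dvd (2 ^ k))) (Commute.one_left _)
  rw [one_mul, one_mul, ← pow_two] at this
  rw [← norm_pow, ← Complex.norm_natCast, ← norm_mul, h.cast_deg]
  congr 1
  linear_combination this

theorem key2 (hu : IsPElt 2 u) : ζ u ^ 2 - ζ (u * u) = (p - 3) * ζ u := by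
  simpa using h.key hu H19.preg_one H19.preg_one (Commute.one_right _)

theorem inv_val (hτ : orderOf τ = 2) : ζ τ = -1 := by
  have h1 := h.key2 (u := τ) ⟨1, hτ⟩
  rw [← pow_two, show τ ^ 2 = 1 from hτ ▸ pow_orderOf_eq_one τ, h.deg, h.cast_deg] at h1
  have h2 : (ζ τ + 1) * (ζ τ - ζ 1) = 0 := by rw [h.deg, h.cast_deg]; linear_combination h1
  refine eq_neg_of_add_eq_zero_left ((mul_eq_zero.1 h2).resolve_right fun e => ?_)
  rw [h.faith τ (sub_eq_zero.1 e), orderOf_one] at hτ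
  omega

theorem not_four (hu : orderOf u = 4) : False := by
  have p5 := h.hp
  have h1 := h.key2 (u := u) ⟨2, hu⟩
  rw [h.inv_val (τ := u * u) (by rw [← pow_two, orderOf_pow, hu]; rfl)] at h1
  have h2 := congrArg conj h1
  simp only [map_sub, map_pow, map_mul, map_neg, map_one, map_natCast, map_ofNat] at h2
  have h3 : (ζ u - conj (ζ u)) * (ζ u + conj (ζ u) - (p - 3)) = 0 := by linear_combination h1 - h2
  rcases mul_eq_zero.1 h3 with h4 | h4
  · have h5 : 2 ∣ Nat.card G := (show 2 ∣ 4 by norm_num).trans (hu ▸ orderOf_dvd_natCard u)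
    obtain ⟨r, hr⟩ := h.irr.isGen.exists_int_of_pow (g := u) fun k hk => by
      have h6 := (Nat.Prime.coprime_iff_not_dvd Nat.prime_two).1 (hk.coprime_dvd_right h5).symm
      rw [← pow_mod_orderOf, hu]
      rcases (by omega : k % 4 = 1 ∨ k % 4 = 3) with e | e
      · rw [e, pow_one]
      · rw [e, show u ^ 3 = u⁻¹ from eq_inv_of_mul_eq_one_left (by
          rw [← pow_succ]; exact (congrArg (u ^ ·) hu).symm.trans (pow_orderOf_eq_one u)), ← h.char.conj_apply, ← sub_eq_zero.1 h4]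
    rw [hr] at h1
    have h6 : r * (p - 3 - r) = 1 := by
      have : (r : ℂ) * (p - 3 - r) = 1 := by linear_combination -h1
      exact_mod_cast this
    rcases Int.eq_one_or_neg_one_of_mul_eq_one' h6 with e | e <;> omega
  · have h5 : ζ u * conj (ζ u) = 1 := by linear_combination ζ u * h4 - h1
    rw [Complex.mul_conj, Complex.ofReal_eq_one, Complex.normSq_apply] at h5
    have h6 := congrArg Complex.re h4
    simp at h6
    have h7 : (5 : ℝ) < p := by exact_mod_cast p5
    nlinarith [mul_self_nonneg (ζ u).im]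

theorem sq_one (hu : IsPElt 2 u) : u * u = 1 := by
  obtain ⟨k, hk⟩ := hu
  rcases k with _ | _ | k
  · rw [orderOf_eq_one_iff.1 hk, one_mul]
  · rw [← pow_two, show 2 = orderOf u from hk.symm, pow_orderOf_eq_one]
  · refine (h.not_four (u := u ^ 2 ^ k) ?_).elim
    rw [orderOf_pow, hk, Nat.gcd_eq_right (pow_dvd_pow 2 (by omega)), Nat.pow_div (by omega) two_pos,
      show k + 1 + 1 - k = 2 by omega]; rfl

theorem reg_of_comm (hτ : orderOf τ = 2) (hc : Commute τ g) : ¬ p ∣ orderOf g := fun hg => by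
  obtain ⟨c, w, hw, h1, z, hz, -, e⟩ := h.sing hg
  have h2 : orderOf (c * τ * c⁻¹) = 2 := by rwa [H19.orderOf_conj']
  have h3 : Commute (c * τ * c⁻¹) (w * z) := by
    rw [← e]; exact hc.map (MulAut.conj c)
  refine h.odd_ord (h.cen (c * τ * c⁻¹) ?_ fun e => ?_) h2.symm.dvd
  · rw [← H20.zpowers_eq_of_card h.card hw h1]
    rintro _ ⟨k, rfl⟩
    have h4 : Commute (c * τ * c⁻¹) z⁻¹ := mem_center_iff.1 (inv_mem hz) _
    have h5 := h3.mul_right h4
    rw [mul_inv_cancel_right] at h5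
    exact (h5.symm.zpow_left k).eq
  · have := Nat.le_of_dvd two_pos (h2 ▸ e)
    have := h.hp
    omega

theorem pelt_center (hτ : orderOf τ = 2) {r : ℕ} [hr : Fact r.Prime] (hy : IsPElt r y)
    (h2 : ¬ 2 ∣ orderOf y) (hc : Commute τ y) : y ∈ center G := by
  by_contra hz
  obtain ⟨O, _⟩ := H19.exists_val r
  have p5 := h.hp
  set R := zpowers y
  have o2 : ∀ v ∈ R, ¬ 2 ∣ orderOf v := fun v hv =>
    H19.preg_of_dvd h2 (orderOf_dvd_of_mem_zpowers hv)
  have cm : ∀ v ∈ R, Commute τ v := by rintro _ ⟨k, rfl⟩; exact hc.zpow_right k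
  have hτR : τ ∉ R := fun e => o2 τ e hτ.symm.dvd
  have h3 : R.relIndex (zpowers τ ⊔ R) = 2 := by
    rw [H10.relIndex_sup_of_NN (zpowers_le.2 (centralizer_le_normalizer _
      fun v hv => (cm v hv).symm.eq))]
    have h4 := relIndex_dvd_card R (zpowers τ)
    rw [Nat.card_zpowers, hτ] at h4
    exact ((Nat.dvd_prime Nat.prime_two).1 h4).resolve_left fun e =>
      hτR (relIndex_eq_one.1 e (mem_zpowers τ))
  have h4 := sum_coset_le le_sup_right h3 (mem_sup_left (mem_zpowers τ)) hτR h.char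
  obtain ⟨lam, hlam⟩ := h.irr.exists_linear_center
  have hA : ((center G ⊓ R : Subgroup G) : Set G) ⊆ R := inf_le_right (a := center G)
  have n3 : ((p - 3 : ℕ) : ℂ) = p - 3 := by rw [Nat.cast_sub (by omega)]; rfl
  have z1 : ∀ v ∈ R, v ∉ center G → ∀ k : ℕ, v ^ 2 ^ k ∉ center G := fun v hv h5 k h6 =>
    h5 (zpowers_le.2 h6 (mem_zpowers_pow_iff.2
      (((Nat.Prime.coprime_iff_not_dvd Nat.prime_two).2 (o2 v hv)).pow_left k)))
  have v1 : ∀ v ∈ R, v ∉ center G → ‖ζ (v * τ)‖ = (p - 3 : ℕ) := fun v hv h5 => by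
    refine (iter_sq (F := fun x => ‖ζ (x * τ)‖) (Nat.cast_pos.2 (by omega)) (o2 v hv)
      (norm_nonneg _) fun k => ?_).resolve_left fun e => ?_
    · have m1 := pow_mem hv (2 ^ k)
      have m2 := pow_mem m1 2
      have := h.key (u := τ) ⟨1, hτ⟩ (h.reg_of_comm hτ (cm _ m1)) (o2 _ m1) (cm _ m1)
      rw [← pow_two, (cm _ m1).mul_pow, show τ ^ 2 = 1 from hτ ▸ pow_orderOf_eq_one τ, one_mul,
        h.zero_odd (h.reg_of_comm hτ (cm _ m2)) (o2 _ m2) (by rw [← pow_mul, ← pow_succ]; exact z1 v hv h5 _),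
        sub_zero, (cm _ m1).eq, (cm _ m2).eq] at this
      rw [← norm_pow, ← Complex.norm_natCast, ← norm_mul, n3, this]
    · have := H20.irr_mul_sub_mem (O := O) (mem_Irr_top.2 h.irr) (mem_top v) (mem_top τ)
        (H19.isPElt_of_mem hy.isPGroup_zpowers hv) (cm v hv).symm
      rw [norm_eq_zero.1 e, h.inv_val hτ, ValuationSubring.mem_nonunits_iff] at this
      simp at this
  rw [sum_fs_diff hA, sum_fs_diff hA,
    sum_fs_congr (f := fun c => ‖ζ (c * τ)‖ ^ 2) (g := fun _ => 1) (fun v hv => by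
      rw [hlam ⟨v, hv.1⟩, h.inv_val hτ, norm_mul, norm_neg, norm_one, mul_one,
        linear_norm_eq_one, one_pow]),
    sum_fs_congr (f := fun c => ‖ζ (c * τ)‖ ^ 2) (g := fun _ => ((p - 3 : ℕ) : ℝ) ^ 2)
      (fun v hv => by rw [v1 v hv.1 fun e => hv.2 ⟨e, hv.1⟩]),
    sum_fs_congr (f := fun c => ‖ζ c‖ ^ 2) (g := fun _ => ((p - 2 : ℕ) : ℝ) ^ 2)
      (fun v hv => by rw [h.mem_center.1 hv.1]),
    sum_fs_eq_zero (f := fun c => ‖ζ c‖ ^ 2) (fun v hv => by
      rw [h.zero_odd (h.reg_of_comm hτ (cm v hv.1)) (o2 v hv.1) fun e => hv.2 ⟨e, hv.1⟩]; simp),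
    sum_sub_const, sum_sub_const, sum_fs_const] at h4
  have h5 := sum_fs_diff hA fun _ => (1 : ℕ)
  rw [sum_sub_const, sum_sub_const, sum_fs_const, ← card_mul_relIndex (inf_le_right (a := center G)),
    inf_relIndex_right] at h5
  have h6 : (center G).relIndex R ≠ 1 := fun e => hz (relIndex_eq_one.1 e (mem_zpowers y))
  have h7 : ¬ 2 ∣ (center G).relIndex R := fun e =>
    h2 (Nat.card_zpowers y ▸ e.trans (relIndex_dvd_card _ _))
  have h8 := CF.relIndex_pos (center G) R
  have h9 : 0 < Nat.card (center G ⊓ R : Subgroup G) := Nat.card_pos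
  generalize Nat.card (center G ⊓ R : Subgroup G) = a at *
  generalize ((R : Set G) \ (center G ⊓ R : Subgroup G)).ncard = b at *
  have h10 : 2 * a ≤ b := by
    have : a * 3 ≤ a * (center G).relIndex R := Nat.mul_le_mul_left a (by omega)
    simp only [Nat.cast_id, mul_one] at h5
    omega
  have h11 : a * 1 + b * (p - 3) ^ 2 ≤ a * (p - 2) ^ 2 + 0 := by exact_mod_cast h4
  obtain ⟨q, rfl⟩ : ∃ q, p = q + 6 := ⟨p - 6, by omega⟩
  rw [show q + 6 - 3 = q + 3 from rfl, show q + 6 - 2 = q + 4 from rfl] at h11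
  nlinarith [Nat.mul_le_mul_right ((q + 3) ^ 2) h10, Nat.zero_le (a * q), Nat.zero_le (a * q * q)]

theorem odd_center (hτ : orderOf τ = 2) (h2 : ¬ 2 ∣ orderOf y) (hc : Commute τ y) :
    y ∈ center G := by
  induction hn : orderOf y using Nat.strong_induction_on generalizing y with
  | _ n ih =>
    by_cases h1 : n = 1
    · rw [orderOf_eq_one_iff.1 (hn.trans h1)]; exact one_mem _
    obtain ⟨r, hr, hd⟩ := Nat.exists_prime_and_dvd h1
    haveI := Fact.mk hr
    have m1 := H19.isPPart_mem_zpowers (H19.isPPart_ppart (p := r) y)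
    have m2 := orderOf_dvd_of_mem_zpowers (mul_mem (inv_mem m1) (mem_zpowers y))
    rw [← H19.ppart_mul_rpart (p := r) y]
    refine mul_mem (h.pelt_center hτ (H19.ppart_isPElt y) (H19.preg_of_dvd h2
      (orderOf_dvd_of_mem_zpowers m1)) (H19.commute_ppart hc))
      (ih _ (lt_of_le_of_ne (Nat.le_of_dvd (hn ▸ orderOf_pos y) (hn ▸ m2)) fun e => ?_)
        (H19.preg_of_dvd h2 m2) (H19.commute_rpart hc) rfl)
    exact H19.rpart_reg (p := r) y (e ▸ hd)

theorem cent_comm (hτ : orderOf τ = 2) : IsMulCommutative (centralizer ({τ} : Set G)) := by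
  have h1 : ∀ g, Commute τ g → ∃ u, Commute τ u ∧ u * u = 1 ∧ ∃ z ∈ center G, g = u * z :=
    fun g hg => ⟨_, H19.commute_ppart hg, h.sq_one (H19.ppart_isPElt g), _,
      h.odd_center hτ (H19.rpart_reg g) (H19.commute_rpart hg), (H19.ppart_mul_rpart g).symm⟩
  refine ⟨⟨fun a b => Subtype.ext ?_⟩⟩
  obtain ⟨u, c1, hu, z, hz, e1⟩ := h1 a (mem_centralizer_singleton_iff.1 a.2).symm
  obtain ⟨v, c2, hv, y, hy, e2⟩ := h1 b (mem_centralizer_singleton_iff.1 b.2).symm
  obtain ⟨t, -, ht, x, hx, e3⟩ := h1 _ (c1.mul_right c2)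
  have h2 : u * v * (u * v) = x * x := by
    rw [e3, mul_assoc, ← mul_assoc x, ← mem_center_iff.1 hx t, ← mul_assoc, ← mul_assoc, ht, one_mul]
  have h3 : v * u * (v * u) = x * x := by
    have := mem_center_iff.1 (mul_mem hx hx) u
    rw [← h2] at this
    calc v * u * (v * u) = u * u * v * u * (v * u) := by rw [hu, one_mul]
      _ = u * (u * v * (u * v)) * u := by group
      _ = x * x := by rw [this, mul_assoc, hu, mul_one, h2]
  have h4 : (x * x) ^ 2 = 1 := by
    rw [pow_two]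
    nth_rewrite 1 [← h2, ← h3]
    calc u * v * (u * v) * (v * u * (v * u)) = u * v * u * (v * v) * u * v * u := by group
      _ = u * v * (u * u) * v * u := by rw [hv]; group
      _ = u * (v * v) * u := by rw [hu]; group
      _ = 1 := by rw [hv, mul_one, hu]
  have h5 : x * x = 1 := orderOf_eq_one_iff.1 (Nat.eq_one_of_dvd_coprimes
    ((Nat.Prime.coprime_iff_not_dvd Nat.prime_two).2 (h.odd_ord (mul_mem hx hx)))
    (orderOf_dvd_of_pow_eq_one h4) dvd_rfl)
  have h6 : Commute u v := by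
    rw [h5] at h2
    calc u * v = u * (u * v * (u * v)) * v * (u * u)⁻¹ * (v * v)⁻¹ := by rw [h2, hu, hv]; group
      _ = v * u := by
        rw [hu, hv, show u * (u * v * (u * v)) * v = u * u * v * u * (v * v) by group, hu, hv]; group
  have k1 : ∀ g, Commute g z := fun g => mem_center_iff.1 hz g
  have k2 : ∀ g, Commute g y := fun g => mem_center_iff.1 hy g
  rw [coe_mul, coe_mul, e1, e2]
  exact ((h6.mul_right (k2 u)).mul_left (k1 _).symm).eq

end DP

end H21
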