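import Cfsg.Agent.H29.U1
import Cfsg.Agent.H23.Qa

set_option autoImplicit false

namespace H21.Hc
open Cfsg H29 H29.U Subgroup

variable {G : Type*} [Group G]

theorem zp2 {t c : G} (t2 : t * t = 1) (h : c ∈ zpowers t) : c = 1 ∨ c = t := by
  obtain ⟨m, rfl⟩ := h
  have e : t ^ (2 : ℤ) = 1 := by rw [zpow_two, t2]
  rcases Int.emod_two_eq_zero_or_one m with k | k
  · left; show t ^ m = 1; rw [zpow_eq_zpow_emod m e, k, zpow_zero]
  · right; show t ^ m = t; rw [zpow_eq_zpow_emod m e, k, zpow_one]

theorem core [Finite G] {t b r z μ ρ P y ys a : G} {R N : Subgroup G} (X : XS t R N) (rN : r ∈ N)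
    (t2 : t * t = 1) (b2 : b * b = 1) (bt : b * t = t * b) (r3 : r * r * r = 1) (z2 : z * z = 1)
    (zr : z * r = r * z) (zb : z * b = b * z) (c0 : (b * r) ^ 3 ∈ zpowers z)
    (μt : t * μ = μ * t) (ha : a = μ * b * μ⁻¹) (ρt : t * ρ = ρ * t) (ρa : ρ * a = a * ρ)
    (ln : ρ * b * ρ⁻¹ * (ρ⁻¹ * b * ρ) * b = 1)
    (Pa : P * a = a * P) (Pt : t * P = P * t) (Pb : P * b * P⁻¹ = b * t)
    (hm : b * (a * (b * (μ * z * μ⁻¹) * b * z) * a) * b * (b * (μ * z * μ⁻¹) * b * z) = P * P)
    (hy : ys = a * (b * (a * (b * y * b) * a) * b) * a) (y1 : ys ≠ y) (y2 : P * P * ys ≠ y * (P * P)) :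
    (P * a * b) ^ 2 = 1 := by
  have t1 : t ≠ 1 := fun h => by have := X.o; rw [h, orderOf_one] at this; exact absurd this (by decide)
  have bi : b⁻¹ = b := inv_eq_of_mul_eq_one_right b2
  have a2 : a * a = 1 := by rw [ha]; calc _ = μ * (b * b) * μ⁻¹ := by group
    _ = 1 := by rw [b2]; group
  have ai : a⁻¹ = a := inv_eq_of_mul_eq_one_right a2
  have cbt : Commute b t := bt
  have cμt : Commute μ t := μt.symm
  have cρt : Commute ρ t := ρt.symm
  have cat : Commute a t := by rw [ha]; exact (cμt.mul_left cbt).mul_left cμt.inv_left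
  have bC : b ∈ centralizer ({t} : Set G) := mem_centralizer_singleton_iff.2 bt
  have μC : μ ∈ centralizer ({t} : Set G) := mem_centralizer_singleton_iff.2 μt.symm
  have czr : Commute z r := zr
  have czb : Commute z b := zb
  have key : ∀ w : G, w * w = 1 → Commute w r → Commute w b → (b * r) ^ 3 = w → b * w ∈ R := by
    intro w w2 wr wb h
    have h1 : b * r * b⁻¹ * r⁻¹ ∈ N := mul_mem ((mem_normalizer_iff.1 (X.nN bC) r).1 rN) (inv_mem rN)
    have ri : r⁻¹ = r * r := inv_eq_of_mul_eq_one_left r3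
    have h2 : b * r * b⁻¹ * r⁻¹ = r⁻¹ * (b * w) * r := by
      have e1 : b * r * b * r * b * r = w := by rw [← h]; simp only [pow_succ, pow_zero, one_mul, mul_assoc]
      calc b * r * b⁻¹ * r⁻¹ = b * r * b * r⁻¹ := by rw [bi]
        _ = (b * r * b * r * b * r) * (r⁻¹ * b⁻¹ * r⁻¹ * r⁻¹) := by group
        _ = w * (r⁻¹ * b * r) := by
          rw [e1, bi, mul_assoc (r⁻¹ * b), ← mul_inv_rev, ← ri, inv_inv]
        _ = r⁻¹ * (b * w) * r := by
          rw [← wb.eq, ← mul_assoc, ← mul_assoc, wr.inv_right.eq]; group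
    have h3 : (b * w) * (b * w) = 1 := by
      rw [mul_assoc, ← mul_assoc w, wb.eq, mul_assoc, w2, mul_one, b2]
    have h4 : r⁻¹ * (b * w) * r ∈ R := by
      refine H23.Qa.mem_R X.RN (X.NC.trans X.nR) X.cR X.cN (h2 ▸ h1) ?_
      calc (r⁻¹ * (b * w) * r) ^ 4 = r⁻¹ * ((b * w) * (b * w) * ((b * w) * (b * w))) * r := by
            simp only [pow_succ, pow_zero]; group
        _ = 1 := by rw [h3]; group
    have := (mem_normalizer_iff.1 (X.nR (X.NC rN)) _).1 h4
    rwa [show r * (r⁻¹ * (b * w) * r) * r⁻¹ = b * w by group] at this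
  have hy' : ys * (a * b * (a * b)) = a * b * (a * b) * y := by
    rw [hy]
    calc _ = a * b * (a * b) * y * (b * (a * (b * (a * a) * b) * a) * b) := by group
      _ = _ := by rw [a2, mul_one, b2, mul_one, a2, mul_one, b2, mul_one]
  rcases zp2 z2 c0 with k | k
  · exfalso
    have bR : b ∈ R := by simpa using key 1 (one_mul 1) (Commute.one_left r) (Commute.one_left b) k
    have aR : a ∈ R := ha ▸ (mem_normalizer_iff.1 (X.nR μC) b).1 bR
    rcases zp2 t2 (X.sq _ (mul_mem aR bR)) with j | j
    · rw [j] at hy'; exact y1 (by simpa using hy')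
    · have e1 : a * b * a = t * b := by
        rw [← j]; calc a * b * a = a * b * a * (b * b) := by rw [b2, mul_one]
          _ = _ := by group
      have cρa : Commute ρ a := ρa
      have e2 : a * (ρ * b * ρ⁻¹) * a = t * (ρ * b * ρ⁻¹) := by
        calc _ = (a * ρ) * b * (ρ⁻¹ * a) := by group
          _ = ρ * (a * b * a) * ρ⁻¹ := by rw [← ρa, cρa.inv_left.eq]; group
          _ = _ := by rw [e1, ← mul_assoc, ← ρt]; group
      have e3 : a * (ρ⁻¹ * b * ρ) * a = t * (ρ⁻¹ * b * ρ) := by
        calc _ = (a * ρ⁻¹) * b * (ρ * a) := by group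
          _ = ρ⁻¹ * (a * b * a) * ρ := by rw [ρa, ← cρa.inv_left.eq]; group
          _ = _ := by rw [e1, ← mul_assoc, cρt.inv_left.eq]; group
      have c2 : Commute (ρ * b * ρ⁻¹) t := (cρt.mul_left cbt).mul_left cρt.inv_left
      have c3 : Commute (ρ⁻¹ * b * ρ) t := (cρt.inv_left.mul_left cbt).mul_left cρt
      generalize ρ * b * ρ⁻¹ = p at *
      generalize ρ⁻¹ * b * ρ = q at *
      apply t1
      calc t = t * (t * t) * (p * q * b) := by rw [t2, ln]; group
        _ = t * p * (t * q) * (t * b) := by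
          rw [mul_assoc t p, ← mul_assoc p, c2.eq, mul_assoc t (t * p * q), mul_assoc (t * p), ← mul_assoc q, c3.eq,
            mul_assoc t q, ← mul_assoc (t * p), mul_assoc t p t, c2.eq]; group
        _ = a * (p * (a * a) * q * (a * a) * b) * a := by rw [← e1, ← e2, ← e3]; group
        _ = 1 := by rw [a2, mul_one, mul_one, ln, mul_one, a2]
  · have bR : b * z ∈ R := key z z2 czr czb k
    have aR : a * (μ * z * μ⁻¹) ∈ R := by
      have := (mem_normalizer_iff.1 (X.nR μC) _).1 bR
      rwa [show μ * (b * z) * μ⁻¹ = μ * b * μ⁻¹ * (μ * z * μ⁻¹) by group, ← ha] at this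
    have sq := X.sq _ (mul_mem aR bR)
    generalize μ * z * μ⁻¹ = w at *
    have e : a * w * (b * z) * (a * w * (b * z)) = a * b * (a * b) * (P * P) := by
      rw [← hm]
      calc _ = a * (b * (a * (b * b) * a) * b) * w * b * z * a * (b * b) * w * b * z := by
            simp only [b2, a2, mul_one]; group
        _ = a * b * (a * b) * (b * (a * (b * w * b * z) * a) * b * (b * w * b * z)) := by group
    rw [e] at sq
    rcases zp2 t2 sq with j | j
    · exfalso
      apply y2
      have : a * b * (a * b) = (P * P)⁻¹ := eq_inv_of_mul_eq_one_left j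
      rw [this] at hy'
      calc P * P * ys = P * P * (ys * (P * P)⁻¹) * (P * P) := by group
        _ = _ := by rw [hy']; group
    · have Pb' : P * b = b * t * P := by rw [← Pb]; group
      have Sb : P * P * b = b * (P * P) := by
        calc P * P * b = P * (P * b) := mul_assoc _ _ _
          _ = P * b * (t * P) := by conv_lhs => rw [Pb']
                                    simp only [mul_assoc]
          _ = b * (t * (P * t)) * P := by rw [Pb']; simp only [mul_assoc]
          _ = _ := by rw [← Pt, ← mul_assoc t, t2, one_mul, mul_assoc]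
      have Sa : P * P * a = a * (P * P) := by rw [mul_assoc, Pa, ← mul_assoc, Pa, mul_assoc]
      calc (P * a * b) ^ 2 = P * a * b * (P * a) * b := by rw [pow_two]; simp only [mul_assoc]
        _ = a * (P * b) * (P * a) * b := by rw [Pa]; simp only [mul_assoc]
        _ = a * (b * t) * (P * P * a) * b := by rw [Pb']; simp only [mul_assoc]
        _ = a * t * b * a * (P * P * b) := by rw [bt, Sa]; simp only [mul_assoc]
        _ = t * (a * b * (a * b) * (P * P)) := by rw [cat.eq, Sb]; simp only [mul_assoc]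
        _ = 1 := by rw [j, t2]

end H21.Hc
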