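import Cfsg.Agent.H21.Hd
import Cfsg.Agent.H21.Hc
import Cfsg.Agent.H13.Qs

set_option maxRecDepth 100000
set_option maxHeartbeats 800000
set_option autoImplicit false
set_option linter.style.longLine false

namespace H21.H12
open Cfsg Cfsg.Spor H7.J4 H29 H29.J4m H29.U H25.He4 Subgroup

universe u
variable {G : Type u} [Group G] {M : Model G} {x y e t : G}

theorem rinv (s : Std M) {a b : ℕ} {g : G} (ha : M.R a g) (hb : M.In ⊤ b) (k : Nat.beq (kmul a b) kone = true) :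
    M.R b g⁻¹ := by
  obtain ⟨h, -, rh⟩ := hb
  have o := M.R_one
  have m := rm s ha rh
  rw [Nat.eq_of_beq_eq_true k] at m
  rw [s.2.1] at o
  exact M.R_congr rh (eq_inv_of_mul_eq_one_right (M.unique m o))

theorem cmx (s : Std M) (ht : t * t = 1) (hD : List.Forall₂ (Ac M t) DL DT) {L : List ℕ} {l : List G}
    (h : List.Forall₂ M.R L l) (a w : Ex) (h1 : Nat.beq (a.c kmul kone L) (w.c kmul kone DL) = true)
    (h2 : Nat.beq (a.c kmul kone L) (w.c kmul kone DT) = true) : t * a.g l = a.g l * t := by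
  obtain ⟨g, g1, g2⟩ := acE s ht hD w
  have r1 := s.lit h a h1
  have r2 := s.lit h a h2
  rw [M.unique g1 r1] at g2
  have := M.unique g2 r2
  calc t * a.g l = t * a.g l * t * t := by rw [mul_assoc _ t t, ht, mul_one]
    _ = _ := by rw [this]

theorem tce {t α β : G} (h : t * (α⁻¹ * β) = α⁻¹ * β * t) : β * t * β⁻¹ = α * t * α⁻¹ := by
  calc β * t * β⁻¹ = α * (α⁻¹ * β * t) * β⁻¹ := by group
    _ = _ := by rw [← h]; group

theorem stp (s : Std M) (ht : t * t = 1) (hD : List.Forall₂ (Ac M t) DL DT) {A g : G} {a ai c d : ℕ}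
    (ha : M.R a A) (hai : M.R ai A⁻¹) (hg : M.R c g) (w : Ex) (h1 : ck ai a c w = true)
    (h2 : Nat.beq (st a ai w) d = true) : M.R d (A * t * A⁻¹ * g * (A * t * A⁻¹)) := by
  have := step s ht hD ha hai hai (B := A⁻¹) (by rw [inv_inv]; exact ha) hg h1
  rw [Nat.eq_of_beq_eq_true h2] at this
  refine M.R_congr this ?_
  rw [mul_inv_rev, mul_inv_rev, inv_inv, inv_eq_of_mul_eq_one_right ht, mul_assoc A t A⁻¹]

theorem h12 [Finite G] (f : Fr M x y e) (ht : Tt x y e t) (g : Gd M x y e t) (h11 : (y * ((y * x * (y⁻¹) * x * y * x * (y⁻¹) * x)⁻¹ * t * (y * x * (y⁻¹) * x * y * x * (y⁻¹) * x))) ^ 3 = 1) (_he : (y * ((y * x) ^ 4 * y⁻¹ * x)⁻¹ * t * ((y * x) ^ 4 * y⁻¹ * x)) ^ 3 ∈ zpowers e) : (((y * x * y * x * y * x * y) ^ 3) * t * ((((x * y) ^ 3) * y * ((x * y) ^ 6) * y)⁻¹ * t * (((x * y) ^ 3) * y * ((x * y) ^ 6) * y))) ^ 2 = 1 := by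
  have s := f.s
  have q := H13.Qs.qs f
  have hD := acD f.toMd g
  have t2 := g.t2
  obtain ⟨R, N, X, rN, -⟩ := ht
  have c0 := cen f.toMd q g dc
  have ua : wu1.g [x, y, y⁻¹, e] = y * x * (y⁻¹) * x * y * x * (y⁻¹) * x :=
    f.s.eq f.h wu1 (.m (.m (.m (.m (.m (.m (.m (.v 1) (.v 0)) (.v 2)) (.v 0)) (.v 1)) (.v 0)) (.v 2)) (.v 0)) (by decide +kernel)
  have ub : wu1.g [x, y, y⁻¹, e] * wU1.g [x, y, y⁻¹, e] = 1 := f.s.eq f.h (.m wu1 wU1) (.v 9) (by decide +kernel)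
  have nN : wn.g [x, y, y⁻¹, e] * wN.g [x, y, y⁻¹, e] = 1 := f.s.eq f.h (.m wn wN) (.v 9) (by decide +kernel)
  have kK : wka.g [x, y, y⁻¹, e] * wkA.g [x, y, y⁻¹, e] = 1 := f.s.eq f.h (.m wka wkA) (.v 9) (by decide +kernel)
  have rn : M.R cn (wn.g [x, y, y⁻¹, e]) := s.lit f.h wn (by decide +kernel)
  have rni : M.R cni (wN.g [x, y, y⁻¹, e]) := s.lit f.h wN (by decide +kernel)
  have rr : M.R cr (wr.g [x, y, y⁻¹, e]) := s.lit f.h wr (by decide +kernel)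
  have rz : M.R cz0 (wkA.g [x, y, y⁻¹, e] * e * wka.g [x, y, y⁻¹, e]) := s.lit f.h (.m (.m wkA (.v 3)) wka) (by decide +kernel)
  have rp : M.R cp ((y * x * y * x * y * x * y) ^ 3) :=
    s.lit f.h (.p (.m (.m (.m (.m (.m (.m (.v 1) (.v 0)) (.v 1)) (.v 0)) (.v 1)) (.v 0)) (.v 1)) 3) (by decide +kernel)
  have rv : M.R cv (((x * y) ^ 3) * y * ((x * y) ^ 6) * y) :=
    s.lit f.h (.m (.m (.m (.p (.m (.v 0) (.v 1)) 3) (.v 1)) (.p (.m (.v 0) (.v 1)) 6)) (.v 1)) (by decide +kernel)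
  have hK : ∀ c ∈ L4, M.In ⊤ c := fun c hc => by
    obtain ⟨i, -, rfl⟩ := exists_lgetD M.one hc
    exact ⟨_, trivial, R_getD f.h i⟩
  have rpi := rinv s rp (b := cpi) ⟨_, trivial, s.lit f.h (.p (.p (.m (.m (.m (.m (.m (.m (.v 1) (.v 0)) (.v 1)) (.v 0)) (.v 1)) (.v 0)) (.v 1)) 3) 3) (by decide +kernel)⟩ (by decide +kernel)
  have rvi := rinv s rv (b := cvi) ⟨_, trivial, s.lit f.h (.m (.m (.m (.v 2) (.p (.m (.v 2) (.v 0)) 6)) (.v 2)) (.p (.m (.v 2) (.v 0)) 3)) (by decide +kernel)⟩ (by decide +kernel)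
  have L : (wn.g [x, y, y⁻¹, e] * t) ^ 3 = 1 := by
    change (wu1.g [x, y, y⁻¹, e] * y * wU1.g [x, y, y⁻¹, e] * t) ^ 3 = 1
    rw [eq_inv_of_mul_eq_one_right ub, ua]
    generalize y * x * (y⁻¹) * x * y * x * (y⁻¹) * x = u at h11 ⊢
    calc _ = u * (y * (u⁻¹ * t * u)) ^ 3 * u⁻¹ := by simp only [pow_succ, pow_zero]; group
      _ = 1 := by rw [h11]; group
  change (wka.g [x, y, y⁻¹, e] * wn.g [x, y, y⁻¹, e] * t * (wN.g [x, y, y⁻¹, e] * wr.g [x, y, y⁻¹, e] * wkA.g [x, y, y⁻¹, e])) ^ 3 ∈ _ at c0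
  rw [eq_inv_of_mul_eq_one_right nN] at c0 rni
  rw [eq_inv_of_mul_eq_one_right kK] at c0 rz
  generalize wn.g [x, y, y⁻¹, e] = n at *
  generalize wr.g [x, y, y⁻¹, e] = r at *
  generalize wka.g [x, y, y⁻¹, e] = κ at *
  generalize (y * x * y * x * y * x * y) ^ 3 = π at *
  generalize ((x * y) ^ 3) * y * ((x * y) ^ 6) * y = v at *
  have c1 : (n * t * n⁻¹ * r) ^ 3 ∈ zpowers (κ⁻¹ * e * κ) := by
    obtain ⟨m, hm⟩ := c0
    refine ⟨m, ?_⟩
    have : (κ⁻¹ * e * κ) ^ m = κ⁻¹ * e ^ m * κ := by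
      have := conj_zpow (a := κ⁻¹) (b := e) (i := m); rwa [inv_inv] at this
    simp only at hm ⊢
    rw [this, hm]; simp only [pow_succ, pow_zero]; group
  generalize κ⁻¹ * e * κ = z at *
  have h5 := s.map (s.map hK _ k4) e5 k5
  have hi := s.map h5 _ ki
  obtain ⟨k, -, rk⟩ := h5 ck0 (by simp)
  obtain ⟨μ, -, rμ⟩ := h5 cmu (by simp)
  obtain ⟨ρ, -, rρ⟩ := h5 crh (by simp)
  obtain ⟨u, -, ru⟩ := h5 cu0 (by simp)
  obtain ⟨w, -, rw'⟩ := h5 cy1 (by simp)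
  have rki := rinv s rk (hi cki (by simp)) (by decide +kernel)
  have rμi := rinv s rμ (hi cmi (by simp)) (by decide +kernel)
  have rρi := rinv s rρ (hi cri (by simp)) (by decide +kernel)
  have rui := rinv s ru (hi cui (by simp)) (by decide +kernel)
  have hL : List.Forall₂ M.R LL [n, n⁻¹, k, k⁻¹, μ, μ⁻¹, ρ, ρ⁻¹, u, u⁻¹, π, π⁻¹, v, v⁻¹, z, r, w] :=
    .cons rn (.cons rni (.cons rk (.cons rki (.cons rμ (.cons rμi (.cons rρ (.cons rρi (.cons ru (.cons rui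
      (.cons rp (.cons rpi (.cons rv (.cons rvi (.cons rz (.cons rr (.cons rw' .nil))))))))))))))))
  have cm := fun a w h1 h2 => cmx s t2 hD hL a w h1 h2
  have E0 : t * (n⁻¹ * (k * v⁻¹)) = n⁻¹ * (k * v⁻¹) * t := cm (.m (.v 1) (.m (.v 2) (.v 13))) u0 (by decide +kernel) (by decide +kernel)
  have E1 : t * (k⁻¹ * (μ * n)) = k⁻¹ * (μ * n) * t := cm (.m (.v 3) (.m (.v 4) (.v 0))) u1 (by decide +kernel) (by decide +kernel)
  have E2 : t * π = π * t := cm (.v 10) u2 (by decide +kernel) (by decide +kernel)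
  have E3 : t * (n * (k * π * k⁻¹ * n)) = n * (k * π * k⁻¹ * n) * t := cm (.m (.v 0) (.m (.m (.m (.v 2) (.v 10)) (.v 3)) (.v 0))) u3 (by decide +kernel) (by decide +kernel)
  have E4 : t * (k * π * k⁻¹) = k * π * k⁻¹ * t := cm (.m (.m (.v 2) (.v 10)) (.v 3)) u4 (by decide +kernel) (by decide +kernel)
  have E5 : t * ρ = ρ * t := cm (.v 6) u5 (by decide +kernel) (by decide +kernel)
  have E6 : t * (n⁻¹ * μ⁻¹ * (ρ * (μ * n))) = n⁻¹ * μ⁻¹ * (ρ * (μ * n)) * t := cm (.m (.m (.v 1) (.v 5)) (.m (.v 6) (.m (.v 4) (.v 0)))) u6 (by decide +kernel) (by decide +kernel)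
  have E7 : t * u = u * t := cm (.v 8) u7 (by decide +kernel) (by decide +kernel)
  have E8 : t * (n⁻¹ * ρ⁻¹ * (n * u * n)) = n⁻¹ * ρ⁻¹ * (n * u * n) * t := cm (.m (.m (.v 1) (.v 7)) (.m (.m (.v 0) (.v 8)) (.v 0))) u8 (by decide +kernel) (by decide +kernel)
  have E9 : t * (n⁻¹ * ρ * (n * u * n⁻¹)) = n⁻¹ * ρ * (n * u * n⁻¹) * t := cm (.m (.m (.v 1) (.v 6)) (.m (.m (.v 0) (.v 8)) (.v 1))) u9 (by decide +kernel) (by decide +kernel)
  have E10 : t * (n⁻¹ * (z * n)) = n⁻¹ * (z * n) * t := cm (.m (.v 1) (.m (.v 14) (.v 0))) u10 (by decide +kernel) (by decide +kernel)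
  have E11 : t * μ = μ * t := cm (.v 4) u11 (by decide +kernel) (by decide +kernel)
  have n3 : n * n * n = 1 := s.eq hL (.m (.m (.v 0) (.v 0)) (.v 0)) (.v 99) (by decide +kernel)
  have r3 : r * r * r = 1 := s.eq hL (.m (.m (.v 15) (.v 15)) (.v 15)) (.v 99) (by decide +kernel)
  have z2 : z * z = 1 := s.eq hL (.m (.v 14) (.v 14)) (.v 99) (by decide +kernel)
  have zr : z * r = r * z := s.eq hL (.m (.v 14) (.v 15)) (.m (.v 15) (.v 14)) (by decide +kernel)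
  have ral : M.R cal (μ * n) := s.lit hL (.m (.v 4) (.v 0)) (by decide +kernel)
  have rali : M.R cali (μ * n)⁻¹ := M.R_congr (s.lit hL (.m (.v 1) (.v 5)) (by decide +kernel)) (mul_inv_rev μ n).symm
  have rza : M.R cza (μ * z * μ⁻¹) := s.lit hL (.m (.m (.v 4) (.v 14)) (.v 5)) (by decide +kernel)
  have rP : M.R (kmul (kmul ck0 cp) cki) (k * π * k⁻¹) := rm s (rm s rk rp) rki
  have s0 := stp s t2 hD rn rni rza t0 (d := d0) (by decide +kernel) (by decide +kernel)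
  have s1 := stp s t2 hD ral rali (rm s s0 rz) t1 (d := d1) (by decide +kernel) (by decide +kernel)
  have s2 := stp s t2 hD rn rni s1 H21.H12.t2 (d := d2) (by decide +kernel) (by decide +kernel)
  have s3 := stp s t2 hD rn rni rw' t3 (d := d3) (by decide +kernel) (by decide +kernel)
  have s4 := stp s t2 hD ral rali s3 t4 (d := d4) (by decide +kernel) (by decide +kernel)
  have s5 := stp s t2 hD rn rni s4 t5 (d := d5) (by decide +kernel) (by decide +kernel)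
  have s6 := stp s t2 hD ral rali s5 t6 (d := d6) (by decide +kernel) (by decide +kernel)
  have hm := M.eq_of (rm s s2 (rm s s0 rz)) (rm s rP rP) (by rw [s.2.2]; decide +kernel)
  have y1 := M.ne_of s6 rw' (by rw [s.2.2]; decide +kernel)
  have y2 := M.ne_of (rm s (rm s rP rP) s6) (rm s rw' (rm s rP rP)) (by rw [s.2.2]; decide +kernel)
  have ni : n⁻¹ = n * n := inv_eq_of_mul_eq_one_left n3
  have L' : n * t * n⁻¹ * (n⁻¹ * t * n) * t = 1 := by
    rw [← L]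
    calc _ = n * t * (n * n)⁻¹ * t * n * t := by group
      _ = _ := by rw [← ni, inv_inv]; simp only [pow_succ, pow_zero]; group
  have b2 : n * t * n⁻¹ * (n * t * n⁻¹) = 1 := by
    calc _ = n * (t * t) * n⁻¹ := by group
      _ = 1 := by rw [t2]; group
  have bb : n⁻¹ * t * n = n * t * n⁻¹ * t := by
    calc n⁻¹ * t * n = n * t * n⁻¹ * (n * t * n⁻¹) * (n⁻¹ * t * n) * (t * t) := by rw [b2, t2]; group
      _ = n * t * n⁻¹ * (n * t * n⁻¹ * (n⁻¹ * t * n) * t) * t := by group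
      _ = _ := by rw [L', mul_one]
  have bt : n * t * n⁻¹ * t = t * (n * t * n⁻¹) := by
    have ti : t⁻¹ = t := inv_eq_of_mul_eq_one_right t2
    have : (n⁻¹ * t * n)⁻¹ = n⁻¹ * t * n := by rw [mul_inv_rev, mul_inv_rev, inv_inv, ti, mul_assoc]
    rw [bb, mul_inv_rev, ti, inv_eq_of_mul_eq_one_right b2] at this
    exact this.symm
  have F0 := tce E0
  have F1 := tce E1
  have F3 := tce (t := t) (α := n⁻¹) (β := k * π * k⁻¹ * n) (by rw [inv_inv]; exact E3)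
  have F6 := tce (t := t) (α := μ * n) (β := ρ * (μ * n)) (by rw [mul_inv_rev]; exact E6)
  have F8 := tce (t := t) (α := ρ * n) (β := n * u * n) (by rw [mul_inv_rev]; exact E8)
  have F9 := tce (t := t) (α := ρ⁻¹ * n) (β := n * u * n⁻¹) (by rw [mul_inv_rev, inv_inv]; exact E9)
  have F10 := tce E10
  have fin := H21.Hc.core (b := n * t * n⁻¹) (a := μ * n * t * (μ * n)⁻¹) (P := k * π * k⁻¹) (μ := μ) (ρ := ρ) X rN t2 b2 bt r3 z2 zr
    (by
      calc z * (n * t * n⁻¹) = z * n * t * (z * n)⁻¹ * z := by group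
        _ = _ := by rw [F10]) c1 E11 (by group) E5
    (by
      calc ρ * (μ * n * t * (μ * n)⁻¹) = ρ * (μ * n) * t * (ρ * (μ * n))⁻¹ * ρ := by group
        _ = _ := by rw [F6])
    (by
      calc _ = ρ * n * t * (ρ * n)⁻¹ * (ρ⁻¹ * n * t * (ρ⁻¹ * n)⁻¹) * (n * (t * u) * u⁻¹ * n⁻¹) := by group
        _ = n * u * (n * t * n⁻¹ * (n⁻¹ * t * n) * t) * (n * u)⁻¹ := by rw [← F8, ← F9, E7]; group
        _ = 1 := by rw [L']; group)
    (by
      rw [F1]
      calc k * π * k⁻¹ * (k * t * k⁻¹) = k * (π * t) * k⁻¹ := by group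
        _ = _ := by rw [← E2]; group) E4
    (by
      rw [← bb]
      calc _ = k * π * k⁻¹ * n * t * (k * π * k⁻¹ * n)⁻¹ := by group
        _ = _ := by rw [F3, inv_inv])
    hm rfl y1 y2
  rw [F1, ← F0] at fin
  calc _ = k⁻¹ * (k * π * k⁻¹ * (k * t * k⁻¹) * (k * v⁻¹ * t * (k * v⁻¹)⁻¹)) ^ 2 * k := by simp only [pow_succ, pow_zero]; group
    _ = 1 := by rw [fin]; group

end H21.H12
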