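/-
The Isaacs correspondence, second step: the involution and the central case.
-/
import Cfsg.Agent.H21.Isa1
import Cfsg.Agent.H8.Sdp

set_option autoImplicit false
set_option linter.unusedSectionVars false
open H17 Cfsg H15 CF
open scoped ComplexConjugate commutatorElement

namespace H21

universe u
variable {G : Type u} [Group G] [Finite G] {K M Z A C S P H E : Subgroup G} {θ θ' χ ψ lam : G → ℂ}

theorem exists_of_graph (D : Subgroup (G × G)) (h1 : ∀ g, ∃ h, (g, h) ∈ D)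
    (h2 : ∀ h, (1, h) ∈ D → h = 1) (h3 : ∀ g h, (g, h) ∈ D → (h, g) ∈ D) :
    ∃ σ : MulAut G, σ * σ = 1 ∧ ∀ g h, (g, h) ∈ D ↔ σ g = h := by
  choose s hs using h1
  have hu : ∀ g h, (g, h) ∈ D ↔ s g = h := fun g h => ⟨fun a => inv_mul_eq_one.1 (h2 _ (by
    simpa using D.mul_mem (D.inv_mem (hs g)) a)), fun e => e ▸ hs g⟩
  have hi : ∀ g, s (s g) = g := fun g => (hu _ _).1 (h3 _ _ (hs g))
  exact ⟨⟨⟨s, s, hi, hi⟩, fun a b => (hu _ _).1 (D.mul_mem (hs a) (hs b))⟩, MulEquiv.ext hi, hu⟩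

theorem exists_invol [hK : K.Normal] (hZ : Z ≤ Subgroup.center G) (hZK : Z ≤ K) (hd : ⁅K, K⁆ ≤ Z)
    (hc : (Nat.card S).Coprime (Nat.card K)) (hC : K ⊓ 𝒞(S) ≤ Z) (hE : E ≤ 𝒩(S)) (hKE : K ⊔ E = ⊤)
    (hi : K ⊓ E ≤ Z) : ∃ σ : MulAut G, σ * σ = 1 ∧ (∀ e ∈ E ⊔ Z, σ e = e) ∧ ∀ k ∈ K, k * σ k ∈ Z := by
  have hz : ∀ z ∈ Z, ∀ g, g * z = z * g := fun z h => Subgroup.mem_center_iff.1 (hZ h)
  haveI hZn : Z.Normal := ⟨fun z h g => by rwa [hz z h, mul_inv_cancel_right]⟩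
  have hy : ∀ {x y}, x ∈ K → x * y ∈ Z → y ∈ K := fun hx h => (K.mul_mem_cancel_left hx).1 (hZK h)
  let X : Subgroup (G × G) :=
    { carrier := {p | p.1 ∈ K ∧ p.1 * p.2 ∈ Z}
      mul_mem' := fun {p q} hp hq => ⟨K.mul_mem hp.1 hq.1, by
        have := Z.mul_mem (Z.mul_mem hp.2 (hd (Subgroup.commutator_mem_commutator
          (K.inv_mem (hy hp.1 hp.2)) hq.1))) hq.2
        simpa [commutatorElement_def, mul_assoc] using this⟩
      one_mem' := ⟨K.one_mem, by simp⟩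
      inv_mem' := fun {p} hp => ⟨K.inv_mem hp.1, by
        have := Z.inv_mem (hZn.conj_mem' _ hp.2 p.1)
        simpa [mul_assoc] using this⟩ }
  let δ : G →* G × G := (MonoidHom.id G).prod (MonoidHom.id G)
  have hZZ : ∀ p ∈ Z.prod Z, ∀ q, q * p = p * q := fun p hp q => Prod.ext (hz _ hp.1 _) (hz _ hp.2 _)
  have hN : Z.map δ ≤ Z.prod Z := by rintro _ ⟨z, h, rfl⟩; exact ⟨h, h⟩
  haveI hNn : (Z.map δ).Normal := ⟨fun z h g => by rwa [hZZ z (hN h), mul_inv_cancel_right]⟩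
  have hX : ∀ A : Subgroup G, A.map δ ≤ 𝒩(X) := fun A => H16.le_norm_iff.2 (by
    rintro _ ⟨g, -, rfl⟩ p hp
    exact ⟨hK.conj_mem _ hp.1 g, by simpa [δ, mul_assoc] using hZn.conj_mem _ hp.2 g⟩)
  have hXK : X ≤ K.prod K := fun p hp => ⟨hp.1, hy hp.1 hp.2⟩
  have hcX : (Nat.card (S.map δ)).Coprime (Nat.card X) := by
    refine (Nat.Coprime.coprime_dvd_right (H16.card_dvd hXK) ?_).coprime_dvd_left (Subgroup.card_map_dvd _ _)
    rw [Nat.card_congr (Subgroup.prodEquiv K K).toEquiv, Nat.card_prod]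
    exact hc.mul_right hc
  have hXX : ⁅X, X⁆ ≤ Z.map δ := Subgroup.commutator_le.2 fun p hp q hq => by
    have a1 := hd (Subgroup.commutator_mem_commutator hp.1 hq.1)
    refine ⟨_, a1, Prod.ext rfl ?_⟩
    change ⁅p.1, q.1⁆ = ⁅p.2, q.2⁆
    have a2 : ⁅p.1, q.1⁆ = ⁅p.1⁻¹, q.1⁻¹⁆ := by
      rw [← inv_mul_cancel_left (q.1 * p.1) ⁅p.1, q.1⁆, hz _ a1]
      simp [commutatorElement_def, mul_assoc]
    rw [a2, ← inv_mul_cancel_left p.1 p.2, ← inv_mul_cancel_left q.1 q.2]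
    generalize p.1⁻¹ = a, q.1⁻¹ = b
    have a3 := hz _ hp.2
    have a4 := hz _ hq.2
    generalize p.1 * p.2 = z, q.1 * q.2 = w at a3 a4
    simp only [commutatorElement_def, mul_inv_rev, mul_assoc]
    rw [← mul_assoc z b, ← a3 b, mul_assoc b z, ← mul_assoc z w, ← a3 w, mul_assoc w z,
      mul_inv_cancel_left, ← mul_assoc w, ← a4, mul_assoc, mul_inv_cancel_left]
  have hsX : Group.IsSolvable X := (show QSol X ⊥ from ⟨2, by
    rw [derivedSeries_succ, derivedSeries_one, Subgroup.map_commutator, commutator_def,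
      Subgroup.map_commutator, ← MonoidHom.range_eq_map, Subgroup.range_subtype]
    exact Subgroup.commutator_le.2 fun p hp q _ => commutatorElement_eq_one_iff_mul_comm.2
      (hZZ p (hN (hXX hp)) q).symm⟩).sol (inf_bot_eq _)
  let D₀ := ⁅X, S.map δ⁆ ⊔ Z.map δ
  have hD₀ : D₀ ≤ X ⊔ Z.prod Z := sup_le_sup (H16.comm_le_left (hX S)) hN
  have hD₁ : D₀ ⊓ Z.prod Z ≤ Z.map δ := fun p hp => by
    let π := QuotientGroup.mk' (Z.map δ)
    have a1 := H16.cop_abel_inf (V := X.map π) (A := (S.map δ).map π) (H16.der_eq_bot.1 (by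
      rw [← Subgroup.map_commutator, Subgroup.map_eq_bot_iff, QuotientGroup.ker_mk']; exact hXX))
      ((Subgroup.map_mono (hX S)).trans (Subgroup.le_normalizer_map π))
      ((hcX.coprime_dvd_left (Subgroup.card_map_dvd _ _)).coprime_dvd_right (Subgroup.card_map_dvd _ _))
    refine (QuotientGroup.eq_one_iff p).1 (H16.eq_one_of_mem_bot a1 ⟨?_, H16.mem_cent.2 ?_⟩)
    · have := Subgroup.mem_map_of_mem π hp.1
      rwa [Subgroup.map_sup, Subgroup.map_commutator, (Subgroup.map_eq_bot_iff _).2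
        (QuotientGroup.ker_mk' _).ge, sup_bot_eq] at this
    · rintro _ ⟨q, -, rfl⟩
      exact congrArg π (hZZ p hp.2 q)
  have hn : E.map δ ≤ 𝒩(D₀) := H16.norm_sup (H16.norm_comm (hX E)
    ((Subgroup.map_mono hE).trans (Subgroup.le_normalizer_map δ))) (le_top.trans (top_le_norm _))
  have hk : ∀ k ∈ K, ∃ h, (k, h) ∈ D₀ ∧ k * h ∈ Z := fun k hk => by
    obtain ⟨p, a1, q, a2, e⟩ := H1.exists_commutator_mul_centralizer (hX S) hcX (Or.inr hsX)
      (k := (k, k⁻¹)) ⟨hk, by simp⟩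
    have a3 : q.1 ∈ Z := hC ⟨a2.1.1, H16.mem_cent.2 fun s hs =>
      congrArg Prod.fst (H16.mem_cent.1 a2.2 (δ s) ⟨s, hs, rfl⟩)⟩
    have a4 := H16.comm_le_left (hX S) a1
    have a5 : k = p.1 * q.1 := congrArg Prod.fst e
    refine ⟨p.2 * q.1, a5 ▸ D₀.mul_mem (Subgroup.mem_sup_left a1)
      (Subgroup.mem_sup_right ⟨q.1, a3, rfl⟩), ?_⟩
    rw [a5, hz _ a3 p.1, mul_assoc, ← mul_assoc p.1]
    exact Z.mul_mem a3 (Z.mul_mem a4.2 a3)
  obtain ⟨σ, s1, s2⟩ := exists_of_graph (D₀ ⊔ E.map δ) (fun g => by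
    obtain ⟨k, a1, e, a2, rfl⟩ := (H16.mem_sup_l (le_top.trans (top_le_norm K))).1
      (hKE.ge (Subgroup.mem_top g))
    obtain ⟨h, a3, -⟩ := hk k a1
    exact ⟨h * e, Subgroup.mul_mem_sup a3 (Subgroup.mem_map_of_mem δ a2)⟩) (fun h hh => by
      obtain ⟨p, a1, _, ⟨e, a2, rfl⟩, a3⟩ := (H16.mem_sup_l hn).1 hh
      obtain ⟨x, a4, z, a5, rfl⟩ := (H16.mem_sup_l (le_norm_of_le_cent (fun z hz' => H16.mem_cent.2
        fun q _ => hZZ z hz' q))).1 (hD₀ a1)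
      have a6 : x.1 * z.1 * e = 1 := congrArg Prod.fst a3
      have a7 : x.1 * z.1 ∈ Z := hi ⟨K.mul_mem a4.1 (hZK a5.1), by
        rw [mul_eq_one_iff_eq_inv.1 a6]; exact E.inv_mem a2⟩
      have a8 := (Z.mul_mem_cancel_right a5.1).1 a7
      obtain ⟨w, -, a9⟩ := hD₁ ⟨a1, a7, Z.mul_mem ((Z.mul_mem_cancel_left a8).1 a4.2) a5.2⟩
      rw [← a9, ← map_mul] at a3
      exact (congrArg Prod.snd a3).symm.trans (congrArg Prod.fst a3)) (fun g h hh => by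
      let τ : G × G →* G × G := (MulEquiv.prodComm : G × G ≃* G × G)
      have b1 : ∀ A : Subgroup G, (A.map δ).map τ = A.map δ := fun A => by rw [Subgroup.map_map]; rfl
      have b2 : X.map τ ≤ X := by
        rintro _ ⟨p, hp, rfl⟩
        exact ⟨hy hp.1 hp.2, by simpa [τ, mul_assoc] using hZn.conj_mem' _ hp.2 p.1⟩
      have := Subgroup.mem_map_of_mem τ hh
      rw [Subgroup.map_sup, Subgroup.map_sup, Subgroup.map_commutator, b1, b1, b1] at this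
      exact sup_le_sup_right (sup_le_sup_right (Subgroup.commutator_mono b2 le_rfl) _) _ this)
  refine ⟨σ, s1, fun e he => (s2 e e).1 ?_, fun k h => ?_⟩
  · have := Subgroup.mem_map_of_mem δ he
    rw [Subgroup.map_sup, sup_comm] at this
    exact sup_le_sup_right (le_sup_right : _ ≤ D₀) _ this
  · obtain ⟨h, a1, a2⟩ := hk k h
    rwa [(s2 _ _).1 (Subgroup.mem_sup_left a1)]

section pull
variable {Γ : Type u} [Group Γ] [Finite Γ] {i : G →* Γ} (hi : Function.Injective i) {φ : Γ → ℂ}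
include hi

theorem dot_pull (H : Subgroup G) (φ ψ : Γ → ℂ) : dot H (φ ∘ i) (ψ ∘ i) = dot (H.map i) φ ψ := by
  rw [dot_def, dot_def, Subgroup.card_map_of_injective hi, ← sum_fs_bij i (A := H) (B := H.map i)
    (hi.injOn.bijOn_image)]
  rfl

theorem pull_mem_Irr (h : φ ∈ Irr (H.map i)) : φ ∘ i ∈ Irr H :=
  mem_Irr.2 ⟨fun x hx => cf_zero (irr_cf h) fun h => hx ((Subgroup.mem_map_iff_mem hi).1 h),
    (irr_res h).comp_equiv (H.equivMapOfInjective i hi)⟩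

theorem exists_pull_eq (h : χ ∈ Irr H) : ∃ φ ∈ Irr (H.map i), φ ∘ i = χ := by
  refine ⟨_, ext0_mem_Irr.2 ((irr_res h).comp_equiv (H.equivMapOfInjective i hi).symm), funext fun x => ?_⟩
  by_cases hx : x ∈ H
  · rw [Function.comp, ext0_of_mem _ (Subgroup.mem_map_of_mem i hx)]
    exact congrArg (res H χ) ((H.equivMapOfInjective i hi).symm_apply_apply ⟨x, hx⟩)
  · rw [Function.comp, ext0_of_not_mem _ fun h => hx ((Subgroup.mem_map_iff_mem hi).1 h),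
      cf_zero (irr_cf h) hx]

theorem mem_stab_pull (h : φ ∈ Irr (H.map i)) {g : G} : g ∈ stab (φ ∘ i) ↔ i g ∈ stab φ := by
  rw [mem_stab_iff, mem_stab_iff]
  refine ⟨fun e x => ?_, fun e x => by simpa using e (i x)⟩
  by_cases hx : x ∈ i.range
  · obtain ⟨x, rfl⟩ := hx
    simpa using e x
  · have h0 : ∀ y, y ∉ i.range → φ y = 0 := fun y hy => cf_zero (irr_cf h) fun h =>
      hy (Subgroup.map_le_range _ _ h)
    rw [h0 x hx, h0 _ fun h => hx ?_]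
    simpa [mul_assoc] using H16.conj_mem' (H16.le_norm _ (⟨g, rfl⟩ : i g ∈ i.range)) h

theorem image_pull_over {l : Γ → ℂ} : 
    (fun φ : Γ → ℂ => (φ ∘ i : G → ℂ)) '' (IrrO (H.map i) (Z.map i) l) = IrrO H Z (l ∘ i) := by
  ext χ
  refine ⟨?_, fun h => ?_⟩
  · rintro ⟨φ, h, rfl⟩
    exact mem_over.2 ⟨pull_mem_Irr hi (mem_over.1 h).1, dot_pull hi Z φ l ▸ (mem_over.1 h).2⟩
  · obtain ⟨φ, h1, rfl⟩ := exists_pull_eq hi (mem_over.1 h).1
    exact ⟨φ, mem_over.2 ⟨h1, dot_pull hi Z φ l ▸ (mem_over.1 h).2⟩, rfl⟩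

end pull

theorem ob_central [hK : K.Normal] (hZ : Z ≤ Subgroup.center G) (hZK : Z ≤ K) (hd : ⁅K, K⁆ ≤ Z)
    (hM : K ⊔ C = M) (hMS : M ⊔ S = ⊤) (hs : Group.IsSolvable M) (ho : Odd (Nat.card M))
    (hl : IsLin Z lam) (hZC : Z ≤ C) (hCS : C ≤ 𝒞(S)) (hC : K ⊓ 𝒞(S) ≤ Z)
    (hc : (Nat.card S).Coprime (Nat.card M)) :
    OB C {χ | χ ∈ IrrO M Z lam ∧ S ≤ stab χ} (IrrO C Z lam) := by
  have hKM : K ≤ M := hM ▸ le_sup_left
  have hCM : C ≤ M := hM ▸ le_sup_right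
  obtain ⟨σ, s1, s2, s3⟩ := exists_invol hZ hZK hd (hc.coprime_dvd_right (H16.card_dvd hKM)) hC
    (E := C ⊔ S) (sup_le (H16.norm_of_cent hCS) (H16.le_norm S)) (by rw [← sup_assoc, hM, hMS]) (by
      refine le_trans (le_inf inf_le_left (le_trans ?_ hCS)) hC
      refine (inf_le_inf_right _ hKM).trans ?_
      rw [H16.modl' hCM (Or.inl (H16.norm_of_cent hCS)), H16.inf_bot_of_coprime hc.symm, sup_bot_eq])
  let φ := (Subgroup.zpowers σ).subtype
  have hi : Function.Injective (SemidirectProduct.inl : G →* G ⋊[φ] _) := SemidirectProduct.inl_injective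
  obtain ⟨l, l1, rfl⟩ := exists_pull_eq hi hl.mem_Irr
  have hfix : ∀ {U : Subgroup G}, U ≤ C ⊔ S → H8.sdL φ U ≤ 𝒞(H8.sdR φ ⊤) := by
    rintro U hU _ ⟨g, hg, rfl⟩
    refine (H8.inl_mem_centralizer_sdR φ).2 fun a _ => ?_
    exact MulAction.mem_stabilizer_iff.1 ((Subgroup.zpowers_le (H := MulAction.stabilizer _ g)).2
      (s2 g (Subgroup.mem_sup_left (hU hg))) a.2)
  have hcard : Nat.card (H8.sdR φ ⊤) ∣ 2 := by
    rw [H8.card_sdR, Subgroup.card_top, Nat.card_zpowers]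
    exact orderOf_dvd_of_pow_eq_one (by rw [sq, s1])
  have hn : ∀ {A B : Subgroup G}, A ≤ 𝒩(B) → H8.sdL φ A ≤ 𝒩(H8.sdL φ B) := fun h =>
    (Subgroup.map_mono h).trans (Subgroup.le_normalizer_map _)
  have hct : ∀ {A B : Subgroup G}, A ≤ 𝒞(B) → H8.sdL φ A ≤ 𝒞(H8.sdL φ B) := fun h =>
    H16.comm_eq_bot.1 (by rw [← Subgroup.map_commutator, H16.comm_eq_bot.2 h, Subgroup.map_bot])
  have := ob_central_amb (K := H8.sdL φ K) (Z := H8.sdL φ Z) (C := H8.sdL φ C) (M := H8.sdL φ M)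
    (S := H8.sdL φ S) (P := H8.sdR φ ⊤) (lam := l) (Subgroup.map_mono hZK)
    ((Subgroup.map_commutator _ _ _).ge.trans (Subgroup.map_mono hd))
    (by rw [← Subgroup.map_sup, hM]) (hn (le_top.trans (top_le_norm K)))
    (hct fun z hz => H16.mem_cent.2 fun g _ => Subgroup.mem_center_iff.1 (hZ hz) g)
    (Group.isSolvable_of_surjective (f := (H8.sdLEquiv φ M).toMonoidHom) (H8.sdLEquiv φ M).surjective)
    (isLin_of_irr l1 (by simpa using hl.one_apply)) (hn (le_top.trans (top_le_norm K)))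
    (Subgroup.map_mono hZC) (hct hCS) (by
      rintro _ ⟨⟨k, h1, rfl⟩, h2⟩
      exact ⟨k, hC ⟨h1, H16.mem_cent.2 fun s hs => hi (by
        rw [map_mul, map_mul]; exact H16.mem_cent.1 h2 _ ⟨s, hs, rfl⟩)⟩, rfl⟩)
    (by rwa [H8.card_sdL, H8.card_sdL])
    (by
      haveI := Fact.mk Nat.prime_two
      obtain ⟨k, -, hk⟩ := (Nat.dvd_prime_pow Nat.prime_two (m := 1)).1 hcard
      exact IsPGroup.of_card hk)
    (H8.sdR_le_normalizer φ fun a h0 x hx => by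
      obtain ⟨a, ha⟩ := a
      obtain ⟨n, rfl⟩ := mem_powers_iff_mem_zpowers.2 ha
      change (σ ^ n) x ∈ K
      clear h0 ha
      induction n with
      | zero => exact hx
      | succ n ih => exact pow_succ' σ n ▸ (K.mul_mem_cancel_left ih).1 (hZK (s3 _ ih)))
    (H16.norm_of_cent' (hfix le_sup_right)) (hfix le_sup_left) (by
      rintro _ ⟨⟨k, h1, rfl⟩, h2⟩
      have a1 := s3 k h1
      rw [show σ k = k from (H8.inl_mem_centralizer_sdR φ).1 h2 ⟨σ, Subgroup.mem_zpowers σ⟩ trivial,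
        ← sq] at a1
      obtain ⟨m, hm⟩ := exists_pow_eq_self_of_coprime (x := k) (n := 2) (Nat.coprime_two_left.2
        (ho.of_dvd_nat (H16.orderOf_dvd_card (hKM h1))))
      exact ⟨k, hm ▸ Z.pow_mem a1 m, rfl⟩)
    (H8.card_sdL φ M ▸ (Nat.coprime_two_left.2 ho).coprime_dvd_left hcard)
  refine this.map (· ∘ _) (· ∘ _) ?_ (image_pull_over hi) fun χ _ ψ _ => dot_pull hi C χ ψ
  ext χ
  rw [Set.mem_ofPred_eq, ← Finset.mem_coe, ← image_pull_over hi]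
  have key : ∀ ψ ∈ IrrO (H8.sdL φ M) (H8.sdL φ Z) l, H8.sdL φ S ≤ stab ψ ↔
      S ≤ stab (ψ ∘ SemidirectProduct.inl) := fun ψ h => Subgroup.map_le_iff_le_comap.trans
    (forall₂_congr fun g _ => (mem_stab_pull hi (mem_over.1 h).1).symm)
  exact ⟨fun ⟨ψ, h, e⟩ => ⟨⟨ψ, h.1, e⟩, e ▸ (key ψ h.1).1 h.2⟩,
    fun ⟨⟨ψ, h, e⟩, h'⟩ => ⟨ψ, ⟨h, (key ψ h).2 (by subst e; exact h')⟩, e⟩⟩

end H21
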