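/-
The Isaacs correspondence for an abelian section.
-/
import Cfsg.Agent.H21.Isa2

set_option autoImplicit false
set_option linter.unusedSectionVars false
open H17 Cfsg H15 CF
open scoped ComplexConjugate commutatorElement

namespace H21

universe u
variable {G : Type u} [Group G] [Finite G] {K M L T C S H U V : Subgroup G} {φ χ ψ η ξ : G → ℂ}

theorem up_comm {Δ Q : Type u} [Group Δ] [Finite Δ] [Group Q] [Finite Q] {f : L →* Q} {ρ : Δ →* Q}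
    (hU : U ≤ L) (hV : V ≤ L) : ⁅up f ρ U, up f ρ V⁆ ≤ up f ρ ⁅U, V⁆ := by
  rw [← Subgroup.map_le_iff_le_comap, Subgroup.map_commutator, H18.img_comm f hU hV]
  exact Subgroup.commutator_mono (Subgroup.map_comap_le _ _) (Subgroup.map_comap_le _ _)

open FT in
theorem ob_inv (hLK : L ≤ K) (hd : ⁅K, K⁆ ≤ L) (hT : K ⊔ C = T) (hH : L ⊔ C = H)
    (hL : T ⊔ S ≤ 𝒩(L)) (hK : T ⊔ S ≤ 𝒩(K)) (hs : Group.IsSolvable T) (ho : Odd (Nat.card T))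
    (hφ : φ ∈ Irr L) (hst : T ⊔ S ≤ stab φ) (hCS : C ≤ 𝒞(S)) (hC : K ⊓ 𝒞(S) ≤ L)
    (hc : (Nat.card S).Coprime (Nat.card T)) :
    OB H {χ | χ ∈ IrrO T L φ ∧ S ≤ stab χ} (IrrO H L φ) := by
  have hKT : K ≤ T := hT ▸ le_sup_left
  have hLT := hLK.trans hKT
  have hLH : L ≤ H := hH ▸ le_sup_left
  have hHT : H ≤ T := hT ▸ hH ▸ sup_le_sup_right hLK C
  have hSL := le_sup_right.trans hL
  have hn : T ⊔ S ≤ 𝒩(T) := sup_le_norm (hT ▸ H16.norm_sup (le_sup_right.trans hK) (H16.norm_of_cent' hCS))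
  obtain ⟨Δ, Q, _, _, _, _, f, ρ, lam, Ψ, h, hm⟩ := exists_trip hLT le_sup_left hL hn hφ hst
  have hLS : L ⊔ S ≤ T ⊔ S := sup_le_sup_right hLT S
  have hi : ρ.ker.relIndex (up f ρ (L ⊔ S)) ∣ Nat.card S := by
    rw [h.relIndex_ker le_sup_left hLS, H16.relIndex_sup_l hSL]
    exact Subgroup.relIndex_dvd_card _ _
  have hc1 := hm _ (hc.coprime_dvd_right (Subgroup.relIndex_dvd_card L T))
  obtain ⟨S₀, hS⟩ := exists_compl (ker_le_up (L ⊔ S)) (le_top.trans (top_le_norm _))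
    ((hc1.symm.coprime_dvd_left (H16.card_dvd (ker_le_up T))).coprime_dvd_right hi)
  have hc2 := hc1.coprime_dvd_left (hS.relIndex1 ▸ hi)
  have hlift : ∀ s : ↥(T ⊔ S), (s : G) ∈ S → ∃ d ∈ S₀, f s = ρ d := fun s hs => by
    obtain ⟨d, e⟩ := h.exists_lift' s
    obtain ⟨z, a1, d, a2, rfl⟩ := hS.decomp ((h.mem_up le_sup_left e).2 (Subgroup.mem_sup_right hs))
    exact ⟨d, a2, by rw [e, map_mul, a1, one_mul]⟩
  haveI : (up f ρ K).Normal := Subgroup.normalizer_eq_top_iff.1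
    (top_le_iff.1 (h.up_L ▸ up_le_norm hK))
  have := ob_central (K := up f ρ K) (C := up f ρ H) (M := up f ρ T) (S := S₀) h.cent (ker_le_up K)
    ((up_comm (hKT.trans le_sup_left) (hKT.trans le_sup_left)).trans (h.up_N ▸ up_mono hd))
    (by rw [← h.up_sup (hKT.trans le_sup_left) (hHT.trans le_sup_left), ← hH, ← sup_assoc,
      sup_eq_left.2 hLK, hT])
    (by rw [← sup_eq_left.2 (ker_le_up (f := f) (ρ := ρ) T), sup_assoc, hS.sup,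
      ← h.up_sup le_sup_left hLS, ← sup_assoc, sup_eq_left.2 hLT, h.up_L])
    (by
      haveI := (qsol_of_sol hs _).img f le_sup_left
      haveI := H16.sol_of_comm (H16.comm_iff.2 (h.cent' ρ.ker))
      exact Group.isSolvable_of_ker_le_range (Subgroup.inclusion (ker_le_up T))
        (ρ.subgroupComap (img f T)) fun x hx => ⟨⟨x, congrArg Subtype.val hx⟩, rfl⟩)
    (Nat.coprime_two_left.1 (hm 2 (Nat.coprime_two_left.2 (ho.of_dvd_nat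
      (Subgroup.relIndex_dvd_card L T))))) h.lin (ker_le_up H)
    (H16.cent_symm (H1.le_centralizer_of_commutator_le (N := ρ.ker) (by
      refine (Subgroup.commutator_mono le_rfl hS.le2).trans ((up_comm (hHT.trans le_sup_left) hLS).trans
        (h.up_N ▸ up_mono ?_))
      refine H16.comm_sup_le (H16.comm_le_right ((hHT.trans le_sup_left).trans hL)) ?_
        (H16.le_norm L) hSL
      rw [← hH]
      exact H16.sup_comm_le (H16.comm_le_left hSL) ((H16.comm_eq_bot.2 hCS).le.trans bot_le)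
        (H16.le_norm L) ((le_sup_right.trans hT.le).trans (le_sup_left.trans hL)))
      (h.cent' _) (hc2.coprime_dvd_right (H16.card_dvd (ker_le_up T)))))
    (fun d hd => by
      obtain ⟨k, e⟩ := h.exists_lift d
      have a1 := (h.mem_up hLK e).1 hd.1
      obtain ⟨n, a2, a3⟩ := H1.exists_mul_mem_centralizer (k := (k : G)) hSL
        (hc.coprime_dvd_right (H16.card_dvd hLT)) (Or.inr (H16.sol_of_le hs hLT)) fun s hs => by
          obtain ⟨s₀, b1, b2⟩ := hlift ⟨s, Subgroup.mem_sup_right hs⟩ hs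
          refine (h.f_eq_one (k⁻¹ * ⟨s, Subgroup.mem_sup_right hs⟩ * k *
            (⟨s, Subgroup.mem_sup_right hs⟩ : ↥(T ⊔ S))⁻¹)).1 ?_
          rw [map_mul, map_mul, map_mul, map_inv, map_inv, e, b2, mul_assoc _ (ρ s₀), ← map_mul,
            H16.mem_cent.1 hd.2 s₀ b1]
          simp
      rw [← h.up_N, h.mem_up le_rfl e]
      exact (L.mul_mem_cancel_right a2).1 (hC ⟨K.mul_mem a1 (hLK a2), a3⟩)) hc2
  have him : ∀ {U}, L ≤ U → U ≤ T → Ψ '' (IrrO (up f ρ U) ρ.ker lam) = IrrO U L φ := fun h1 h2 =>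
    Set.Subset.antisymm (by rintro _ ⟨β, hβ, rfl⟩; exact h.mem_over hφ h1 h2 hβ) (h.surj _ h1 h2)
  refine this.map Ψ Ψ ?_ (him hLH hHT) fun χ h1 ψ h2 =>
    h.dot H hLH hHT χ ψ (h.eqv (ker_le_up T) h1.1) (h.eqv (ker_le_up H) h2)
  have key : ∀ β ∈ IrrO (up f ρ T) ρ.ker lam, S₀ ≤ stab β ↔ S ≤ stab (Ψ β) := fun β hβ =>
    ⟨fun a s hs => by
      obtain ⟨d, b1, b2⟩ := hlift ⟨s, Subgroup.mem_sup_right hs⟩ hs
      exact (h.mem_stab hLT le_rfl hβ b2 (hn (Subgroup.mem_sup_right hs))).2 (a b1), fun a d hd => by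
      obtain ⟨g, e⟩ := h.exists_lift d
      exact (h.mem_stab hLT le_rfl hβ e (hn g.2)).1 (sup_le (hLT.trans (le_stab (irr_cf (mem_over.1
        (h.mem_over hφ hLT le_rfl hβ)).1))) a ((h.mem_up le_sup_left e).1 (hS.le2 hd)))⟩
  ext χ
  rw [Set.mem_ofPred_eq, ← Finset.mem_coe, ← him hLT le_rfl]
  exact ⟨fun ⟨ψ, h, e⟩ => ⟨⟨ψ, h.1, e⟩, e ▸ (key ψ h.1).1 h.2⟩,
    fun ⟨⟨ψ, h, e⟩, h'⟩ => ⟨ψ, ⟨h, (key ψ h).2 (e ▸ h')⟩, e⟩⟩

theorem dot_Ind_over (hLM : L ≤ M) (hn : M ≤ 𝒩(L)) (hφ : φ ∈ Irr L) (hT : T = M ⊓ stab φ)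
    (hLU : L ≤ U) (hUT : U ≤ T) (hη : η ∈ IrrO T L φ) (hξ : ξ ∈ IrrO U L φ) :
    dot U (Ind M T η) ξ = dot U η ξ := by
  have hTM : T ≤ M := hT ▸ inf_le_left
  have h1 := (mem_over.1 (Ind_mem_over hLM hn hφ hT hη)).1
  rw [dot_eq_sum_under hUT (Res_mem_cf hTM (irr_cf h1)), Finset.sum_eq_single_of_mem η (mem_over.1 hη).1,
    ← dot_Ind_right hTM η (irr_cf h1), dot_irr_self h1, one_mul]
  intro β hβ hne
  by_contra h
  obtain ⟨h2, h3⟩ := mul_ne_zero_iff.1 h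
  have h4 := mem_over.2 ⟨hβ, dot_ne_trans hLU hUT (irr_char hβ) (mem_over.1 hξ).1 (irr_char hφ) h3
    (mem_over.1 hξ).2⟩
  rw [← dot_Ind_right hTM β (irr_cf h1)] at h2
  exact hne (Ind_injOn_over hLM hn hφ hT hη h4 (irr_eq_of_dot_ne h1
    (mem_over.1 (Ind_mem_over hLM hn hφ hT h4)).1 h2)).symm

theorem ob_over (hLK : L ≤ K) (hd : ⁅K, K⁆ ≤ L) (hM : K ⊔ C = M) (hH : L ⊔ C = H)
    (hL : M ⊔ S ≤ 𝒩(L)) (hK : M ⊔ S ≤ 𝒩(K)) (hs : Group.IsSolvable M) (ho : Odd (Nat.card M))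
    (hφ : φ ∈ IrrS L S) (hCe : C = M ⊓ 𝒞(S)) (hC : K ⊓ 𝒞(S) ≤ L)
    (hc : (Nat.card S).Coprime (Nat.card M)) :
    OB H {χ | χ ∈ IrrO M L φ ∧ S ≤ stab χ} (IrrO H L φ) := by
  classical
  obtain ⟨h1, h2⟩ := mem_IrrS.1 hφ
  have hKM : K ≤ M := hM ▸ le_sup_left
  have hCM : C ≤ M := hM ▸ le_sup_right
  have hLM := hLK.trans hKM
  have hLH : L ≤ H := hH ▸ le_sup_left
  have hHM : H ≤ M := hM ▸ hH ▸ sup_le_sup_right hLK C
  have hCS : C ≤ 𝒞(S) := hCe ▸ inf_le_right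
  have hSK := le_sup_right.trans hK
  have hSM : S ≤ 𝒩(M) := hM ▸ H16.norm_sup hSK (H16.norm_of_cent' hCS)
  have hML := le_sup_left.trans hL
  have hst := H16.norm_of_le h2
  have hST := H16.norm_inf hSM hst
  have hLs := le_stab (irr_cf h1)
  have hT : K ⊓ stab φ ⊔ C ⊓ stab φ = M ⊓ stab φ := by
    rw [hCe, inf_right_comm]
    refine H16.cop_sup_cent (inf_le_inf_right _ hKM) (H16.norm_inf hSK hst) (hc.coprime_dvd_right
      (H16.card_dvd (inf_le_left.trans hKM))) (Or.inr (H16.sol_of_le hs (inf_le_left.trans hKM)))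
      (le_inf ((Subgroup.commutator_mono inf_le_left le_rfl).trans ?_)
        ((H16.comm_le_left hST).trans inf_le_right))
    exact hM ▸ H16.sup_comm_le (H16.comm_le_left hSK) ((H16.comm_eq_bot.2 hCS).le.trans bot_le)
      (H16.le_norm K) (hCM.trans (le_sup_left.trans hK))
  have hH' : L ⊔ C ⊓ stab φ = H ⊓ stab φ := by rw [← hH, H16.modl hLs (Or.inr (hCM.trans hML))]
  have hle : M ⊓ stab φ ⊔ S ≤ M ⊔ S := sup_le_sup_right inf_le_left S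
  have hle' : M ⊓ stab φ ⊔ S ≤ stab φ := sup_le inf_le_right h2
  have := ob_inv (le_inf hLK hLs) ((H16.der_mono inf_le_left).trans hd) hT hH' (hle.trans hL)
    (H16.norm_inf (hle.trans hK) (H16.norm_of_le hle')) (H16.sol_of_le hs inf_le_left)
    (ho.of_dvd_nat (H16.card_dvd inf_le_left)) h1 hle' (inf_le_left.trans hCS)
    ((inf_le_inf_right _ inf_le_left).trans hC) (hc.coprime_dvd_right (H16.card_dvd inf_le_left))
  have him : ∀ {U}, L ≤ U → U ≤ M → Ind U (U ⊓ stab φ) '' IrrO (U ⊓ stab φ) L φ = IrrO U L φ :=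
    fun a b => by rw [← image_Ind_over a (b.trans hML) h1 rfl, Finset.coe_image]
  refine this.map (Ind M (M ⊓ stab φ)) (Ind H (H ⊓ stab φ)) ?_ (him hLH hHM) fun η a ξ b => ?_
  · have key : ∀ η ∈ IrrO (M ⊓ stab φ) L φ, S ≤ stab η ↔ S ≤ stab (Ind M (M ⊓ stab φ) η) :=
      fun η hη => forall₂_congr fun s hs => by
        rw [mem_stab, mem_stab, cfj_Ind_norm (hSM hs) (hST hs)]
        exact ⟨fun e => by rw [e], Ind_injOn_over hLM hML h1 rfl (cfj_mem_over (hST hs)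
          (hL (Subgroup.mem_sup_right hs)) (h2 hs) hη) hη⟩
    ext χ
    rw [Set.mem_ofPred_eq, ← Finset.mem_coe, ← him hLM le_rfl]
    exact ⟨fun ⟨ψ, h, e⟩ => ⟨⟨ψ, h.1, e⟩, e ▸ (key ψ h.1).1 h.2⟩,
      fun ⟨⟨ψ, h, e⟩, h'⟩ => ⟨ψ, ⟨h, (key ψ h).2 (e ▸ h')⟩, e⟩⟩
  · rw [← dot_Res_left, dot_Ind_right inf_le_left _ (Res_mem_cf hHM (Ind_mem_cf inf_le_left _)),
      dot_Res_left_of_le inf_le_left, dot_Ind_over hLM hML h1 rfl (le_inf hLH hLs)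
        (inf_le_inf_right _ hHM) a.1 b]

theorem ob_isaacs' (hLK : L ≤ K) (hd : ⁅K, K⁆ ≤ L) (hM : K ⊔ C = M) (hH : L ⊔ C = H)
    (hL : M ⊔ S ≤ 𝒩(L)) (hK : M ⊔ S ≤ 𝒩(K)) (hs : Group.IsSolvable M) (ho : Odd (Nat.card M))
    (hCe : C = M ⊓ 𝒞(S)) (hC : K ⊓ 𝒞(S) ≤ L) (hc : (Nat.card S).Coprime (Nat.card M)) :
    OB H (IrrS M S) (IrrS H S) := by
  have hKM : K ≤ M := hM ▸ le_sup_left
  have hCM : C ≤ M := hM ▸ le_sup_right
  have hLM := hLK.trans hKM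
  have hLH : L ≤ H := hH ▸ le_sup_left
  have hHM : H ≤ M := hM ▸ hH ▸ sup_le_sup_right hLK C
  have hCS : C ≤ 𝒞(S) := hCe ▸ inf_le_right
  have hSL := le_sup_right.trans hL
  have hSM : S ≤ 𝒩(M) := hM ▸ H16.norm_sup (le_sup_right.trans hK) (H16.norm_of_cent' hCS)
  have hSH : S ≤ 𝒩(H) := hH ▸ H16.norm_sup hSL (H16.norm_of_cent' hCS)
  have hML := le_sup_left.trans hL
  have hO := fun φ hφ => ob_over (φ := φ) hLK hd hM hH hL hK hs ho hφ hCe hC hc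
  have hU : ∀ {U}, L ≤ U → U ≤ M → S ≤ 𝒩(U) → ∀ χ ∈ IrrS U S, ∃ φ ∈ IrrS L S, χ ∈ IrrO U L φ :=
    fun {U} a b c χ hχ => (exists_IrrS_under c a (b.trans hML) hSL ((hc.coprime_dvd_left
      (Subgroup.relIndex_dvd_card _ _)).coprime_dvd_right ((Subgroup.relIndex_dvd_card _ _).trans
        (H16.card_dvd b))) (Or.inr (qsol_of_sol (H16.sol_of_le hs b) L)) hχ).imp fun φ h =>
          ⟨h.1, mem_over.2 ⟨IrrS_subset _ _ hχ, h.2⟩⟩
  have hY : ∀ φ ∈ IrrS L S, ∀ ψ ∈ IrrO H L φ, ψ ∈ IrrS H S := fun φ hφ ψ hψ => by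
    obtain ⟨χ, h1, h2⟩ := (hO φ hφ).surj ψ hψ
    refine mem_IrrS.2 ⟨(mem_over.1 hψ).1, fun s hs => (hO φ hφ).uniq χ h1 _
      (cfj_mem_over (hSH hs) (hSL hs) ((mem_IrrS.1 hφ).2 hs) hψ) ψ hψ ?_ h2⟩
    rwa [Od, ← mem_stab.1 (h1.2 hs), dot_cfj_norm (hSH hs)]
  have hA : ∀ φ ∈ IrrS L S, ∀ χ ∈ IrrO M L φ, ∀ ψ ∈ IrrS H S, Od H χ ψ → ψ ∈ IrrO H L φ :=
    fun φ hφ χ hχ ψ hψ h => by
      obtain ⟨φ', a1, a2⟩ := hU hLH hHM hSH ψ hψ
      obtain ⟨b1, b2⟩ := mem_IrrS.1 hφ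
      obtain ⟨b3, b4⟩ := mem_IrrS.1 a1
      obtain ⟨b5, b6⟩ := mem_over.1 hχ
      obtain ⟨b7, b8⟩ := mem_over.1 a2
      obtain ⟨k, hk, rfl⟩ := mem_orb.1 (clifford_mem_orb hLM hML b5 b1 b3 b6
        (dot_ne_trans hLH hHM (irr_char b5) b7 (irr_char b3) h.ne b8))
      obtain ⟨n, c1, c2⟩ := H1.exists_mul_mem_centralizer (k := k) (N := M ⊓ stab φ)
        (H16.norm_inf hSM (H16.norm_of_le b2)) (hc.coprime_dvd_right (H16.card_dvd inf_le_left))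
        (Or.inr (H16.sol_of_le hs inf_le_left)) fun s hs => ⟨by
          rw [mul_assoc, mul_assoc, ← mul_assoc s]
          exact M.mul_mem (M.inv_mem hk) (H16.conj_mem (hSM hs) hk), (stab φ).mul_mem
            (H16.mem_cj.1 (stab_cfj k φ ▸ b4 hs)) ((stab φ).inv_mem (b2 hs))⟩
      have c3 : k * n ∈ H := hH ▸ Subgroup.mem_sup_right (hCe ▸ ⟨M.mul_mem hk c1.1, c2⟩)
      refine mem_over.2 ⟨b7, ?_⟩
      rwa [← dot_cfj_norm (hML (hHM c3)), cfj_of_mem (irr_cf b7) c3, cfj_mul, mem_stab.1 c1.2]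
  have hB : ∀ φ ∈ IrrS L S, ∀ ψ ∈ IrrO H L φ, ∀ χ ∈ IrrS M S, Od H χ ψ →
      χ ∈ IrrO M L φ ∧ S ≤ stab χ := fun φ hφ ψ hψ χ hχ h => ⟨mem_over.2 ⟨IrrS_subset _ _ hχ,
        dot_ne_trans hLH hHM (irr_char (IrrS_subset _ _ hχ)) (mem_over.1 hψ).1
          (irr_char (IrrS_subset _ _ hφ)) h.ne (mem_over.1 hψ).2⟩, (mem_IrrS.1 hχ).2⟩
  refine ⟨fun χ hχ => ?_, fun χ hχ ψ h1 ψ' h2 h3 h4 => ?_, fun χ h1 χ' h2 ψ hψ h3 h4 => ?_,
    fun ψ hψ => ?_⟩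
  · obtain ⟨φ, a1, a2⟩ := hU hLM le_rfl hSM χ hχ
    obtain ⟨ψ, a3, a4⟩ := (hO φ a1).ex χ ⟨a2, (mem_IrrS.1 hχ).2⟩
    exact ⟨ψ, hY φ a1 ψ a3, a4⟩
  · obtain ⟨φ, a1, a2⟩ := hU hLM le_rfl hSM χ hχ
    exact (hO φ a1).uniq χ ⟨a2, (mem_IrrS.1 hχ).2⟩ ψ (hA φ a1 χ a2 ψ h1 h3) ψ' (hA φ a1 χ a2 ψ' h2 h4)
      h3 h4
  · obtain ⟨φ, a1, a2⟩ := hU hLH hHM hSH ψ hψ
    exact (hO φ a1).inj χ (hB φ a1 ψ a2 χ h1 h3) χ' (hB φ a1 ψ a2 χ' h2 h4) ψ a2 h3 h4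
  · obtain ⟨φ, a1, a2⟩ := hU hLH hHM hSH ψ hψ
    obtain ⟨χ, a3, a4⟩ := (hO φ a1).surj ψ a2
    exact ⟨χ, mem_IrrS.2 ⟨(mem_over.1 a3.1).1, a3.2⟩, a4⟩

theorem ob_isaacs (hLK : L ≤ K) (hd : ⁅K, K⁆ ≤ L) (hM : K ⊔ C = M) (hH : L ⊔ C = H)
    (hL : M ⊔ S ≤ 𝒩(L)) (hK : M ⊔ S ≤ 𝒩(K)) (hs : Group.IsSolvable M) (ho : Odd (Nat.card M))
    (hCe : C = M ⊓ 𝒞(S)) (hc : (Nat.card S).Coprime (Nat.card M)) : OB H (IrrS M S) (IrrS H S) := by
  have hCM : C ≤ M := hM ▸ le_sup_right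
  have hCH : C ≤ H := hH ▸ le_sup_right
  have hL' : L ≤ K ⊓ H := le_inf hLK (hH ▸ le_sup_left)
  refine ob_isaacs' inf_le_left (hd.trans hL') hM (le_antisymm (sup_le inf_le_right hCH)
    (hH.ge.trans (sup_le_sup_right hL' C))) (sup_le (hM.ge.trans (sup_le
      (H16.norm_of_der_le (hd.trans hL') inf_le_left) (H16.norm_inf (hCM.trans (le_sup_left.trans hK))
        (H16.norm_of_le hCH)))) (H16.norm_inf (le_sup_right.trans hK) (hH ▸ H16.norm_sup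
          (le_sup_right.trans hL) (H16.norm_of_cent' (hCe ▸ inf_le_right))))) hK hs ho hCe
    (le_inf inf_le_left (le_trans ?_ hCH)) hc
  exact hCe ▸ inf_le_inf_right _ (hM ▸ le_sup_left)

end H21
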