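import Cfsg.Agent.H17.Deg

set_option autoImplicit false
set_option linter.unusedSectionVars false
open Cfsg H17 Subgroup Module
open scoped ComplexConjugate InnerProductSpace

namespace H21

variable {G : Type*} [Group G] [Finite G]

/-- the diagonal representation -/
noncomputable def diagRep {n : ℕ} (l : Fin n → (G →* ℂˣ)) : Representation ℂ G (Fin n → ℂ) where
  toFun g := Matrix.toLin' (Matrix.diagonal fun i => (l i g : ℂ))
  map_one' := by simp; rfl
  map_mul' a b := by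
    rw [Module.End.mul_eq_comp, ← Matrix.toLin'_mul, Matrix.diagonal_mul_diagonal]
    simp

theorem char_diagRep {n : ℕ} (l : Fin n → (G →* ℂˣ)) (g : G) :
    (diagRep l).character g = ∑ i, (l i g : ℂ) := by
  simp [Representation.character, diagRep]

theorem exists_eigenbasis {V : Type*} [AddCommGroup V] [Module ℂ V] [FiniteDimensional ℂ V]
    (ρ : Representation ℂ G V) (hG : ∀ a b : G, a * b = b * a) :
    ∃ (b : Basis (Fin (finrank ℂ V)) ℂ V) (l : Fin (finrank ℂ V) → (G →* ℂˣ)),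
      ∀ g i, ρ g (b i) = (l i g : ℂ) • b i := by
  obtain ⟨n, l, h1, h2⟩ := (isCharacter_character ρ).exists_sum_linear hG
  rw [Representation.char_one, Nat.cast_inj] at h1
  subst h1
  obtain ⟨e⟩ := nonempty_equiv_of_char_eq (diagRep l) ρ (funext fun g => by rw [char_diagRep, h2])
  refine ⟨(Pi.basisFun ℂ _).map e.toLinearEquiv, l, fun g i => ?_⟩
  have := equiv_intertwines e g (Pi.single i 1)
  simp only [Basis.map_apply, Pi.basisFun_apply]
  refine this.symm.trans ?_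
  rw [← map_smul]
  refine congrArg e ?_
  ext j
  by_cases h : j = i
  · subst h; simp [diagRep, Matrix.mulVec_diagonal]
  · simp [diagRep, Matrix.mulVec_diagonal, h]

section unit
variable {W : Type*} [NormedAddCommGroup W] [InnerProductSpace ℂ W] [FiniteDimensional ℂ W]
  {σ : Representation ℂ G W}

theorem inner_rep (hσ : ∀ g v, ‖σ g v‖ = ‖v‖) (g : G) (v w : W) : ⟪σ g v, σ g w⟫_ℂ = ⟪v, w⟫_ℂ :=
  LinearIsometry.inner_map_map (⟨σ g, hσ g⟩ : W →ₗᵢ[ℂ] W) v w

theorem inner_eq_zero_of_eig (hσ : ∀ g v, ‖σ g v‖ = ‖v‖) {g : G} {v w : W} {a b : ℂ}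
    (hv : σ g v = a • v) (hw : σ g w = b • w) (ha : ‖a‖ = 1) (hab : a ≠ b) : ⟪v, w⟫_ℂ = 0 := by
  have h1 := inner_rep hσ g v w
  rw [hv, hw, inner_smul_left, inner_smul_right] at h1
  by_contra h0
  have h2 : conj a * b = 1 := mul_right_cancel₀ h0 (by rw [mul_assoc, h1, one_mul])
  have h3 : conj a * a = 1 := by rw [Complex.conj_mul', ha]; simp
  exact hab (mul_left_cancel₀ (left_ne_zero_of_mul_eq_one h3) (h3.trans h2.symm))

theorem re_inner_ge (hσ : ∀ g v, ‖σ g v‖ = ‖v‖) {g : G} {ι : Type*} [Fintype ι]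
    (b : Basis ι ℂ W) {a : ι → ℂ} (hb : ∀ i, σ g (b i) = a i • b i) (ha : ∀ i, ‖a i‖ = 1) {r : ℝ}
    (hr : ∀ i, r ≤ (a i).re) (v : W) : r * ‖v‖ ^ 2 ≤ (⟪v, σ g v⟫_ℂ).re := by
  classical
  let w : ℂ → W := fun μ => ∑ i with a i = μ, b.repr v i • b i
  set M := Finset.univ.image a with hM
  have hw : ∀ μ, σ g (w μ) = μ • w μ := fun μ => by
    simp only [w, map_sum, map_smul, hb, Finset.smul_sum]
    refine Finset.sum_congr rfl fun i hi => ?_
    rw [(Finset.mem_filter.1 hi).2, smul_comm]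
  have hv : v = ∑ μ ∈ M, w μ := by
    rw [Finset.sum_fiberwise_of_maps_to (fun i _ => Finset.mem_image_of_mem a (Finset.mem_univ i)),
      b.sum_repr]
  have hMa : ∀ μ ∈ M, ‖μ‖ = 1 ∧ r ≤ μ.re := fun μ hμ => by
    obtain ⟨i, -, rfl⟩ := Finset.mem_image.1 hμ
    exact ⟨ha i, hr i⟩
  have key : ∀ c : ℂ → ℂ, ⟪v, ∑ μ ∈ M, c μ • w μ⟫_ℂ = ∑ μ ∈ M, c μ * ((‖w μ‖ ^ 2 : ℝ) : ℂ) :=
    fun c => by
      rw [inner_sum]
      refine Finset.sum_congr rfl fun μ hμ => ?_
      rw [inner_smul_right]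
      congr 1
      nth_rewrite 1 [hv]
      rw [sum_inner, Finset.sum_eq_single μ (fun ν hν hne =>
        inner_eq_zero_of_eig hσ (hw ν) (hw μ) (hMa ν hν).1 hne) (fun h => absurd hμ h),
        inner_self_eq_norm_sq_to_K]
      simp
  have h1 : ‖v‖ ^ 2 = ∑ μ ∈ M, ‖w μ‖ ^ 2 := by
    have := key fun _ => 1
    simp only [one_smul, one_mul] at this
    rw [← hv, inner_self_eq_norm_sq_to_K] at this
    apply Complex.ofReal_injective
    rw [Complex.ofReal_sum, ← this]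
    simp
  have h2 : σ g v = ∑ μ ∈ M, μ • w μ := by
    nth_rewrite 1 [hv]
    rw [map_sum]
    exact Finset.sum_congr rfl fun μ _ => hw μ
  rw [h2, key, h1, Complex.re_sum, Finset.mul_sum]
  refine Finset.sum_le_sum fun μ hμ => ?_
  rw [Complex.re_mul_ofReal]
  exact mul_le_mul_of_nonneg_right (hMa μ hμ).2 (sq_nonneg _)

/-- the operator of a group element as a continuous linear map -/
noncomputable def opU (σ : Representation ℂ G W) (g : G) : W →L[ℂ] W :=
  LinearMap.toContinuousLinearMap (σ g)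

theorem opU_apply (g : G) (v : W) : opU σ g v = σ g v := rfl

theorem opU_mul (g h : G) : opU σ (g * h) = opU σ g * opU σ h := by
  ext v; simp [opU_apply]

theorem opU_one : opU σ 1 = 1 := by
  ext v; simp [opU_apply]

theorem norm_opU_le (hσ : ∀ g v, ‖σ g v‖ = ‖v‖) (g : G) : ‖opU σ g‖ ≤ 1 :=
  ContinuousLinearMap.opNorm_le_bound _ zero_le_one fun v => by rw [opU_apply, hσ, one_mul]

theorem norm_sub_smul_le (hσ : ∀ g v, ‖σ g v‖ = ‖v‖) {g : G} {r : ℝ}
    (h : ∀ v, r * ‖v‖ ^ 2 ≤ (⟪v, σ g v⟫_ℂ).re) {a c : ℝ} (ha : 0 ≤ a) (hc : 0 ≤ c)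
    (hac : 1 - 2 * a * r + a ^ 2 ≤ c ^ 2) : ‖opU σ g - (a : ℂ) • 1‖ ≤ c := by
  refine ContinuousLinearMap.opNorm_le_bound _ hc fun v => ?_
  refine (pow_le_pow_iff_left₀ (norm_nonneg _) (mul_nonneg hc (norm_nonneg _)) two_ne_zero).1 ?_
  have h1 : (opU σ g - (a : ℂ) • 1 : W →L[ℂ] W) v = σ g v - (a : ℂ) • v := rfl
  rw [h1, norm_sub_rev, @norm_sub_sq ℂ, hσ, norm_smul, inner_smul_left, Complex.conj_ofReal,
    Complex.norm_real, Real.norm_of_nonneg ha]
  have h2 := h v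
  simp only [RCLike.re_to_complex, Complex.re_ofReal_mul]
  nlinarith [mul_le_mul_of_nonneg_left h2 ha, mul_le_mul_of_nonneg_right hac (sq_nonneg ‖v‖)]

theorem norm_comm_le (hσ : ∀ g v, ‖σ g v‖ = ‖v‖) (g b : G) (a : ℂ) :
    ‖opU σ (g * b * g⁻¹ * b⁻¹) - 1‖ ≤ 2 * ‖opU σ g - a • 1‖ * ‖opU σ b - 1‖ := by
  have h1 : opU σ (g * b * g⁻¹ * b⁻¹) - 1 = ((opU σ g - a • 1) * (opU σ b - 1) -
      (opU σ b - 1) * (opU σ g - a • 1)) * opU σ (g⁻¹ * b⁻¹) := by
    have h2 : (opU σ g - a • 1) * (opU σ b - 1) - (opU σ b - 1) * (opU σ g - a • 1) =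
        opU σ g * opU σ b - opU σ b * opU σ g := by
      simp only [sub_mul, mul_sub, smul_mul_assoc, mul_smul_comm, one_mul, mul_one, smul_sub]
      abel
    rw [h2, sub_mul, ← opU_mul, ← opU_mul, ← opU_mul, ← opU_mul, ← opU_one (σ := σ)]
    congr 2 <;> group
  rw [h1]
  refine (norm_mul_le _ _).trans ((mul_le_mul_of_nonneg_left (norm_opU_le hσ _)
    (norm_nonneg _)).trans ?_)
  rw [mul_one]
  refine (norm_sub_le _ _).trans ?_
  have h3 := norm_mul_le (opU σ g - a • 1) (opU σ b - 1)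
  have h4 := norm_mul_le (opU σ b - 1) (opU σ g - a • 1)
  linarith

theorem comm_of_comm_comm (hσ : ∀ g v, ‖σ g v‖ = ‖v‖) (hf : ∀ g, σ g = 1 → g = 1) {g b : G}
    (hb : ‖opU σ b - 1‖ < 1) (h : Commute g (g * b * g⁻¹ * b⁻¹)) : Commute g b := by
  have h1 : Commute g (b * g * b⁻¹) := by
    have h2 : Commute g (g⁻¹ * (g * b * g⁻¹ * b⁻¹)) := (Commute.refl g).inv_right.mul_right h
    have h3 := h2.inv_right
    convert h3 using 1
    group
  let H := Subgroup.closure ({g, b * g * b⁻¹} : Set G)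
  have hH : IsMulCommutative H := Subgroup.isMulCommutative_closure (by
    rintro x (rfl | rfl) y (rfl | rfl)
    exacts [rfl, h1, h1.symm, rfl])
  obtain ⟨e, l, he⟩ := exists_eigenbasis (σ.comp H.subtype : Representation ℂ H W) hH.1.1
  have hg : g ∈ H := Subgroup.subset_closure (Or.inl rfl)
  have hg' : b * g * b⁻¹ ∈ H := Subgroup.subset_closure (Or.inr rfl)
  have h2 : ∀ i, (l i ⟨_, hg'⟩ : ℂ) = l i ⟨g, hg⟩ := fun i => by
    by_contra hne
    have h3 : σ g (e i) = (l i ⟨g, hg⟩ : ℂ) • e i := he ⟨g, hg⟩ i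
    have h4 : σ (b * g * b⁻¹) (e i) = (l i ⟨_, hg'⟩ : ℂ) • e i := he ⟨_, hg'⟩ i
    have h5 : σ g (σ b⁻¹ (e i)) = (l i ⟨_, hg'⟩ : ℂ) • σ b⁻¹ (e i) := by
      rw [← map_smul, ← h4, ← Module.End.mul_apply, ← Module.End.mul_apply, ← map_mul, ← map_mul]
      congr 2; group
    have h6 := inner_eq_zero_of_eig hσ h5 h3 (linear_norm_eq_one _ _) hne
    have h7 := (opU σ b - 1).le_opNorm (σ b⁻¹ (e i))
    have h8 : (opU σ b - 1 : W →L[ℂ] W) (σ b⁻¹ (e i)) = e i - σ b⁻¹ (e i) := by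
      change σ b (σ b⁻¹ (e i)) - _ = _
      rw [← Module.End.mul_apply, ← map_mul, mul_inv_cancel, map_one]; rfl
    rw [h8, hσ] at h7
    have h9 := @norm_sub_sq ℂ _ _ _ _ (σ b⁻¹ (e i)) (e i)
    rw [h6, hσ, norm_sub_rev, map_zero] at h9
    have h10 : 0 < ‖e i‖ := norm_pos_iff.2 (e.ne_zero i)
    have h11 : ‖e i - σ b⁻¹ (e i)‖ < ‖e i‖ := h7.trans_lt (by nlinarith)
    nlinarith [norm_nonneg (e i - σ b⁻¹ (e i))]
  have h3 : σ (b * g * b⁻¹) = σ g := e.ext fun i => by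
    have h3 : σ g (e i) = (l i ⟨g, hg⟩ : ℂ) • e i := he ⟨g, hg⟩ i
    have h4 : σ (b * g * b⁻¹) (e i) = (l i ⟨_, hg'⟩ : ℂ) • e i := he ⟨_, hg'⟩ i
    rw [h3, h4, h2]
  have h4 := hf (b * g * b⁻¹ * g⁻¹) (by rw [map_mul, h3, ← map_mul, mul_inv_cancel, map_one])
  have h5 : b * g = b * g * b⁻¹ * g⁻¹ * (g * b) := by group
  exact (h5.trans (by rw [h4, one_mul])).symm

theorem comm_of_small (hσ : ∀ g v, ‖σ g v‖ = ‖v‖) (hf : ∀ g, σ g = 1 → g = 1) {g : G} {a : ℂ}
    (hg : 2 * ‖opU σ g - a • 1‖ < 1) {b : G} (hb : ‖opU σ b - 1‖ < 1) : Commute g b := by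
  classical
  have := Fintype.ofFinite G
  by_contra hne
  obtain ⟨x, hx, hmin⟩ := Finset.exists_min_image
    (Finset.univ.filter fun x : G => ‖opU σ x - 1‖ < 1 ∧ ¬ Commute g x)
    (fun x => ‖opU σ x - 1‖) ⟨b, by simp [hb, hne]⟩
  obtain ⟨h1, h2⟩ := (Finset.mem_filter.1 hx).2
  have h3 : 0 < ‖opU σ x - 1‖ := by
    rw [norm_pos_iff, sub_ne_zero]
    intro h
    have : x = 1 := hf x (LinearMap.ext fun v => by rw [← opU_apply, h]; rfl)
    exact h2 (this ▸ Commute.one_right g)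
  have h4 : ‖opU σ (g * x * g⁻¹ * x⁻¹) - 1‖ < ‖opU σ x - 1‖ :=
    (norm_comm_le hσ g x a).trans_lt (by nlinarith)
  refine h2 (comm_of_comm_comm hσ hf h1 (by_contra fun h5 => ?_))
  exact (hmin _ (Finset.mem_filter.2 ⟨Finset.mem_univ _, h4.trans h1, h5⟩)).not_gt h4

/-- elements whose eigenvalues are near to one -/
def nearOne (σ : Representation ℂ G W) : Set G :=
  {g | ∃ r : ℝ, √3 / 2 < r ∧ ∀ v, r * ‖v‖ ^ 2 ≤ (⟪v, σ g v⟫_ℂ).re}

theorem comm_of_nearOne (hσ : ∀ g v, ‖σ g v‖ = ‖v‖) (hf : ∀ g, σ g = 1 → g = 1) {g b : G}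
    (hg : g ∈ nearOne σ) (hb : b ∈ nearOne σ) : Commute g b := by
  obtain ⟨r, hr, hg⟩ := hg
  obtain ⟨s, hs, hb⟩ := hb
  have h3 : √3 * √3 = 3 := Real.mul_self_sqrt (by norm_num)
  have h0 : (1.7 : ℝ) < √3 := Real.lt_sqrt_of_sq_lt (by norm_num)
  refine comm_of_small hσ hf (a := ((√3 / 2 : ℝ) : ℂ)) ?_ ?_
  · have h1 := norm_sub_smul_le hσ hg (a := √3 / 2) (c := √(max 0 (7 / 4 - √3 * r)))
      (by positivity) (Real.sqrt_nonneg _) (by
        rw [Real.sq_sqrt (le_max_left _ _)]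
        refine le_trans (le_of_eq ?_) (le_max_right _ _)
        nlinarith)
    have h2 : √(max 0 (7 / 4 - √3 * r)) < 1 / 2 := by
      rw [Real.sqrt_lt' (by norm_num), max_lt_iff]
      constructor <;> nlinarith
    linarith
  · have h1 := norm_sub_smul_le hσ hb (a := 1) (c := 2 / 3) (by positivity) (by positivity)
      (by nlinarith)
    simp only [Complex.ofReal_one, one_smul] at h1
    linarith

theorem conj_mem_nearOne (hσ : ∀ g v, ‖σ g v‖ = ‖v‖) {g : G} (hg : g ∈ nearOne σ) (c : G) :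
    c * g * c⁻¹ ∈ nearOne σ := by
  obtain ⟨r, hr, hg⟩ := hg
  refine ⟨r, hr, fun v => ?_⟩
  have h1 := hg (σ c⁻¹ v)
  rw [hσ, ← inner_rep hσ c, ← Module.End.mul_apply, ← map_mul, mul_inv_cancel, map_one,
    ← Module.End.mul_apply, ← Module.End.mul_apply, ← map_mul, ← map_mul] at h1
  exact h1

theorem re_gt_of_ceil {z w : ℂ} (hz : ‖z‖ = 1) (hw : ‖w‖ = 1)
    (h : ⌈z.arg / (Real.pi / 6)⌉ = ⌈w.arg / (Real.pi / 6)⌉) : √3 / 2 < (z⁻¹ * w).re := by
  have hpi : 0 < Real.pi / 6 := by positivity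
  have h1 : |w.arg - z.arg| < Real.pi / 6 := by
    have h2 : |z.arg / (Real.pi / 6) - w.arg / (Real.pi / 6)| < 1 := by
      have a1 := Int.le_ceil (z.arg / (Real.pi / 6))
      have a2 := Int.le_ceil (w.arg / (Real.pi / 6))
      have a3 := Int.ceil_lt_add_one (z.arg / (Real.pi / 6))
      have a4 := Int.ceil_lt_add_one (w.arg / (Real.pi / 6))
      rw [h] at a1 a3
      rw [abs_lt]
      constructor <;> linarith
    rw [← sub_div, abs_div, abs_of_pos hpi, div_lt_one hpi, abs_sub_comm] at h2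
    exact h2
  have h2 : z⁻¹ * w = Complex.exp ((w.arg - z.arg : ℝ) * Complex.I) := by
    have h3 := Complex.norm_mul_exp_arg_mul_I z
    have h4 := Complex.norm_mul_exp_arg_mul_I w
    rw [hz, Complex.ofReal_one, one_mul] at h3
    rw [hw, Complex.ofReal_one, one_mul] at h4
    rw [Complex.ofReal_sub, sub_mul, Complex.exp_sub, h3, h4]
    ring
  rw [h2, Complex.exp_ofReal_mul_I_re, ← Real.cos_pi_div_six, ← Real.cos_abs (w.arg - z.arg)]
  exact Real.cos_lt_cos_of_nonneg_of_le_pi (abs_nonneg _) (by linarith [Real.pi_pos]) h1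

theorem ceil_arg_mem (z : ℂ) : ⌈z.arg / (Real.pi / 6)⌉ ∈ Finset.Ioc (-6 : ℤ) 6 := by
  have hpi : 0 < Real.pi / 6 := by positivity
  rw [Finset.mem_Ioc, Int.lt_ceil, Int.ceil_le, lt_div_iff₀ hpi, div_le_iff₀ hpi]
  have h1 := Complex.neg_pi_lt_arg z
  have h2 := Complex.arg_le_pi z
  push_cast
  constructor <;> linarith

theorem index_nearOne_le (hσ : ∀ g v, ‖σ g v‖ = ‖v‖) (H : Subgroup G)
    (hH : ∀ x ∈ H, ∀ y ∈ H, x * y = y * x) :
    ((Subgroup.closure (nearOne σ)).subgroupOf H).index ≤ 12 ^ finrank ℂ W := by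
  obtain ⟨e, l, he⟩ := exists_eigenbasis (σ.comp H.subtype : Representation ℂ H W)
    (fun a b => Subtype.ext (hH a a.2 b b.2))
  let f : H → (Fin (finrank ℂ W) → Finset.Ioc (-6 : ℤ) 6) := fun h i =>
    ⟨⌈(l i h : ℂ).arg / (Real.pi / 6)⌉, ceil_arg_mem _⟩
  have hf : ∀ h k : H, f h = f k → h⁻¹ * k ∈ (Subgroup.closure (nearOne σ)).subgroupOf H :=
    fun h k hk => by
      refine Subgroup.subset_closure (?_ : ((h⁻¹ * k : H) : G) ∈ nearOne σ)
      have h1 : ∀ i, √3 / 2 < ((l i (h⁻¹ * k) : ℂˣ) : ℂ).re := fun i => by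
        rw [map_mul, map_inv, Units.val_mul, Units.val_inv_eq_inv_val]
        exact re_gt_of_ceil (linear_norm_eq_one _ _) (linear_norm_eq_one _ _)
          (congrArg Subtype.val (congrFun hk i))
      obtain ⟨r, hr, hr'⟩ : ∃ r : ℝ, √3 / 2 < r ∧ ∀ i, r ≤ ((l i (h⁻¹ * k) : ℂˣ) : ℂ).re := by
        rcases isEmpty_or_nonempty (Fin (finrank ℂ W)) with h0 | h0
        · exact ⟨√3 / 2 + 1, by linarith, fun i => isEmptyElim i⟩
        · obtain ⟨i, hi⟩ := Finite.exists_min fun i => ((l i (h⁻¹ * k) : ℂˣ) : ℂ).re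
          exact ⟨_, h1 i, hi⟩
      exact ⟨r, hr, re_inner_ge hσ e (he (h⁻¹ * k)) (fun i => linear_norm_eq_one _ _) hr'⟩
  have h1 := Nat.card_le_card_of_injective
    (fun q : H ⧸ (Subgroup.closure (nearOne σ)).subgroupOf H => f q.out) (fun q q' h => by
      rw [← q.out_eq, ← q'.out_eq]
      exact QuotientGroup.eq.2 (hf _ _ h))
  have h2 : Nat.card (Finset.Ioc (-6 : ℤ) 6) = 12 := by
    rw [Nat.card_eq_fintype_card, Fintype.card_coe, Int.card_Ioc]; rfl
  rw [Nat.card_fun, Nat.card_fin, h2] at h1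
  exact h1

end unit

theorem exists_unitary.{u} {G : Type u} [Group G] [Finite G] {χ : G → ℂ} (hχ : IsCharacter G χ) :
    ∃ (W : Type u) (_ : NormedAddCommGroup W) (_ : InnerProductSpace ℂ W)
      (_ : FiniteDimensional ℂ W) (σ : Representation ℂ G W),
        (∀ g v, ‖σ g v‖ = ‖v‖) ∧ σ.character = χ := by
  classical
  have := Fintype.ofFinite G
  obtain ⟨m, ρ, rfl⟩ := hχ
  let ι : (Fin m → ℂ) →ₗ[ℂ] EuclideanSpace ℂ (G × Fin m) :=
    { toFun := fun v => WithLp.toLp 2 fun x => ρ x.1 v x.2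
      map_add' := fun v w => by ext x; simp
      map_smul' := fun c v => by ext x; simp }
  have hιa : ∀ v x, ι v x = ρ x.1 v x.2 := fun _ _ => rfl
  have hι : Function.Injective ι := fun v w h => by
    funext i
    have h1 := hιa v (1, i)
    rw [h, hιa] at h1
    simpa using h1.symm
  have hn : ∀ g w, ‖ι (ρ g w)‖ = ‖ι w‖ := fun g w => by
    rw [EuclideanSpace.norm_eq, EuclideanSpace.norm_eq, ← Equiv.sum_comp
      ((Equiv.mulRight g).prodCongr (Equiv.refl _)) fun x => ‖ι w x‖ ^ 2]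
    refine congrArg _ (Finset.sum_congr rfl fun x _ => ?_)
    rw [hιa, hιa]
    simp
  clear_value ι
  refine ⟨LinearMap.range ι, inferInstance, inferInstance, inferInstance,
    transportRep ρ (LinearEquiv.ofInjective ι hι), fun g v => ?_, char_transportRep _ _⟩
  obtain ⟨w, rfl⟩ := (LinearEquiv.ofInjective ι hι).surjective v
  rw [transportRep_apply, LinearEquiv.symm_apply_apply]
  exact hn g w

theorem jordan_aux {χ : G → ℂ} (hχ : IsCharacter G χ) (hf : ∀ g, χ g = χ 1 → g = 1) {n : ℕ}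
    (hn : χ 1 = n) : ∃ A : Subgroup G, A.Normal ∧ (∀ x ∈ A, ∀ y ∈ A, x * y = y * x) ∧
      ∀ H : Subgroup G, (∀ x ∈ H, ∀ y ∈ H, x * y = y * x) → (A.subgroupOf H).index ≤ 12 ^ n := by
  obtain ⟨W, _, _, _, σ, hσ, rfl⟩ := exists_unitary hχ
  have hf' : ∀ g, σ g = 1 → g = 1 := fun g hg => hf g (by
    rw [Representation.char_one]
    exact (char_eq_finrank_iff σ g).2 hg)
  have hn' : finrank ℂ W = n := by
    rw [Representation.char_one] at hn
    exact_mod_cast hn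
  refine ⟨Subgroup.closure (nearOne σ), ⟨fun x hx c => ?_⟩, fun x hx y hy => ?_, fun H hH =>
    hn' ▸ index_nearOne_le hσ H hH⟩
  · induction hx using Subgroup.closure_induction with
    | mem x hx => exact Subgroup.subset_closure (conj_mem_nearOne hσ hx c)
    | one => simp
    | mul x y _ _ hx hy =>
      have := Subgroup.mul_mem _ hx hy
      convert this using 1; group
    | inv x _ hx =>
      have := Subgroup.inv_mem _ hx
      convert this using 1; group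
  · have hH : IsMulCommutative (Subgroup.closure (nearOne σ)) :=
      Subgroup.isMulCommutative_closure fun x hx y hy => comm_of_nearOne hσ hf' hx hy
    exact congrArg Subtype.val (hH.1.1 ⟨x, hx⟩ ⟨y, hy⟩)

end H21
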