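import Cfsg.Agent.H21.Jord1
import Cfsg.Agent.H21.Ext2
import Cfsg.Agent.H17.Galois
import Cfsg.Agent.H10.SylowIn
import Cfsg.Prelude.Def_Blocks

set_option autoImplicit false
set_option linter.unusedSectionVars false
open Cfsg H17 Subgroup Module
open scoped ComplexConjugate commutatorElement

namespace H21

universe u

variable {G : Type*} [Group G] [Finite G]

theorem exists_pow_char_ne {χ : G → ℂ} (hχ : IsCharacter G χ) {n : ℕ} (hn : χ 1 = n) {p : ℕ}
    (hp : p.Prime) (hnp : n + 1 < p) {g : G} (hg : orderOf g = p) (h1 : χ g ≠ χ 1) :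
    ∃ k : ℕ, ¬ p ∣ k ∧ χ (g ^ k) ≠ χ g := by
  classical
  by_contra hcon
  push Not at hcon
  have := Fintype.ofFinite (zpowers g)
  have hr := hχ.restrict (zpowers g)
  obtain ⟨a, ha⟩ := hr.inner_nat isCharacter_one
  have hle := hr.smul_irr_degree_le isIrr_one
  rw [ha, mul_one, OneMemClass.coe_one, hn, Complex.natCast_re, Complex.natCast_re,
    Nat.cast_le] at hle
  have hc : Nat.card (zpowers g) = p := by rw [Nat.card_zpowers, hg]
  rw [classInner_one_right, ← Finset.add_sum_erase _ _ (Finset.mem_univ 1),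
    Finset.sum_congr rfl (g := fun _ => χ g) (fun x hx => by
      obtain ⟨k, hk⟩ := (mem_powers_iff_mem_zpowers.2 x.2 : (x : G) ∈ Submonoid.powers g)
      simp only at hk
      rw [← hk]
      refine hcon k fun hd => (Finset.mem_erase.1 hx).1 (Subtype.ext ?_)
      rw [← hk, ← hg] at *
      exact orderOf_dvd_iff_pow_eq_one.1 hd), Finset.sum_const,
    Finset.card_erase_of_mem (Finset.mem_univ _), Finset.card_univ, ← Nat.card_eq_fintype_card, hc,
    OneMemClass.coe_one, hn, nsmul_eq_mul, Nat.cast_sub hp.one_le] at ha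
  have hp0 : (p : ℂ) ≠ 0 := Nat.cast_ne_zero.2 hp.ne_zero
  have hp1 : (p : ℂ) - 1 ≠ 0 := sub_ne_zero.2 (by exact_mod_cast hp.one_lt.ne')
  have h2 : (n : ℂ) + (p - 1) * χ g = p * a := by
    rw [← ha]; field_simp; push_cast; ring
  obtain ⟨c, hc'⟩ := hχ.isGen.exists_int_of_rat (g := g) (q := (p * a - n) / (p - 1)) (by
    push_cast
    rw [← h2]; field_simp; ring)
  rw [hc'] at h2 h1
  have h3 : (n : ℤ) + (p - 1) * c = p * a := by exact_mod_cast h2
  have h4 : c ≠ n := fun h => h1 (by rw [h, hn]; simp)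
  have h5 : (n : ℤ) + 1 < p := by exact_mod_cast hnp
  have h6 : (a : ℤ) ≤ n := by exact_mod_cast hle
  have h7 : (0 : ℤ) ≤ a := Int.natCast_nonneg a
  have h8 : (p - 1 : ℤ) * (a - c) = n - a := by linarith
  rcases lt_trichotomy (a - c) 0 with h | h | h
  · nlinarith
  · rw [h] at h8; omega
  · nlinarith

theorem exists_galois_exp {p k : ℕ} (hp : p.Prime) (hpG : p ∣ Nat.card G) (hk : ¬ p ∣ k) :
    ∃ l : ℕ, l.Coprime (Nat.card G) ∧ (∀ x : G, ¬ p ∣ orderOf x → x ^ l = x) ∧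
      ∀ x : G, orderOf x = p → x ^ l = x ^ k := by
  obtain ⟨a, m, hm, e⟩ := Nat.exists_eq_pow_mul_and_not_dvd (Nat.card_pos (α := G)).ne' p hp.ne_one
  have hc : p.Coprime m := hp.coprime_iff_not_dvd.2 hm
  obtain ⟨l, h1, h2⟩ := Nat.chineseRemainder hc k 1
  refine ⟨l, ?_, fun x hx => ?_, fun x hx => ?_⟩
  · rw [e]
    refine Nat.Coprime.mul_right (Nat.Coprime.pow_right _ ?_) ?_
    · exact (hp.coprime_iff_not_dvd.2 fun h => hk ((h1.dvd_iff dvd_rfl).1 h)).symm
    · rw [Nat.Coprime, h2.gcd_eq]; simp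
  · have h3 : orderOf x ∣ m := by
      have := orderOf_dvd_natCard x
      rw [e] at this
      exact (Nat.Coprime.pow_right a (hp.coprime_iff_not_dvd.2 hx).symm).dvd_of_dvd_mul_left this
    nth_rewrite 2 [← pow_one x]
    exact pow_eq_pow_iff_modEq.2 (h2.of_dvd h3)
  · exact pow_eq_pow_iff_modEq.2 (hx ▸ h1)

theorem exists_order_dvd_all {χ : G → ℂ} (hχ : IsIrrCharacter G χ) (T : Finset ℕ)
    (hT : ∀ p ∈ T, p.Prime) (h : ∀ p ∈ T, ∃ g : G, orderOf g = p ∧ ∃ k, ¬ p ∣ k ∧ χ (g ^ k) ≠ χ g) :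
    ∃ x : G, ∀ p ∈ T, p ∣ orderOf x := by
  classical
  have := Fintype.ofFinite G
  have h' : ∀ p ∈ T, ∃ (g : G) (l : ℕ), orderOf g = p ∧ l.Coprime (Nat.card G) ∧
      (∀ x : G, ¬ p ∣ orderOf x → x ^ l = x) ∧ χ (g ^ l) ≠ χ g := fun p hp => by
    obtain ⟨g, h1, k, h2, h3⟩ := h p hp
    obtain ⟨l, h4, h5, h6⟩ := exists_galois_exp (G := G) (hT p hp) (h1 ▸ orderOf_dvd_natCard g) h2
    exact ⟨g, l, h1, h4, h5, by rwa [h6 g h1]⟩
  choose! g l h1 h2 h3 h4 using h'
  by_contra hcon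
  push Not at hcon
  have h5 : ∑ S ∈ T.powerset, ((-1 : ℂ) ^ S.card) • (fun x => χ (x ^ ∏ p ∈ S, l p)) = 0 := by
    funext x
    obtain ⟨p, hp, hx⟩ := hcon x
    rw [Finset.sum_apply, ← Finset.insert_erase hp,
      Finset.sum_powerset_insert (Finset.notMem_erase p T), ← Finset.sum_add_distrib]
    refine Finset.sum_eq_zero fun S hS => ?_
    have h6 : p ∉ S := fun h => Finset.notMem_erase p T (Finset.mem_powerset.1 hS h)
    simp only [Pi.smul_apply, smul_eq_mul]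
    rw [Finset.prod_insert h6, Finset.card_insert_of_notMem h6, pow_mul, h3 p hp x hx]
    ring
  have h6 := congrArg (fun φ => classInner φ χ) h5
  simp only [classInner_sum_left, classInner_smul_left, classInner_zero_left] at h6
  rw [Finset.sum_eq_single ∅ (fun S hS hne => ?_) (by simp)] at h6
  · simp [hχ.inner_self] at h6
  · have hS' := Finset.mem_powerset.1 hS
    rw [(hχ.comp_pow (Nat.Coprime.prod_left fun p hp => h2 p (hS' hp))).inner_of_ne hχ, mul_zero]
    intro h7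
    obtain ⟨p, hp⟩ := Finset.nonempty_iff_ne_empty.2 hne
    have h8 := congrFun h7 (g p)
    have h9 : g p ^ ∏ q ∈ S.erase p, l q = g p := by
      refine Finset.prod_induction _ (fun m => g p ^ m = g p) (fun a b ha hb => by
        rw [pow_mul, ha, hb]) (pow_one _) fun q hq => h3 q (hS' (Finset.mem_of_mem_erase hq)) _ ?_
      rw [h1 p (hS' hp), Nat.prime_dvd_prime_iff_eq (hT q (hS' (Finset.mem_of_mem_erase hq)))
        (hT p (hS' hp))]
      exact (Finset.mem_erase.1 hq).1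
    rw [← Finset.prod_erase_mul _ _ hp, pow_mul, h9] at h8
    exact h4 p (hS' hp) h8

theorem charKer_eq_bot {χ : G → ℂ} (hf : ∀ g, χ g = χ 1 → g = 1) : charKer χ = ⊥ :=
  eq_bot_iff.2 fun g hg => hf g (apply_eq_of_mem_charKer hg)

theorem exists_quot_faithful {χ : G → ℂ} (hχ : IsCharacter G χ) :
    ∃ ψ : (haveI := hχ.charKer_normal; G ⧸ charKer χ) → ℂ,
      (haveI := hχ.charKer_normal; IsCharacter (G ⧸ charKer χ) ψ) ∧
      (haveI := hχ.charKer_normal; (∀ g, ψ g = ψ 1 → g = 1) ∧ ψ 1 = χ 1) := by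
  haveI := hχ.charKer_normal
  obtain ⟨ψ, h1, h2⟩ := hχ.exists_quotient (charKer χ) le_rfl
  have h3 : ψ 1 = χ 1 := (congrFun h2 1).symm
  refine ⟨ψ, h1, fun g hg => ?_, h3⟩
  obtain ⟨x, rfl⟩ := QuotientGroup.mk_surjective g
  rw [QuotientGroup.eq_one_iff, hχ.mem_charKer, ← h3, ← hg]
  exact congrFun h2 x

theorem exists_twist_ker {χ : G → ℂ} (hχ : IsIrrCharacter G χ) (hf : ∀ g, χ g = χ 1 → g = 1)
    {n : ℕ} (hn : χ 1 = n) {p : ℕ} (hp : p.Prime) (hpn : ¬ p ∣ n) {z : G} (hz : z ∈ center G)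
    (ho : orderOf z = p) : ∃ ψ : G → ℂ, IsCharacter G ψ ∧ ψ 1 = n ∧ z ∈ charKer ψ ∧
      IsPGroup p (charKer ψ) := by
  have hz' := hχ.center_le_charCenter hz
  obtain ⟨m, ρ, rfl⟩ := hχ.isCharacter
  obtain ⟨ω, hω⟩ := (mem_charCenter_character ρ).1 hz'
  have hm : finrank ℂ (Fin m → ℂ) = n := by
    rw [Representation.char_one] at hn; exact_mod_cast hn
  have hn0 : (n : ℂ) ≠ 0 := hn ▸ hχ.one_ne_zero
  have h1 : ρ.character z = ω * n := by
    rw [Representation.character, hω, map_smul, LinearMap.trace_id, hm, smul_eq_mul]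
  have h2 : (detHom ρ z : ℂ) = ω ^ n := by
    rw [detHom_apply, hω, LinearMap.det_smul, hm, LinearMap.det_id, mul_one]
  have h3 : ω ^ p = 1 := by
    have h4 : ρ (z ^ p) = ω ^ p • LinearMap.id := by
      rw [map_pow, hω, smul_pow]; congr 1; exact one_pow p
    have h5 : ρ.character (z ^ p) = ω ^ p * n := by
      rw [Representation.character, h4, map_smul, LinearMap.trace_id, hm, smul_eq_mul]
    rw [← ho, pow_orderOf_eq_one, hn, ho] at h5
    exact mul_right_cancel₀ hn0 (by rw [← h5, one_mul])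
  have hω0 : ω ≠ 0 := fun h => by rw [h, zero_pow hp.ne_zero] at h3; exact zero_ne_one h3
  obtain ⟨a, r, hr, e⟩ := Nat.exists_eq_pow_mul_and_not_dvd (Nat.card_pos (α := G)).ne' p hp.ne_one
  obtain ⟨t, ht⟩ := exists_pow_eq_self_of_coprime (x := ω) (n := n * r)
    ((hp.coprime_iff_not_dvd.2 (hp.not_dvd_mul hpn hr)).symm.coprime_dvd_right
      (orderOf_dvd_of_pow_eq_one h3))
  let μ : G →* ℂˣ := (detHom ρ ^ (r * t))⁻¹
  have hμ : ∀ g, (μ g : ℂ) = ((detHom ρ g : ℂ) ^ (r * t))⁻¹ := fun g => by simp [μ]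
  have hc := (hχ.mul_linear μ).isCharacter
  have h4 : ρ.character 1 * (μ 1 : ℂ) = n := by rw [map_one, hn]; simp
  refine ⟨_, hc, h4, hc.mem_charKer.2 ?_, fun g => ⟨a, Subtype.ext (hf _ ?_)⟩⟩
  · rw [h4, h1, hμ, h2, ← pow_mul, ← mul_assoc, pow_mul, ht]
    field_simp
  · have h5 := hc.mem_charKer.1 (g ^ p ^ a).2
    rw [h4, hμ, ← Units.val_pow_eq_pow_val, ← map_pow, Subgroup.coe_pow, ← pow_mul, ← mul_assoc,
      ← e, pow_mul, pow_card_eq_one', one_pow, map_one] at h5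
    rw [hn, Subgroup.coe_pow]
    simpa using h5

theorem blich_aux (m N : ℕ) : ∀ (G : Type u) [Group G] [Finite G] (χ : G → ℂ) (n : ℕ),
    IsCharacter G χ → (∀ g, χ g = χ 1 → g = 1) → χ 1 = n → n ≤ m → Nat.card G + n = N →
    ∃ H : Subgroup G, (∀ q : ℕ, q.Prime → q ∣ Nat.card H → m + 1 < q) ∧
      ∀ q : ℕ, q.Prime → q ∣ H.index → q ≤ m + 1 := by
  induction N using Nat.strong_induction_on with
  | _ N ih =>
  intro G _ _ χ n hχ hf hn hnm hN
  classical
  have := Fintype.ofFinite G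
  have sub : ∀ L : Subgroup G, L ≠ ⊤ → ∃ H : Subgroup G, H ≤ L ∧
      (∀ q : ℕ, q.Prime → q ∣ Nat.card H → m + 1 < q) ∧
      ∀ q : ℕ, q.Prime → q ∣ H.relIndex L → q ≤ m + 1 := fun L hL => by
    obtain ⟨H, h1, h2⟩ := ih _ (hN ▸ Nat.add_lt_add_right (H1.card_lt_card_of_ne_top hL) n) L
      (fun x => χ x) n (hχ.restrict L) (fun g hg => Subtype.ext (hf g hg)) hn hnm rfl
    refine ⟨H.map L.subtype, map_subtype_le _, by rwa [card_subtype], ?_⟩
    rwa [relIndex, subgroupOf, comap_map_eq_self_of_injective L.subtype_injective]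
  have red : ∀ L : Subgroup G, L ≠ ⊤ → (∀ q : ℕ, q.Prime → q ∣ L.index → q ≤ m + 1) →
      ∃ H : Subgroup G, (∀ q : ℕ, q.Prime → q ∣ Nat.card H → m + 1 < q) ∧
      ∀ q : ℕ, q.Prime → q ∣ H.index → q ≤ m + 1 := fun L hL h => by
    obtain ⟨H, h1, h2, h3⟩ := sub L hL
    refine ⟨H, h2, fun q hq hd => ?_⟩
    rw [← relIndex_mul_index h1] at hd
    exact (hq.dvd_mul.1 hd).elim (h3 q hq) (h q hq)
  have quo : ∀ (ψ : G → ℂ) (k : ℕ), IsCharacter G ψ → ψ 1 = k → k ≤ n →
      (k < n ∨ charKer ψ ≠ ⊥) → ∃ L : Subgroup G, charKer ψ ≤ L ∧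
      (∀ q : ℕ, q.Prime → q ∣ (charKer ψ).relIndex L → m + 1 < q) ∧
      ∀ q : ℕ, q.Prime → q ∣ L.index → q ≤ m + 1 := fun ψ k hψ hk hkn hlt => by
    haveI := hψ.charKer_normal
    obtain ⟨φ, h1, h2, h3⟩ := exists_quot_faithful hψ
    obtain ⟨H, h4, h5⟩ := ih _ (by
      rw [← hN]
      rcases hlt with h | h
      · exact Nat.add_lt_add_of_le_of_lt (Nat.le_of_dvd Nat.card_pos (H1.card_quotient_dvd _)) h
      · exact Nat.add_lt_add_of_lt_of_le (H1.card_quotient_lt h) hkn) _ φ k h1 h2 (h3.trans hk)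
        (hkn.trans hnm) rfl
    refine ⟨H.comap (QuotientGroup.mk' _), fun x hx => ?_, ?_, ?_⟩
    · rw [mem_comap, QuotientGroup.mk'_apply, (QuotientGroup.eq_one_iff x).2 hx]
      exact H.one_mem
    · rwa [← H1.card_map_mk'_eq_relIndex, map_comap_eq_self_of_surjective
        (QuotientGroup.mk'_surjective _)]
    · rwa [index_comap_of_surjective _ (QuotientGroup.mk'_surjective _)]
  by_cases hT0 : ∀ q : ℕ, q.Prime → q ∣ Nat.card G → q ≤ m + 1
  · exact ⟨⊥, fun q hq hd => by simp [hq.ne_one] at hd, by simpa using hT0⟩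
  have hχ0 : χ ≠ 0 := by
    rintro rfl
    refine hT0 fun q hq hd => ?_
    have : Fact q.Prime := ⟨hq⟩
    obtain ⟨g, hg⟩ := exists_prime_orderOf_dvd_card' q hd
    exact absurd (hf g rfl) (H10.ne_one_of_orderOf_eq hg)
  by_cases hirr : IsIrrCharacter G χ
  swap
  · obtain ⟨ψ, hψ, hin⟩ := hχ.exists_irr_inner_ne_zero hχ0
    have hψ' := hχ.sub_irr hψ hin
    obtain ⟨a, ha0, ha⟩ := hψ.exists_pos_one
    obtain ⟨b, hb⟩ := hψ'.exists_nat_one
    have hb0 : b ≠ 0 := by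
      rintro rfl
      have := hψ'.eq_zero_of_one (by simpa using hb)
      exact hirr (sub_eq_zero.1 this ▸ hψ)
    have hab : a + b = n := by
      rw [Pi.sub_apply, ha, hn, sub_eq_iff_eq_add] at hb
      have : n = b + a := by exact_mod_cast hb
      omega
    obtain ⟨L1, -, a1, a2⟩ := quo ψ a hψ.isCharacter ha (by omega) (Or.inl (by omega))
    obtain ⟨L2, -, b1, b2⟩ := quo _ b hψ' hb (by omega) (Or.inl (by omega))
    by_cases h1 : L1 = ⊤
    swap
    · exact red L1 h1 a2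
    by_cases h2 : L2 = ⊤
    swap
    · exact red L2 h2 b2
    refine ⟨⊤, fun q hq hd => ?_, fun q hq hd => by simp [hq.ne_one] at hd⟩
    rw [h1, relIndex_top_right] at a1
    rw [h2, relIndex_top_right] at b1
    have h3 := charKer_add hψ.isCharacter hψ'
    rw [add_sub_cancel, charKer_eq_bot hf] at h3
    haveI := hψ.isCharacter.charKer_normal
    rw [card_top, ← index_bot, h3, ← relIndex_mul_index inf_le_right, inf_relIndex_right] at hd
    exact (hq.dvd_mul.1 hd).elim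
      (fun h => a1 q hq (h.trans (relIndex_dvd_index_of_normal _ _))) (b1 q hq)
  obtain ⟨n', hn0, hn'⟩ := hirr.exists_pos_one
  obtain rfl : n' = n := by rw [hn] at hn'; exact_mod_cast hn'.symm
  by_cases hZ : ∃ z ∈ center G, (orderOf z).Prime ∧ m + 1 < orderOf z
  · obtain ⟨z, hz, hp, hlt⟩ := hZ
    have : Fact (orderOf z).Prime := ⟨hp⟩
    obtain ⟨ψ, h1, h2, h3, h4⟩ := exists_twist_ker hirr hf hn hp
      (fun h => by have := Nat.le_of_dvd hn0 h; omega) hz rfl
    obtain ⟨L, h5, h6, h7⟩ := quo ψ n' h1 h2 le_rfl (Or.inr fun h => by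
      rw [h, mem_bot] at h3
      exact H10.ne_one_of_orderOf_eq rfl h3)
    refine ⟨L, fun q hq hd => ?_, h7⟩
    rw [← H1.card_mul_relIndex h5] at hd
    refine (hq.dvd_mul.1 hd).elim (fun h => ?_) (h6 q hq)
    obtain ⟨k, hk⟩ := h4.exists_card_eq
    rw [hk] at h
    rwa [(Nat.prime_dvd_prime_iff_eq hq hp).1 (hq.dvd_of_dvd_pow h)]
  push Not at hZ hT0
  have hC : ∀ y : G, (orderOf y).Prime → m + 1 < orderOf y → centralizer ({y} : Set G) ≠ ⊤ :=
    fun y h1 h2 h3 => by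
      refine (hZ y (mem_center_iff.2 fun g => ?_) h1).not_gt h2
      exact mem_centralizer_singleton_iff.1 (h3 ▸ mem_top g)
  have hab : ∀ H : Subgroup G, (∀ q : ℕ, q.Prime → q ∣ Nat.card H → m + 1 < q) →
      ∀ a ∈ H, ∀ b ∈ H, a * b = b * a := fun H hH a ha b hb =>
    congrArg Subtype.val ((hχ.restrict H).comm_of_small
      (charKer_eq_bot fun g hg => Subtype.ext (hf g hg)) (n := n') hn
      (fun q hq hd => by have := hH q hq hd; omega) ⟨a, ha⟩ ⟨b, hb⟩)
  have hdvd : ∀ H K C : Subgroup G, H ≤ C → K ≤ C →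
      (∀ q : ℕ, q.Prime → q ∣ Nat.card H → m + 1 < q) →
      (∀ q : ℕ, q.Prime → q ∣ K.relIndex C → q ≤ m + 1) → Nat.card H ∣ Nat.card K :=
    fun H K C h1 h2 h3 h4 => by
      have h5 := card_dvd_of_le h1
      rw [← H1.card_mul_relIndex h2] at h5
      exact (Nat.coprime_of_dvd fun q hq a b =>
        (h4 q hq b).not_gt (h3 q hq a)).dvd_of_dvd_mul_right h5
  obtain ⟨x, hx⟩ := exists_order_dvd_all hirr
    ((Nat.card G).primeFactors.filter fun q => m + 1 < q)
    (fun p hp => Nat.prime_of_mem_primeFactors (Finset.mem_filter.1 hp).1) (fun p hp => by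
      obtain ⟨h1, h2⟩ := Finset.mem_filter.1 hp
      have : Fact p.Prime := ⟨Nat.prime_of_mem_primeFactors h1⟩
      obtain ⟨g, hg⟩ := exists_prime_orderOf_dvd_card' p (Nat.dvd_of_mem_primeFactors h1)
      exact ⟨g, hg, exists_pow_char_ne hχ hn this.out (by omega) hg
        fun h => H10.ne_one_of_orderOf_eq hg (hf g h)⟩)
  have hx' : ∀ q : ℕ, q.Prime → q ∣ Nat.card G → m + 1 < q → q ∣ orderOf x := fun q h1 h2 h3 =>
    hx q (Finset.mem_filter.2 ⟨Nat.mem_primeFactors.2 ⟨h1, h2, Nat.card_pos.ne'⟩, h3⟩)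
  obtain ⟨H0, h0⟩ : ∃ H : Subgroup G, (∀ q : ℕ, q.Prime → q ∣ Nat.card H → m + 1 < q) ∧
      ∀ q : ℕ, q.Prime → q ∣ Nat.card G → m + 1 < q → q ∣ Nat.card H := by
    obtain ⟨p, h1, h2, h3⟩ := hT0
    have : Fact p.Prime := ⟨h1⟩
    obtain ⟨y, hy, ho⟩ := H10.exists_orderOf_eq_of_dvd (p := p) (L := zpowers x)
      (by rw [Nat.card_zpowers]; exact hx' p h1 h2 h3)
    obtain ⟨H, a1, a2, a3⟩ := sub _ (hC y (ho ▸ h1) (ho ▸ h3))
    refine ⟨H, a2, fun q b1 b2 b3 => ?_⟩
    have h4 : x ∈ centralizer ({y} : Set G) := by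
      obtain ⟨k, rfl⟩ := hy
      exact mem_centralizer_singleton_iff.2 (Commute.self_zpow x k)
    have h5 := (hx' q b1 b2 b3).trans (orderOf_dvd_natCard _ h4)
    rw [← H1.card_mul_relIndex a1] at h5
    exact (b1.dvd_mul.1 h5).resolve_right fun h => (a3 q b1 h).not_gt b3
  obtain ⟨⟨H, h1, h2⟩, hmax⟩ := @Finite.exists_max {H : Subgroup G //
    (∀ q : ℕ, q.Prime → q ∣ Nat.card H → m + 1 < q) ∧
      ∀ q : ℕ, q.Prime → q ∣ Nat.card G → m + 1 < q → q ∣ Nat.card H} _ _ ⟨⟨H0, h0⟩⟩ _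
        fun H => Nat.card H.1
  refine ⟨H, h1, fun q hq hd => not_lt.1 fun hlt => ?_⟩
  have : Fact q.Prime := ⟨hq⟩
  obtain ⟨y, hy, ho⟩ := H10.exists_orderOf_eq_of_dvd (h2 q hq (hd.trans H.index_dvd_card) hlt)
  obtain ⟨K, a1, a2, a3⟩ := sub _ (hC y (ho ▸ hq) (ho ▸ hlt))
  obtain ⟨Q, hQ⟩ := (H10.isPGroup_zpowers_of_orderOf_eq ho).exists_le_sylow
  have hQ' : ∀ r : ℕ, r.Prime → r ∣ Nat.card Q → m + 1 < r := fun r hr h => by
    obtain ⟨k, hk⟩ := Q.isPGroup'.exists_card_eq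
    rw [hk] at h
    rwa [(Nat.prime_dvd_prime_iff_eq hr hq).1 (hr.dvd_of_dvd_pow h)]
  have b1 := hdvd H K _ (fun a ha => mem_centralizer_singleton_iff.2 (hab H h1 a ha y hy)) a1 h1 a3
  have b2 := hdvd Q K _ (fun a ha => mem_centralizer_singleton_iff.2
    (hab Q hQ' a ha y (hQ (mem_zpowers y)))) a1 hQ' a3
  have b3 : Nat.card K ≤ Nat.card H := hmax ⟨K, a2, fun r c1 c2 c3 => (h2 r c1 c2 c3).trans b1⟩
  rw [le_antisymm b3 (Nat.le_of_dvd Nat.card_pos b1)] at b2
  have b4 := Nat.mul_dvd_mul b2 hd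
  rw [H.card_mul_index, ← (Q : Subgroup G).card_mul_index] at b4
  exact Q.not_dvd_index (Nat.dvd_of_mul_dvd_mul_left Nat.card_pos b4)

theorem blichfeldt {χ : G → ℂ} (hχ : IsCharacter G χ) (hf : ∀ g, χ g = χ 1 → g = 1) {n : ℕ}
    (hn : χ 1 = n) : ∃ H : Subgroup G, (∀ a ∈ H, ∀ b ∈ H, a * b = b * a) ∧
      (∀ q : ℕ, q.Prime → q ∣ Nat.card H → n + 1 < q) ∧
      ∀ q : ℕ, q.Prime → q ∣ H.index → q ≤ n + 1 := by
  obtain ⟨H, h1, h2⟩ := blich_aux n _ G χ n hχ hf hn le_rfl rfl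
  exact ⟨H, fun a ha b hb => congrArg Subtype.val ((hχ.restrict H).comm_of_small
      (charKer_eq_bot fun g hg => Subtype.ext (hf g hg)) (n := n) hn
      (fun q hq hd => by have := h1 q hq hd; omega) ⟨a, ha⟩ ⟨b, hb⟩), h1, h2⟩

theorem exists_normal_index_dvd_factorial [Group.IsNilpotent G] {χ : G → ℂ}
    (hχ : IsCharacter G χ) : ∃ B : Subgroup G, B.Normal ∧ ⁅B, B⁆ ≤ charKer χ ∧
      ∀ n : ℕ, χ 1 = n → B.index ∣ n.factorial := by
  classical
  have := Fintype.ofFinite G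
  refine hχ.induction_on (P := fun χ => ∃ B : Subgroup G, B.Normal ∧ ⁅B, B⁆ ≤ charKer χ ∧
      ∀ n : ℕ, χ 1 = n → B.index ∣ n.factorial) ⟨⊤, inferInstance, fun _ _ _ => rfl, by simp⟩
    (fun ψ hψ => ?_) fun φ ψ hφ hψ ⟨B, b1, b2, b3⟩ ⟨C, c1, c2, c3⟩ => ?_
  · obtain ⟨H, l, e⟩ := hψ.monomial
    have h1 : ψ 1 = H.index := by rw [e, indFun_one]; simp
    refine ⟨H.normalCore, inferInstance, fun g hg => hψ.mem_charKer.2 ?_, fun n hn => ?_⟩
    · rw [h1, e, indFun_apply', Finset.sum_congr rfl (g := fun _ => 1) fun x _ => ?_]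
      · rw [Finset.sum_const, Finset.card_univ, ← Nat.card_eq_fintype_card, ← H.card_mul_index]
        have : (Nat.card H : ℂ) ≠ 0 := card_ne_zero_complex
        simp only [nsmul_eq_mul, mul_one, Nat.cast_mul]
        field_simp
      · have h2 : x * g * x⁻¹ ∈ ⁅H, H⁆ := commutator_mono H.normalCore_le H.normalCore_le
          ((inferInstance : (⁅H.normalCore, H.normalCore⁆ : Subgroup G).Normal).conj_mem g hg x)
        rw [← H.map_subtype_commutator] at h2
        obtain ⟨y, hy, e2⟩ := h2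
        rw [← e2, coe_subtype, extendByZero_coe,
          MonoidHom.mem_ker.1 (Abelianization.commutator_subset_ker l hy), Units.val_one]
    · rw [h1, Nat.cast_inj] at hn
      rw [← hn, normalCore_eq_ker, index_ker, index_eq_card, ← Nat.card_perm]
      exact card_subgroup_dvd_card _
  · refine ⟨B ⊓ C, inferInstance, ?_, fun n hn => ?_⟩
    · rw [charKer_add hφ hψ]
      exact le_inf ((commutator_mono inf_le_left inf_le_left).trans b2)
        ((commutator_mono inf_le_right inf_le_right).trans c2)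
    · obtain ⟨a, ha⟩ := hφ.exists_nat_one
      obtain ⟨b, hb⟩ := hψ.exists_nat_one
      obtain rfl : a + b = n := by
        rw [Pi.add_apply, ha, hb] at hn; exact_mod_cast hn
      rw [← relIndex_mul_index (inf_le_right : B ⊓ C ≤ C), inf_relIndex_right]
      exact (Nat.mul_dvd_mul ((relIndex_dvd_index_of_normal _ _).trans (b3 a ha)) (c3 b hb)).trans
        (Nat.factorial_mul_factorial_dvd_factorial_add a b)

theorem jordan {χ : G → ℂ} (hχ : IsCharacter G χ) (hf : ∀ g, χ g = χ 1 → g = 1) {n : ℕ}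
    (hn : χ 1 = n) : ∃ A : Subgroup G, A.Normal ∧ (∀ x ∈ A, ∀ y ∈ A, x * y = y * x) ∧
      A.index ≤ n.factorial * 12 ^ (n * (Nat.primeCounting (n + 1) + 1)) := by
  classical
  obtain ⟨A, hA, hc, hH⟩ := jordan_aux hχ hf hn
  refine ⟨A, hA, hc, ?_⟩
  have h0 : A.index ≠ 0 := A.index_ne_zero_of_finite
  have hdv : ∀ B : Subgroup G, A.index ∣ A.relIndex B * B.index := fun B => by
    rw [← inf_relIndex_right, relIndex_mul_index inf_le_right]
    exact index_dvd_of_le inf_le_left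
  have hsmall : ∀ p : ℕ, p.Prime → p ^ A.index.factorization p ≤
      p ^ n.factorial.factorization p * 12 ^ n := fun p hp => by
    have : Fact p.Prime := ⟨hp⟩
    obtain ⟨P⟩ : Nonempty (Sylow p G) := inferInstance
    have := P.isPGroup'.isNilpotent
    obtain ⟨B, -, b2, b3⟩ := exists_normal_index_dvd_factorial (hχ.restrict P)
    rw [charKer_eq_bot fun g hg => Subtype.ext (hf g hg), le_bot_iff,
      commutator_eq_bot_iff_le_centralizer] at b2
    have b4 := hH (B.map (P : Subgroup G).subtype) (by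
      rintro _ ⟨x, hx, rfl⟩ _ ⟨y, hy, rfl⟩
      rw [← map_mul, ← map_mul, b2 hy x hx])
    have b5 := (Nat.ordProj_dvd _ p).trans (hdv (B.map (P : Subgroup G).subtype))
    rw [index_map_subtype, ← mul_assoc] at b5
    have b6 := (Nat.Coprime.pow_left _
      (hp.coprime_iff_not_dvd.2 P.not_dvd_index)).dvd_of_dvd_mul_right b5
    obtain ⟨k, hk⟩ := P.isPGroup'.index B
    have b7 := b3 n hn
    rw [hk] at b7
    have b8 : B.index ≤ p ^ n.factorial.factorization p := by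
      rw [hk]
      exact Nat.pow_le_pow_right hp.pos
        ((hp.pow_dvd_iff_le_factorization n.factorial_ne_zero).1 b7)
    refine (Nat.le_of_dvd (Nat.pos_of_ne_zero (mul_ne_zero ?_ B.index_ne_zero_of_finite))
      b6).trans ?_
    · exact index_ne_zero_of_finite
    · rw [mul_comm]
      exact Nat.mul_le_mul b8 b4
  obtain ⟨H, h1, h2, h3⟩ := blichfeldt hχ hf hn
  set T := A.index.primeFactors with hT
  have hlarge : ∏ p ∈ T with ¬ p ≤ n + 1, p ^ A.index.factorization p ≤ 12 ^ n := by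
    have b1 : ∏ p ∈ T with ¬ p ≤ n + 1, p ^ A.index.factorization p ∣ A.index := by
      nth_rewrite 2 [← Nat.prod_factorization_pow_eq_self h0]
      exact Finset.prod_dvd_prod_of_subset _ _ _ (Finset.filter_subset _ _)
    have b3 : (∏ p ∈ T with ¬ p ≤ n + 1, p ^ A.index.factorization p).Coprime H.index :=
      Nat.Coprime.prod_left fun p hp => Nat.Coprime.pow_left _
      ((Nat.prime_of_mem_primeFactors (Finset.mem_filter.1 hp).1).coprime_iff_not_dvd.2 fun h =>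
        (Finset.mem_filter.1 hp).2 (h3 p (Nat.prime_of_mem_primeFactors
          (Finset.mem_filter.1 hp).1) h))
    have b2 := b3.dvd_of_dvd_mul_right (b1.trans (hdv H))
    exact (Nat.le_of_dvd (Nat.pos_of_ne_zero index_ne_zero_of_finite) b2).trans (hH H h1)
  have hs1 : ∏ p ∈ T with p ≤ n + 1, p ^ n.factorial.factorization p ≤ n.factorial := by
    refine Nat.le_of_dvd n.factorial_pos (Finset.prod_dvd_of_isRelPrime ?_ fun p _ =>
      Nat.ordProj_dvd _ p)
    intro p hp q hq hne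
    exact Nat.coprime_iff_isRelPrime.1 (Nat.coprime_pow_primes _ _
      (Nat.prime_of_mem_primeFactors (Finset.mem_filter.1 hp).1)
      (Nat.prime_of_mem_primeFactors (Finset.mem_filter.1 hq).1) hne)
  have hs2 : (T.filter fun p => p ≤ n + 1).card ≤ Nat.primeCounting (n + 1) := by
    rw [← Nat.primesLE_card_eq_primeCounting]
    exact Finset.card_le_card fun p hp => Nat.mem_primesLE.2
      ⟨(Finset.mem_filter.1 hp).2, Nat.prime_of_mem_primeFactors (Finset.mem_filter.1 hp).1⟩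
  calc A.index = ∏ p ∈ T, p ^ A.index.factorization p :=
        (Nat.prod_factorization_pow_eq_self h0).symm
    _ = (∏ p ∈ T with p ≤ n + 1, p ^ A.index.factorization p) *
        ∏ p ∈ T with ¬ p ≤ n + 1, p ^ A.index.factorization p :=
        (Finset.prod_filter_mul_prod_filter_not _ _ _).symm
    _ ≤ (∏ p ∈ T with p ≤ n + 1, (p ^ n.factorial.factorization p * 12 ^ n)) * 12 ^ n :=
        Nat.mul_le_mul (Finset.prod_le_prod' fun p hp =>
          hsmall p (Nat.prime_of_mem_primeFactors (Finset.mem_filter.1 hp).1)) hlarge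
    _ ≤ n.factorial * (12 ^ n) ^ Nat.primeCounting (n + 1) * 12 ^ n := by
        rw [Finset.prod_mul_distrib, Finset.prod_const]
        exact Nat.mul_le_mul_right _ (Nat.mul_le_mul hs1 (Nat.pow_le_pow_right (by positivity) hs2))
    _ = _ := by ring

theorem deg_eq {χ : G → ℂ} (hχ : IsCharacter G χ) {n : ℕ} (hn : charDegree χ = n) : χ 1 = n := by
  obtain ⟨d, hd⟩ := hχ.exists_nat_one
  rw [← hn, charDegree, hd]; simp

end H21
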