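import Cfsg.Agent.H21.Leo1
import Cfsg.Agent.H21.PG1

/-! The Brauer-Leonard inequalities for an abelian subgroup with isolated conjugates. -/

set_option autoImplicit false
set_option linter.unusedSectionVars false

open H17 Cfsg H15 CF Subgroup
open scoped ComplexConjugate commutatorElement

namespace H21

variable {G : Type*} [Group G] [Finite G] {H N : Subgroup G} {χ : G → ℂ}

/-- average over the cosets of `H`, cut down to `N` -/
noncomputable def cavg (N H : Subgroup G) (χ : G → ℂ) : G → ℂ :=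
  fun g => (Nat.card H : ℂ)⁻¹ * ∑ h ∈ fs (H : Set G), Res (N : Set G) χ (h * g)

theorem le_cfker_cavg (N H : Subgroup G) (χ : G → ℂ) : H ≤ cfker (cavg N H χ) := fun h hh =>
  mem_cfker.2 fun x => by
    unfold cavg
    rw [← sum_mul_right hh fun y => Res (N : Set G) χ (y * x)]
    simp only [mul_assoc]

theorem cavg_mem_cf (hHN : H ≤ N) (hn : N ≤ 𝒩(H)) (hχ : χ ∈ cf ⊤) : cavg N H χ ∈ cf N := by
  have h0 := Res_mem_cf (H := N) le_top hχ
  refine mem_cf.2 ⟨fun x hx => ?_, fun x g hg => ?_⟩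
  · unfold cavg
    rw [sum_fs_eq_zero fun h hh => cf_zero h0 fun e => hx ((mul_mem_cancel_left (hHN hh)).1 e), mul_zero]
  · unfold cavg
    rw [← sum_conj_norm (hn hg) fun y => Res (N : Set G) χ (y * (g * x * g⁻¹))]
    congr 1
    refine sum_fs_congr fun y _ => ?_
    rw [← cf_conj h0 (y * x) hg]
    group

theorem dot_cavg (hHN : H ≤ N) (χ : G → ℂ) {φ : G → ℂ} (hφ : H ≤ cfker φ) :
    dot N (cavg N H χ) φ = dot N χ φ := by
  have h1 : ∀ h ∈ fs (H : Set G), ∑ x ∈ fs (N : Set G), Res (N : Set G) χ (h * x) * conj (φ x) =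
      ∑ x ∈ fs (N : Set G), χ x * conj (φ x) := fun h hh => by
    have hh := mem_fs.1 hh
    rw [← sum_mul_left (hHN hh) fun x => χ x * conj (φ x)]
    exact sum_fs_congr fun x hx => by rw [Res_of_mem _ (mul_mem (hHN hh) hx), cfker_mul_left (hφ hh)]
  rw [dot_def, dot_def]
  congr 1
  unfold cavg
  simp only [mul_assoc, Finset.sum_mul, ← Finset.mul_sum]
  rw [Finset.sum_comm, Finset.sum_congr rfl h1, sum_sub_const, ← mul_assoc, inv_mul_cancel₀ (card_ne H), one_mul]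

theorem cavg_mem_vchar (hHN : H ≤ N) (hn : N ≤ 𝒩(H)) (hχ : IsChar ⊤ χ) : cavg N H χ ∈ vchar N := by
  rw [cf_eq_sum_IrrQ (cavg_mem_cf hHN hn hχ.cf) (le_cfker_cavg N H χ)]
  refine Submodule.sum_mem _ fun θ hθ => smul_mem_of_int (irr_vchar (mem_IrrQ.1 hθ).1) ?_
  rw [dot_cavg hHN _ (mem_IrrQ.1 hθ).2]
  exact vchar_dot_int_of_le le_top hχ.vchar (irr_vchar (mem_IrrQ.1 hθ).1)

theorem cavg_of_fpf (hHN : H ≤ N) (hn : N ≤ 𝒩(H)) (hχ : χ ∈ cf ⊤) {g : G} (hg : g ∈ N)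
    (h : ∀ d ∈ H, g * d = d * g → d = 1) : cavg N H χ g = χ g := by
  have h0 : ∀ d : H, ⁅(d : G), g⁆ ∈ H := fun d =>
    comm_le_left hn (commutator_mem_commutator d.2 hg)
  have h1 : Function.Surjective fun d : H => (⟨_, h0 d⟩ : H) := Finite.injective_iff_surjective.1 fun a b e => by
    have e : (a : G) * g * (a : G)⁻¹ = b * g * (b : G)⁻¹ := mul_right_cancel (congrArg Subtype.val e)
    refine Subtype.ext (inv_mul_eq_one.1 (h _ (mul_mem (inv_mem b.2) a.2) ?_)).symm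
    calc _ = (b : G)⁻¹ * (b * g * (b : G)⁻¹) * a := by group
      _ = _ := by rw [← e]; group
  unfold cavg
  rw [sum_fs_congr (g := fun _ => χ g) fun n hn => by
    obtain ⟨d, hd⟩ := h1 ⟨n, hn⟩
    rw [Res_of_mem _ (mul_mem (hHN hn) hg), ← show ⁅(d : G), g⁆ = n from congrArg Subtype.val hd]
    simpa [commutatorElement_def] using cf_conj hχ g (mem_top (d : G)), sum_sub_const, ← mul_assoc,
    inv_mul_cancel₀ (card_ne H), one_mul]

/-- the centralizer of a noncentral element meets at most one conjugate of `H` -/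
def Isol (H : Subgroup G) : Prop :=
  ∀ g : G, g ∉ center G → ∀ a b : G, 𝒞₁(g) ⊓ cj(a, H) ≠ ⊥ → 𝒞₁(g) ⊓ cj(b, H) ≠ ⊥ → cj(a, H) = cj(b, H)

theorem Isol.bl1 (hI : Isol H) (hab : ∀ a ∈ H, ∀ b ∈ H, a * b = b * a) (hZ : H ⊓ center G = ⊥)
    (hχ : χ ∈ Irr ⊤) (hk : ¬ H ≤ cfker χ) :
    (Nat.card H : ℝ) * (dot H χ (one H)).re ^ 2 < (χ 1).re ^ 2 := by
  classical
  have := Fintype.ofFinite G
  set N := 𝒩(H)
  have hHN : H ≤ N := le_norm_self H
  set S : Set G := {g | g ∉ center G ∧ ∃ h ∈ H, h ≠ 1 ∧ g * h = h * g} with hS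
  have hTI : ∀ x ∈ S, ∀ g, g * x * g⁻¹ ∈ S → g ∈ N := by
    rintro x ⟨-, h, hh, h1, e⟩ g ⟨h2, k, hk, k1, e'⟩
    rw [mem_norm_iff_cj, hI _ h2 g 1, cj_one]
    · refine fun h3 => h1 ?_
      have : g * h * g⁻¹ ∈ (⊥ : Subgroup G) := h3 ▸ ⟨mem_cent1.2 (by
        calc _ = g * (h * x) * g⁻¹ := by group
          _ = _ := by rw [← e]; group), conj_mem_cj hh⟩
      simpa using this
    · exact fun h3 => k1 (mem_bot.1 (h3 ▸ ⟨mem_cent1.2 e'.symm, by rwa [cj_one]⟩))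
  have hSN : S ⊆ N := fun x hx => hTI x hx x (by simpa using hx)
  have hZN : center G ≤ N := fun z hz => cent_le_norm H (mem_cent.2 fun h _ => mem_center_iff.1 hz h)
  have hc := irr_char hχ
  obtain ⟨lam, hlam⟩ := (mem_Irr_top.1 hχ).exists_linear_center
  have hl : ∀ z : center G, ‖(lam z : ℂ)‖ = 1 := fun z =>
    Complex.norm_eq_one_of_pow_eq_one (n := Nat.card (center G))
      (by rw [← Units.val_pow_eq_pow_val, ← map_pow, pow_card_eq_one', map_one, Units.val_one]) Nat.card_pos.ne'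
  have h1 : Nat.card G * ∑ x ∈ fs S, ‖χ x‖ ^ 2 < Nat.card N * (Nat.card G : ℝ) := by
    refine (sum_TI_le (fs S) id N (Set.injOn_id _) (fun x hx e => (mem_fs.1 hx).1 (by
      rw [show x = 1 from e]; exact one_mem _)) (fun x hx y hy g e => hTI x (mem_fs.1 hx) g (by
        rw [show g * x * g⁻¹ = y from e]; exact mem_fs.1 hy)) (f := fun g => ‖χ g‖ ^ 2) (fun g => by positivity)
        fun g c => by rw [cf_conj hc.cf g (mem_top c)]).trans_lt (mul_lt_mul_of_pos_left ?_ (card_pos' N))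
    rw [← (mem_Irr_top.1 hχ).sum_norm_sq, Finset.filter_ne', ← Finset.sum_erase_add _ _ (Finset.mem_univ 1)]
    exact lt_add_of_pos_right _ (pow_pos (norm_pos_iff.2 (irr_one_ne hχ)) 2)
  rw [mul_comm] at h1
  replace h1 := lt_of_mul_lt_mul_right h1 (Nat.cast_nonneg _)
  have hU : S ∪ center G ⊆ N := Set.union_subset hSN hZN
  have h2 : ∑ x ∈ fs ((center G : Subgroup G) : Set G), ‖χ x‖ ^ 2 = Nat.card (center G) * (χ 1).re ^ 2 := by
    rw [← sum_sub_const]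
    refine sum_fs_congr fun z hz => ?_
    have := hlam ⟨z, hz⟩ 1
    obtain ⟨n, hn⟩ := hc.exists_nat_one
    rw [mul_one] at this
    rw [this, norm_mul, hl, hn]
    simp
  set A := cavg N H χ
  have hA : A ∈ vchar N := cavg_mem_vchar hHN le_rfl hc
  have h3 : ∑ x ∈ fs ((N : Set G) \ (S ∪ center G)), ‖A x‖ ^ 2 =
      ∑ x ∈ fs ((N : Set G) \ (S ∪ center G)), ‖χ x‖ ^ 2 := sum_fs_congr fun x hx => by
    rw [show A x = χ x from cavg_of_fpf hHN le_rfl hc.cf hx.1 fun d hd e => by_contra fun d1 =>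
      hx.2 (or_iff_not_imp_right.2 fun hz => ⟨hz, d, hd, d1, e⟩)]
  have h4 : (Nat.card H : ℝ) * Nat.card (center G) * (dot H χ (one H)).re ^ 2 ≤
      ∑ x ∈ fs (S ∪ center G), ‖A x‖ ^ 2 := by
    have h5 : ∀ x ∈ H ⊔ center G, ∃ h ∈ H, ∃ z ∈ center G, h * z = x := fun x hx => by
      rwa [← SetLike.mem_coe, mul_normal] at hx
    rw [← Nat.cast_mul, ← H1.card_sup_of_disjoint le_normalizer_of_normal hZ, ← sum_sub_const,
      sum_fs_congr (g := fun x => ‖A x‖ ^ 2) fun x hx => ?_]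
    · refine Finset.sum_le_sum_of_subset_of_nonneg (fs_mono fun x hx => ?_) fun _ _ _ => by positivity
      obtain ⟨h, hh, z, hz, rfl⟩ := h5 x hx
      refine or_iff_not_imp_right.2 fun h6 => ⟨h6, h, hh, fun e => h6 (by simpa [e] using hz), ?_⟩
      rw [mul_assoc, mem_center_iff.1 hz h]
    · obtain ⟨h, hh, z, hz, rfl⟩ := h5 x hx
      obtain ⟨c, hc'⟩ := IsChar.dot_nat_of_le (H := H) le_top hc isChar_one
      have : A z = lam ⟨z, hz⟩ * c := by
        rw [← hc', dot_one_right, mul_left_comm, Finset.mul_sum]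
        unfold A cavg
        congr 1
        refine sum_fs_congr fun y hy => ?_
        rw [Res_of_mem _ (mul_mem (hHN hy) (hZN hz)), mem_center_iff.1 hz y]
        exact hlam ⟨z, hz⟩ y
      rw [show A (h * z) = A z from cfker_mul_left (le_cfker_cavg N H χ hh) z, this, norm_mul, hl, hc']
      simp
  have hB : Res (N : Set G) χ - A ∈ vchar N := sub_mem (Res_mem_vchar le_top hc.vchar) hA
  have h5 : 1 ≤ nrm N (Res (N : Set G) χ - A) := vchar_one_le_nrm hB fun e => hk (by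
    rw [← hc.le_cfker_Res_iff hHN, sub_eq_zero.1 e]
    exact le_cfker_cavg N H χ)
  have h6 : nrm N (Res (N : Set G) χ) = nrm N (Res (N : Set G) χ - A) + nrm N A := by
    rw [← nrm_add_of_orth, sub_add_cancel]
    rw [dot_sub_left, dot_Res_left, dot_cavg hHN χ (le_cfker_cavg N H χ), sub_self]
  rw [nrm_eq A, nrm_eq (Res _ χ), sum_fs_congr (g := fun x => ‖χ x‖ ^ 2) fun x hx => by rw [Res_of_mem _ hx],
    sum_fs_diff hU, sum_fs_diff hU, h3, sum_fs_union (Set.disjoint_left.2 fun x hx => hx.1), h2] at h6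
  have h7 := card_pos' N
  have h8 := card_pos' (center G)
  field_simp at h6
  nlinarith

theorem Isol.bl2 (hI : Isol H) (hab : ∀ a ∈ H, ∀ b ∈ H, a * b = b * a) (hZ : H ⊓ center G = ⊥)
    (hχ : χ ∈ Irr ⊤) (h1 : χ 1 ≠ 1) (hM : ∀ M : Subgroup G, M.Normal → H ≤ M → M = ⊤) :
    (Nat.card H : ℝ) < (1 + (χ 1).re) ^ 2 := by
  classical
  by_contra! h
  have hc := irr_char hχ
  obtain ⟨n, hn0, hn⟩ := irr_pos_one hχ
  obtain ⟨m, hm, e⟩ := (hc.mul hc.star).exists_coeff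
  choose! d hd0 hd using fun ψ (hψ : ψ ∈ Irr (⊤ : Subgroup G)) => irr_pos_one hψ
  choose! c hc' using fun ψ (hψ : ψ ∈ Irr (⊤ : Subgroup G)) =>
    IsChar.dot_nat_of_le (H := H) le_top (irr_char hψ) isChar_one
  have h2 : ∀ ψ ∈ (Irr (⊤ : Subgroup G)).erase (one ⊤), (1 + n) * c ψ + 1 ≤ d ψ := fun ψ hψ => by
    obtain ⟨h3, hψ⟩ := Finset.mem_erase.1 hψ
    have := hI.bl1 hab hZ hψ fun h4 => h3 (irr_eq_one_of_le_cfker hψ (hM _ (normalizer_eq_top_iff.1
      (top_le_iff.1 (le_norm_cfker (irr_cf hψ)))) h4).ge)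
    rw [hc' ψ hψ, hd ψ hψ] at this
    rw [hn] at h
    simp only [Complex.natCast_re] at this h
    have h5 : (((1 + n) * c ψ : ℕ) : ℝ) ^ 2 < (d ψ : ℝ) ^ 2 := by
      push_cast
      nlinarith [sq_nonneg (c ψ : ℝ)]
    exact_mod_cast lt_of_pow_lt_pow_left₀ 2 (Nat.cast_nonneg _) h5
  have hm1 : m (one ⊤) = 1 := by
    have := hm _ (one_mem_Irr ⊤)
    rw [← dot_eq_dot_one, dot_irr_self hχ] at this
    exact_mod_cast this.symm
  have h3 : n * n = ∑ ψ ∈ (Irr (⊤ : Subgroup G)).erase (one ⊤), m ψ * d ψ + 1 := by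
    have := congrFun e 1
    rw [← Finset.sum_erase_add _ _ (one_mem_Irr ⊤), Pi.add_apply, Finset.sum_apply, Finset.sum_congr rfl
      (g := fun ψ => (m ψ : ℂ) * d ψ) fun ψ hψ => by
        rw [Pi.smul_apply, hd ψ (Finset.mem_of_mem_erase hψ), smul_eq_mul], hm1] at this
    simp only [Pi.mul_apply, Pi.star_apply, hn, star_natCast, Pi.smul_apply, one_one, Nat.cast_one, smul_eq_mul,
      mul_one] at this
    exact_mod_cast this
  have h4 : n ≤ ∑ ψ ∈ (Irr (⊤ : Subgroup G)).erase (one ⊤), m ψ * c ψ + 1 := by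
    have h5 := congrArg (dot H · (one H)) e
    obtain ⟨k, hk, e'⟩ := (hc.Res (H := H) le_top).exists_coeff
    have hH : IsMulCommutative H := comm_of_le_cent fun a ha => mem_cent.2 fun b hb => hab b hb a ha
    have h6 := congrFun e' 1
    rw [Res_one, hn, Finset.sum_apply, Finset.sum_congr rfl (g := fun ψ => (k ψ : ℂ)) fun ψ hψ => by
      rw [Pi.smul_apply, irr_one_of_comm hH hψ, smul_eq_mul, mul_one]] at h6
    rw [← dot_eq_dot_one, ← dot_Res_left, ← dot_Res_right, dot_eq_sum (hc.Res le_top).cf, Finset.sum_congr rfl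
      (g := fun ψ => (k ψ : ℂ) * k ψ) fun ψ hψ => by rw [hk ψ hψ, map_natCast],
      ← Finset.sum_erase_add _ _ (one_mem_Irr ⊤), dot_add_left, dot_sum_left, Finset.sum_congr rfl
      (s₁ := Finset.erase _ _) (g := fun ψ => (m ψ : ℂ) * c ψ) fun ψ hψ => by
        rw [dot_smul_left, hc' ψ (Finset.mem_of_mem_erase hψ)], hm1, Nat.cast_one, one_smul,
      ← dot_Res_left (H := H) (one ⊤), Res_one_of_le le_top, dot_one_one] at h5
    have h7 : n = ∑ ψ ∈ Irr H, k ψ := by exact_mod_cast h6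
    have h8 : ∑ ψ ∈ Irr H, k ψ * k ψ = ∑ ψ ∈ (Irr (⊤ : Subgroup G)).erase (one ⊤), m ψ * c ψ + 1 := by
      exact_mod_cast h5
    rw [← h8, h7]
    exact Finset.sum_le_sum fun ψ _ => Nat.le_mul_self _
  have h5 : (1 + n) * ∑ ψ ∈ (Irr (⊤ : Subgroup G)).erase (one ⊤), m ψ * c ψ +
      ∑ ψ ∈ (Irr (⊤ : Subgroup G)).erase (one ⊤), m ψ ≤
      ∑ ψ ∈ (Irr (⊤ : Subgroup G)).erase (one ⊤), m ψ * d ψ := by
    rw [Finset.mul_sum, ← Finset.sum_add_distrib]
    exact Finset.sum_le_sum fun ψ hψ => by nlinarith [Nat.mul_le_mul_left (m ψ) (h2 ψ hψ)]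
  have h6 : ∑ ψ ∈ (Irr (⊤ : Subgroup G)).erase (one ⊤), m ψ = 0 :=
    Nat.le_zero.1 (by nlinarith [Nat.mul_le_mul_left (1 + n) h4])
  rw [Finset.sum_eq_zero fun ψ hψ => by rw [Finset.sum_eq_zero_iff.1 h6 ψ hψ, zero_mul]] at h3
  exact h1 (by rw [hn, (Nat.eq_one_of_mul_eq_one_left h3), Nat.cast_one])

end H21
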