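import Cfsg.Agent.H21.TISyl
import Cfsg.Agent.H17.Square
import Cfsg.Agent.H2.Frob

set_option autoImplicit false
set_option linter.unusedSectionVars false
open Cfsg H17 Subgroup
open scoped ComplexConjugate

namespace H21

theorem sum_norm_sq_of_coeff {X : Type*} [Group X] [Fintype X] {F : X → ℂ}
    (hF : IsClassFunction X F) {c : IrrCharacter X → ℤ}
    (hc : ∀ χ : IrrCharacter X, classInner F χ = c χ) :
    ∑ x, ‖F x‖ ^ 2 = Nat.card X * ((∑ χ, c χ ^ 2 : ℤ) : ℝ) := by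
  have h1 := inner_eq_sum_coeff hF hc hc
  have h2 := classInner_self_re F
  rw [h1, Complex.intCast_re] at h2
  have h3 : (Nat.card X : ℝ) ≠ 0 := Nat.cast_ne_zero.2 Nat.card_pos.ne'
  simp only [sq (c _)]
  rw [h2]
  field_simp

theorem supp_mul_le {ι : Type*} [Fintype ι] (b : ι → ℤ) :
    ((Finset.univ.filter fun i => b i ≠ 0).card : ℤ) *
      (Fintype.card ι - (Finset.univ.filter fun i => b i ≠ 0).card) ≤
      Fintype.card ι * ∑ i, b i ^ 2 - (∑ i, b i) ^ 2 := by
  set S := Finset.univ.filter fun i => b i ≠ 0 with hS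
  have h1 : ∑ i ∈ S, b i = ∑ i, b i := Finset.sum_filter_ne_zero _
  have h2 : ∑ i ∈ S, b i ^ 2 = ∑ i, b i ^ 2 :=
    Finset.sum_filter_of_ne fun i _ h h0 => h (by rw [h0]; simp)
  have h3 := sq_sum_le_card_mul_sum_sq (s := S) (f := b)
  have h4 : (S.card : ℤ) ≤ ∑ i ∈ S, b i ^ 2 := by
    rw [Finset.card_eq_sum_ones, Nat.cast_sum]
    refine Finset.sum_le_sum fun i hi => ?_
    have := (Finset.mem_filter.1 hi).2
    have := sq_pos_of_ne_zero this
    simp only [Nat.cast_one]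
    omega
  have h5 : (S.card : ℤ) ≤ Fintype.card ι := by exact_mod_cast Finset.card_le_univ S
  rw [← h1, ← h2]
  nlinarith

section prod
variable {P V : Type*} [Group P] [Group V] [Fintype P] [Fintype V]

noncomputable instance instFintypeLin {X : Type*} [Group X] [Finite X] : Fintype (X →* ℂˣ) :=
  @Fintype.ofFinite _ finite_monoidHom_units

/-- product of a linear character and an irreducible character -/
def tens (l : P →* ℂˣ) (ν : IrrCharacter V) : IrrCharacter (P × V) :=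
  ⟨fun y => (l y.1 : ℂ) * (ν : V → ℂ) y.2, (isIrr_linear l).prod ν.2⟩

theorem lin_inner (l k : P →* ℂˣ) [Decidable (l = k)] :
    classInner (fun u => (l u : ℂ)) (fun u => (k u : ℂ)) = if l = k then 1 else 0 := by
  split_ifs with h
  · rw [h]; exact (isIrr_linear k).inner_self
  · exact (isIrr_linear l).inner_of_ne (isIrr_linear k) fun h' =>
      h (MonoidHom.ext fun u => Units.ext (congrFun h' u))

theorem tens_bij (hP : ∀ a b : P, a * b = b * a) :
    Function.Bijective fun x : (P →* ℂˣ) × IrrCharacter V => tens x.1 x.2 := by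
  classical
  refine ⟨fun x y h => ?_, fun χ => ?_⟩
  · have h1 := (tens y.1 y.2).2.inner_self
    simp only at h
    nth_rewrite 1 [← h] at h1
    have h2 := classInner_prod (fun u => (x.1 u : ℂ)) (fun u => (y.1 u : ℂ)) x.2.1 y.2.1
    rw [lin_inner, irr_inner] at h2
    have h3 := h2.symm.trans h1
    split_ifs at h3 with a b
    · exact Prod.ext a b
    all_goals simp at h3
  · obtain ⟨φ, ψ, h1, h2, e⟩ := χ.2.exists_prod
    obtain ⟨l, rfl⟩ := h1.exists_linear_of_comm hP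
    exact ⟨(l, ⟨ψ, h2⟩), Subtype.ext e.symm⟩

theorem card_lin (hP : ∀ a b : P, a * b = b * a) : Fintype.card (P →* ℂˣ) = Nat.card P := by
  rw [← Nat.card_eq_fintype_card, card_monoidHom_units]
  have : commutator P = ⊥ := by
    rw [commutator_eq_bot_iff]; exact ⟨⟨hP⟩⟩
  rw [this, index_bot]

theorem lin_bij (hP : ∀ a b : P, a * b = b * a) :
    Function.Bijective fun l : P →* ℂˣ => (⟨_, isIrr_linear l⟩ : IrrCharacter P) := by
  refine ⟨fun l k h => MonoidHom.ext fun u => Units.ext (congrFun (congrArg Subtype.val h) u),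
    fun χ => ?_⟩
  obtain ⟨l, h⟩ := χ.2.exists_linear_of_comm hP
  exact ⟨l, Subtype.ext h.symm⟩

theorem expand_lin (hP : ∀ a b : P, a * b = b * a) (F : P → ℂ) (u : P) :
    F u = ∑ l : P →* ℂˣ, classInner F (fun u => (l u : ℂ)) * l u := by
  have hF : IsClassFunction P F := fun g h => by rw [hP h g, mul_inv_cancel_right]
  rw [hF.apply_eq_sum u, ← (lin_bij hP).sum_comp]

variable {F : P × V → ℂ} {b : (P →* ℂˣ) → IrrCharacter V → ℤ}

theorem expand_prod (hP : ∀ a b : P, a * b = b * a) (hF : IsClassFunction (P × V) F)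
    (hb : ∀ l ν, classInner F (tens l ν) = b l ν) (y : P × V) :
    F y = ∑ l, ∑ ν, (b l ν : ℂ) * ((l y.1 : ℂ) * (ν : V → ℂ) y.2) := by
  rw [hF.apply_eq_sum y, ← (tens_bij hP).sum_comp, Fintype.sum_prod_type]
  simp only [hb]
  rfl

theorem sum_sq_prod (hP : ∀ a b : P, a * b = b * a) (hF : IsClassFunction (P × V) F)
    (hb : ∀ l ν, classInner F (tens l ν) = b l ν) :
    ∑ y, ‖F y‖ ^ 2 = Nat.card P * Nat.card V * ((∑ ν, ∑ l, b l ν ^ 2 : ℤ) : ℝ) := by
  let e := Equiv.ofBijective _ (tens_bij (V := V) hP)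
  rw [sum_norm_sq_of_coeff hF (c := fun χ => b (e.symm χ).1 (e.symm χ).2) (fun χ => by
    rw [← hb]; congr 2; exact (e.apply_symm_apply χ).symm), Nat.card_prod, Nat.cast_mul,
    ← e.sum_comp, Fintype.sum_prod_type, Finset.sum_comm]
  simp only [Equiv.symm_apply_apply]

theorem sum_sq_right (hP : ∀ a b : P, a * b = b * a) (hF : IsClassFunction (P × V) F)
    (hb : ∀ l ν, classInner F (tens l ν) = b l ν) :
    ∑ v, ‖F (1, v)‖ ^ 2 = Nat.card V * ((∑ ν, (∑ l, b l ν) ^ 2 : ℤ) : ℝ) := by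
  refine sum_norm_sq_of_coeff (hF.comp (MonoidHom.inr P V)) fun ν => ?_
  rw [← classInner_sum_irr (fun ν => ((∑ l, b l ν : ℤ) : ℂ)) ν]
  congr 1
  funext v
  rw [expand_prod hP hF hb, Finset.sum_comm, Finset.sum_apply]
  refine Finset.sum_congr rfl fun ν _ => ?_
  simp [Finset.sum_mul]

theorem sum_sq_off [DecidableEq P] (hP : ∀ a b : P, a * b = b * a)
    (hF : IsClassFunction (P × V) F) (hb : ∀ l ν, classInner F (tens l ν) = b l ν) :
    ∑ y with y.1 ≠ 1, ‖F y‖ ^ 2 =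
      Nat.card V * ((∑ ν, (Nat.card P * ∑ l, b l ν ^ 2 - (∑ l, b l ν) ^ 2) : ℤ) : ℝ) := by
  have h1 := Finset.sum_filter_add_sum_filter_not Finset.univ (fun y : P × V => y.1 ≠ 1)
    fun y => ‖F y‖ ^ 2
  have h2 : ∑ y with ¬ y.1 ≠ 1, ‖F y‖ ^ 2 = ∑ v, ‖F (1, v)‖ ^ 2 := by
    rw [Finset.sum_filter, Fintype.sum_prod_type, Finset.sum_eq_single 1 (fun u _ hu => by
      simp [hu]) (by simp)]
    simp
  rw [h2, sum_sq_prod hP hF hb, sum_sq_right hP hF hb] at h1
  rw [eq_sub_of_add_eq h1, Finset.sum_sub_distrib, ← Finset.mul_sum]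
  push_cast
  ring

theorem inner_left (hP : ∀ a b : P, a * b = b * a) (hF : IsClassFunction (P × V) F)
    (hb : ∀ l ν, classInner F (tens l ν) = b l ν) (l : P →* ℂˣ) :
    classInner (fun u => F (u, 1)) (fun u => (l u : ℂ)) = ∑ ν, (b l ν : ℂ) * (ν : V → ℂ) 1 := by
  classical
  have h1 : (fun u => F (u, 1)) = ∑ k : P →* ℂˣ, (∑ ν, (b k ν : ℂ) * (ν : V → ℂ) 1) •
      fun u => (k u : ℂ) := by
    funext u
    rw [expand_prod hP hF hb, Finset.sum_apply]
    refine Finset.sum_congr rfl fun k _ => ?_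
    simp only [Pi.smul_apply, smul_eq_mul, Finset.sum_mul]
    exact Finset.sum_congr rfl fun ν _ => by ring
  rw [h1, classInner_sum_left]
  simp only [classInner_smul_left, lin_inner, mul_ite, mul_one, mul_zero, Finset.sum_ite_eq',
    Finset.mem_univ, if_true]

end prod

section free
variable {P : Type*} [Group P] [Finite P] {E : Subgroup (MulAut P)}

theorem card_dvd_pred_of_free (h : ∀ σ ∈ E, ∀ u, σ u = u → u ≠ 1 → σ = 1) :
    Nat.card E ∣ Nat.card P - 1 := by
  classical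
  have := Fintype.ofFinite P
  have h1 := H2.card_dvd_of_free (A := E) (X := P) {u | u ≠ 1}
    (fun σ u hu h0 => hu ((MulEquiv.map_eq_one_iff σ.1).1 h0))
    (fun σ u hu h0 => Subtype.ext (h σ σ.2 u h0 hu))
  have h2 : Nat.card {u : P | u ≠ 1} = Nat.card P - 1 := by
    rw [Nat.card_eq_fintype_card, Nat.card_eq_fintype_card]
    exact (Fintype.card_subtype_compl (fun u : P => u = 1)).trans (by simp)
  rwa [h2] at h1

theorem lin_comp_injective (hP : ∀ a b : P, a * b = b * a)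
    (h : ∀ σ ∈ E, ∀ u, σ u = u → u ≠ 1 → σ = 1) {l : P →* ℂˣ} (hl : l ≠ 1) :
    Function.Injective fun σ : E => l.comp (σ : MulAut P).toMonoidHom := by
  intro σ τ hστ
  by_contra hne
  have h1 : Function.Injective fun u => (σ : MulAut P) u * ((τ : MulAut P) u)⁻¹ := fun u v huv => by
    by_contra huv'
    have h2 : (σ : MulAut P) (v⁻¹ * u) = (τ : MulAut P) (v⁻¹ * u) := by
      simp only at huv
      rw [map_mul, map_mul, map_inv, map_inv, eq_mul_of_mul_inv_eq huv, ← mul_assoc, ← mul_assoc,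
        inv_mul_cancel, one_mul]
    have h3 := h _ (τ⁻¹ * σ).2 (v⁻¹ * u) (by
      simp only [coe_mul, coe_inv, MulAut.mul_apply, h2, MulAut.inv_apply_self])
      (fun h0 => huv' (inv_mul_eq_one.1 h0).symm)
    exact hne (inv_mul_eq_one.1 (Subtype.ext h3)).symm
  refine hl (MonoidHom.ext fun u => ?_)
  obtain ⟨v, rfl⟩ := Finite.surjective_of_injective h1 u
  have h2 : l ((σ : MulAut P) v) = l ((τ : MulAut P) v) := DFunLike.congr_fun hστ v
  simp [h2]

end free

section TI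
variable {G : Type*} [Group G] [Fintype G]

theorem sum_TI_le {X : Type*} [Fintype X] (S : Finset X) (a : X → G) (N : Subgroup G)
    (ha : Set.InjOn a S) (h1 : ∀ x ∈ S, a x ≠ 1)
    (hN : ∀ x ∈ S, ∀ y ∈ S, ∀ g, g * a x * g⁻¹ = a y → g ∈ N) [DecidableEq G] {f : G → ℝ}
    (hf : ∀ g, 0 ≤ f g) (hc : ∀ g c, f (c * g * c⁻¹) = f g) :
    Nat.card G * ∑ x ∈ S, f (a x) ≤ Nat.card N * ∑ y with y ≠ 1, f y := by
  classical
  have h2 : Nat.card G * ∑ x ∈ S, f (a x) =
      ∑ z ∈ (Finset.univ : Finset G) ×ˢ S, f (z.1 * a z.2 * z.1⁻¹) := by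
    rw [Finset.sum_product]
    simp [hc]
  rw [h2, ← Finset.sum_fiberwise_of_maps_to (t := Finset.univ.filter fun y => y ≠ 1)
    (g := fun z : G × X => z.1 * a z.2 * z.1⁻¹) (fun z hz => by
      simpa using h1 z.2 (Finset.mem_product.1 hz).2), Finset.mul_sum]
  refine Finset.sum_le_sum fun y _ => ?_
  rw [Finset.sum_congr rfl (g := fun _ => f y) (fun z hz => by rw [(Finset.mem_filter.1 hz).2]),
    Finset.sum_const, nsmul_eq_mul]
  refine mul_le_mul_of_nonneg_right (Nat.cast_le.2 ?_) (hf y)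
  rcases Finset.eq_empty_or_nonempty (((Finset.univ : Finset G) ×ˢ S).filter
    fun z => z.1 * a z.2 * z.1⁻¹ = y) with h | ⟨w, hw⟩
  · rw [h]; exact Nat.zero_le _
  obtain ⟨w1, w2⟩ := Finset.mem_filter.1 hw
  rw [Nat.card_eq_fintype_card, Fintype.card_subtype]
  refine Finset.card_le_card_of_injOn (fun z => w.1⁻¹ * z.1) (fun z hz => ?_) fun z hz z' hz' e => ?_
  · obtain ⟨z1, z2⟩ := Finset.mem_filter.1 hz
    refine Finset.mem_coe.2 (Finset.mem_filter.2 ⟨Finset.mem_univ _, hN z.2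
      (Finset.mem_product.1 z1).2 w.2 (Finset.mem_product.1 w1).2 _ ?_⟩)
    have : w.1⁻¹ * z.1 * a z.2 * (w.1⁻¹ * z.1)⁻¹ = w.1⁻¹ * (z.1 * a z.2 * z.1⁻¹) * w.1 := by group
    rw [this, z2, ← w2]; group
  · obtain ⟨z1, z2⟩ := Finset.mem_filter.1 hz
    obtain ⟨z3, z4⟩ := Finset.mem_filter.1 hz'
    have e' : z.1 = z'.1 := mul_left_cancel e
    refine Prod.ext e' (ha (Finset.mem_product.1 z1).2 (Finset.mem_product.1 z3).2 ?_)
    rw [← z4, e'] at z2
    simpa using z2

end TI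

end H21
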