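import Cfsg.Agent.H21.Leo1

set_option autoImplicit false
set_option linter.unusedSectionVars false
open Cfsg H17 Subgroup
open scoped ComplexConjugate

namespace H21

variable {G : Type*} [Group G] [Fintype G] {P V : Subgroup G} [Fintype P] [Fintype V]

/-- The set-up for an abelian subgroup all of whose nonidentity elements have centralizer
`P × V`. -/
structure LS (P V : Subgroup G) [Fintype P] [Fintype V] (e : ℕ) : Prop where
  comm : ∀ a b : P, a * b = b * a
  cent : ∀ (u : P) (v : V), Commute (P.subtype u) (V.subtype v)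
  ineq : ∀ ψ : G → ℂ, IsGeneralizedCharacter G ψ → ψ 1 ≠ 0 →
    ∀ b : (P →* ℂˣ) → IrrCharacter V → ℤ,
    (∀ l ν, classInner (fun y : P × V => ψ (y.1 * y.2)) (tens l ν) = b l ν) → ∀ w : ℤ,
    classInner ψ ψ = w →
      ∑ ν, (Nat.card P * ∑ l, b l ν ^ 2 - (∑ l, b l ν) ^ 2) < e * Nat.card P * w
  orb : ∀ ψ : G → ℂ, IsClassFunction G ψ → ∀ l : P →* ℂˣ, l ≠ 1 →
    classInner (fun u : P => ψ u) (fun u => (l u : ℂ)) ≠ 0 → ∃ S : Finset (P →* ℂˣ), S.card = e ∧
      ∀ k ∈ S, k ≠ 1 ∧ classInner (fun u : P => ψ u) (fun u => (k u : ℂ)) ≠ 0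
  dvd : e ∣ Nat.card P - 1

open Classical in
/-- the linear constituents of the restriction -/
noncomputable def lcon (P : Subgroup G) [Fintype P] (ψ : G → ℂ) : Finset (P →* ℂˣ) :=
  Finset.univ.filter fun l => classInner (fun u : P => ψ u) (fun u => (l u : ℂ)) ≠ 0

theorem mem_lcon {ψ : G → ℂ} {l : P →* ℂˣ} :
    l ∈ lcon P ψ ↔ classInner (fun u : P => ψ u) (fun u => (l u : ℂ)) ≠ 0 := by
  simp [lcon]

variable {e : ℕ}

theorem LS.isChar (h : LS P V e) {ψ : G → ℂ} (hψ : IsCharacter G ψ) :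
    IsCharacter (P × V) fun y => ψ (y.1 * y.2) :=
  hψ.comp (P.subtype.noncommCoprod V.subtype h.cent)

theorem LS.exists_coef (h : LS P V e) {ψ : G → ℂ} (hψ : IsCharacter G ψ) :
    ∃ b : (P →* ℂˣ) → IrrCharacter V → ℕ,
      ∀ l ν, classInner (fun y : P × V => ψ (y.1 * y.2)) (tens l ν) = ((b l ν : ℤ) : ℂ) := by
  choose b hb using fun l ν => (h.isChar hψ).inner_nat (tens l ν).2.isCharacter
  exact ⟨b, fun l ν => by rw [hb]; simp⟩

theorem LS.mem_lcon_iff (h : LS P V e) {ψ : G → ℂ} (hψ : IsCharacter G ψ)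
    {b : (P →* ℂˣ) → IrrCharacter V → ℕ}
    (hb : ∀ l ν, classInner (fun y : P × V => ψ (y.1 * y.2)) (tens l ν) = ((b l ν : ℤ) : ℂ))
    {l : P →* ℂˣ} : l ∈ lcon P ψ ↔ ∃ ν, b l ν ≠ 0 := by
  have h1 := inner_left h.comm (h.isChar hψ).isClassFunction hb l
  simp only [OneMemClass.coe_one, mul_one] at h1
  choose d hd0 hd using fun ν : IrrCharacter V => ν.2.exists_pos_one
  rw [mem_lcon, h1]
  simp only [hd, Int.cast_natCast]
  norm_cast
  rw [Finset.sum_eq_zero_iff]
  push Not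
  exact ⟨fun ⟨ν, _, h⟩ => ⟨ν, left_ne_zero_of_mul h⟩, fun ⟨ν, h⟩ =>
    ⟨ν, Finset.mem_univ _, mul_ne_zero h (hd0 ν).ne'⟩⟩

theorem LS.sum_le_deg (h : LS P V e) {ψ : G → ℂ} (hψ : IsCharacter G ψ) {x : ℕ} (hx : ψ 1 = x)
    {b : (P →* ℂˣ) → IrrCharacter V → ℕ}
    (hb : ∀ l ν, classInner (fun y : P × V => ψ (y.1 * y.2)) (tens l ν) = ((b l ν : ℤ) : ℂ)) :
    ∑ ν, ∑ l, b l ν ≤ x := by
  have h1 := expand_prod h.comm (h.isChar hψ).isClassFunction hb 1
  choose d hd0 hd using fun ν : IrrCharacter V => ν.2.exists_pos_one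
  simp only [Prod.fst_one, Prod.snd_one, OneMemClass.coe_one, mul_one, hx, map_one, Units.val_one,
    one_mul, hd, Int.cast_natCast] at h1
  have h2 : x = ∑ l, ∑ ν, b l ν * d ν := by exact_mod_cast h1
  rw [h2, Finset.sum_comm]
  exact Finset.sum_le_sum fun l _ => Finset.sum_le_sum fun ν _ => Nat.le_mul_of_pos_right _ (hd0 ν)

theorem LS.card_lcon_le (h : LS P V e) {ψ : G → ℂ} (hψ : IsCharacter G ψ)
    {b : (P →* ℂˣ) → IrrCharacter V → ℕ}
    (hb : ∀ l ν, classInner (fun y : P × V => ψ (y.1 * y.2)) (tens l ν) = ((b l ν : ℤ) : ℂ)) :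
    (lcon P ψ).card ≤ ∑ ν, (Finset.univ.filter fun l => b l ν ≠ 0).card := by
  classical
  refine le_trans (Finset.card_le_card fun l hl => ?_) Finset.card_biUnion_le
  obtain ⟨ν, hν⟩ := (h.mem_lcon_iff hψ hb).1 hl
  exact Finset.mem_biUnion.2 ⟨ν, Finset.mem_univ _, Finset.mem_filter.2 ⟨Finset.mem_univ _, hν⟩⟩

theorem LS.supp_le (h : LS P V e) {ψ : G → ℂ} (hψ : IsCharacter G ψ)
    {b : (P →* ℂˣ) → IrrCharacter V → ℕ}
    (hb : ∀ l ν, classInner (fun y : P × V => ψ (y.1 * y.2)) (tens l ν) = ((b l ν : ℤ) : ℂ))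
    (ν : IrrCharacter V) : (Finset.univ.filter fun l => b l ν ≠ 0).card ≤ (lcon P ψ).card :=
  Finset.card_le_card fun l hl => (h.mem_lcon_iff hψ hb).2 ⟨ν, (Finset.mem_filter.1 hl).2⟩

theorem supp_le_sum {ι : Type*} [Fintype ι] (b : ι → ℕ) :
    (Finset.univ.filter fun l => b l ≠ 0).card ≤ ∑ l, b l := by
  rw [Finset.card_eq_sum_ones, Finset.sum_filter]
  refine Finset.sum_le_sum fun l _ => ?_
  split_ifs with h <;> omega

theorem LS.supp_bound (h : LS P V e) (b : (P →* ℂˣ) → IrrCharacter V → ℕ) (ν : IrrCharacter V) :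
    ((Finset.univ.filter fun l => b l ν ≠ 0).card : ℤ) *
      (Nat.card P - (Finset.univ.filter fun l => b l ν ≠ 0).card) ≤
      Nat.card P * ∑ l, (b l ν : ℤ) ^ 2 - (∑ l, (b l ν : ℤ)) ^ 2 := by
  have := supp_mul_le fun l => (b l ν : ℤ)
  simpa only [card_lin h.comm, Nat.cast_ne_zero] using this

theorem LS.supp_le_card (h : LS P V e) (b : (P →* ℂˣ) → IrrCharacter V → ℕ) (ν : IrrCharacter V) :
    (Finset.univ.filter fun l => b l ν ≠ 0).card ≤ Nat.card P :=
  (Finset.card_le_univ _).trans (card_lin h.comm).le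

theorem LS.ineq_irr (h : LS P V e) {ψ : G → ℂ} (hψ : IsIrrCharacter G ψ)
    {b : (P →* ℂˣ) → IrrCharacter V → ℕ}
    (hb : ∀ l ν, classInner (fun y : P × V => ψ (y.1 * y.2)) (tens l ν) = ((b l ν : ℤ) : ℂ)) :
    ∑ ν, ((Finset.univ.filter fun l => b l ν ≠ 0).card : ℤ) *
      (Nat.card P - (Finset.univ.filter fun l => b l ν ≠ 0).card) < e * Nat.card P := by
  have h1 := h.ineq ψ hψ.isGen hψ.one_ne_zero _ hb 1 (by rw [hψ.inner_self]; simp)
  rw [mul_one] at h1
  exact (Finset.sum_le_sum fun ν _ => h.supp_bound b ν).trans_lt h1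

theorem LS.exists_ne_one (h : LS P V e) {ψ : G → ℂ} (hψ : IsCharacter G ψ)
    (hk : ¬ P ≤ charKer ψ) : ∃ l ∈ lcon P ψ, l ≠ 1 := by
  by_contra hcon
  push Not at hcon
  have h1 : ∀ u : P, ψ u = classInner (fun u : P => ψ u) (fun u => ((1 : P →* ℂˣ) u : ℂ)) :=
    fun u => by
      rw [expand_lin h.comm (fun u : P => ψ u) u, Finset.sum_eq_single 1 (fun l _ hl => ?_)
        (by simp)]
      · simp
      · rw [not_not.1 (fun h0 => hl (hcon l (mem_lcon.2 h0))), zero_mul]
  exact hk fun u hu => hψ.mem_charKer.2 ((h1 ⟨u, hu⟩).trans (h1 1).symm)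

theorem LS.le_card_lcon (h : LS P V e) {ψ : G → ℂ} (hψ : IsCharacter G ψ)
    (hk : ¬ P ≤ charKer ψ) : e ≤ (lcon P ψ).card ∧ (1 ∈ lcon P ψ → e + 1 ≤ (lcon P ψ).card) := by
  classical
  obtain ⟨l, hl, hl1⟩ := h.exists_ne_one hψ hk
  obtain ⟨S, hS, hS'⟩ := h.orb ψ hψ.isClassFunction l hl1 (mem_lcon.1 hl)
  refine ⟨hS ▸ Finset.card_le_card fun k hk => mem_lcon.2 (hS' k hk).2, fun h1 => ?_⟩
  rw [← hS, ← Finset.card_insert_of_notMem (fun h0 => (hS' 1 h0).1 rfl)]
  exact Finset.card_le_card (Finset.insert_subset h1 fun k hk => mem_lcon.2 (hS' k hk).2)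

theorem concave_bound {q a s : ℤ} (h1 : a ≤ s) (h2 : s ≤ q - a) : a * (q - a) ≤ s * (q - s) := by
  nlinarith

theorem LS.card_lcon_eq (h : LS P V e) {χ : G → ℂ} (hχ : IsIrrCharacter G χ) {x : ℕ}
    (hx : χ 1 = x) (hq : x ^ 2 + 1 < Nat.card P) (hk : ¬ P ≤ charKer χ) :
    (lcon P χ).card = e ∧ e ≤ x := by
  obtain ⟨b, hb⟩ := h.exists_coef hχ.isCharacter
  have h1 := (h.le_card_lcon hχ.isCharacter hk).1
  have h2 := h.card_lcon_le hχ.isCharacter hb
  have h3 := h.ineq_irr hχ hb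
  have h4 := (Finset.sum_le_sum fun ν _ => supp_le_sum fun l => b l ν).trans
    (h.sum_le_deg hχ.isCharacter hx hb)
  set s := fun ν => (Finset.univ.filter fun l => b l ν ≠ 0).card with hs
  refine ⟨le_antisymm (h2.trans (not_lt.1 fun h5 => ?_)) h1, h1.trans (h2.trans h4)⟩
  have h6 : ((∑ ν, s ν : ℕ) : ℤ) * (Nat.card P - (∑ ν, s ν : ℕ)) ≤
      ∑ ν, (s ν : ℤ) * (Nat.card P - s ν) := by
    rw [Nat.cast_sum, Finset.sum_mul]
    refine Finset.sum_le_sum fun ν _ => mul_le_mul_of_nonneg_left ?_ (Int.natCast_nonneg _)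
    have := Finset.single_le_sum (f := fun ν => (s ν : ℤ)) (fun ν _ => Int.natCast_nonneg _)
      (Finset.mem_univ ν)
    linarith
  have h7 := h6.trans_lt h3
  generalize ∑ ν, s ν = S at h4 h5 h7
  zify at h4 h5 hq
  have h8 := concave_bound (q := Nat.card P) (a := e + 1) (s := S) (by linarith) (by nlinarith)
  nlinarith

theorem lcon_mul_conj (h : ∀ a b : P, a * b = b * a) {χ : G → ℂ} [DecidableEq (P →* ℂˣ)] :
    lcon P (χ * fun g => conj (χ g)) ⊆
      insert 1 ((lcon P χ).offDiag.image fun z => z.1 * z.2⁻¹) := by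
  intro k hk
  by_contra hcon
  refine mem_lcon.1 hk ?_
  have h1 : ∀ u : P, χ u = ∑ l ∈ lcon P χ,
      classInner (fun u : P => χ u) (fun u => (l u : ℂ)) * l u := fun u => by
    rw [expand_lin h (fun u : P => χ u) u]
    refine (Finset.sum_subset (Finset.subset_univ _) fun l _ hl => ?_).symm
    rw [not_not.1 (fun h0 => hl (mem_lcon.2 h0)), zero_mul]
  set m := fun l : P →* ℂˣ => classInner (fun u : P => χ u) (fun u => (l u : ℂ)) with hm
  have h2 : (fun u : P => (χ * fun g => conj (χ g)) u) = ∑ l ∈ lcon P χ, ∑ l' ∈ lcon P χ,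
      (m l * conj (m l')) • fun u => ((l * l'⁻¹) u : ℂ) := by
    funext u
    simp only [Pi.mul_apply, Finset.sum_apply, Pi.smul_apply, smul_eq_mul]
    rw [h1 u, map_sum, Finset.sum_mul_sum]
    refine Finset.sum_congr rfl fun l _ => Finset.sum_congr rfl fun l' _ => ?_
    rw [map_mul, linear_conj]
    simp only [MonoidHom.mul_apply, MonoidHom.inv_apply, map_inv, Units.val_mul]
    ring
  rw [h2, classInner_sum_left]
  refine Finset.sum_eq_zero fun l hl => ?_
  rw [classInner_sum_left]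
  refine Finset.sum_eq_zero fun l' hl' => ?_
  rw [classInner_smul_left, lin_inner, if_neg, mul_zero]
  rintro rfl
  by_cases hll : l = l'
  · refine hcon (Finset.mem_insert.2 (Or.inl (MonoidHom.ext fun u => ?_)))
    simp [hll]
  · exact hcon (Finset.mem_insert_of_mem (Finset.mem_image.2
      ⟨(l, l'), Finset.mem_offDiag.2 ⟨hl, hl', hll⟩, rfl⟩))

theorem inner_res_le {H : Type*} [Group H] [Fintype H] (f : H →* G) {Φ ψ : G → ℂ}
    (hΦ : IsCharacter G Φ) (hψ : IsIrrCharacter G ψ) (hin : classInner Φ ψ ≠ 0) {θ : H → ℂ}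
    (hθ : IsCharacter H θ) (h0 : classInner (fun y => Φ (f y)) θ = 0) :
    classInner (fun y => ψ (f y)) θ = 0 := by
  obtain ⟨a, ha⟩ := ((hΦ.sub_irr hψ hin).comp f).inner_nat hθ
  obtain ⟨c, hc⟩ := (hψ.isCharacter.comp f).inner_nat hθ
  have h1 : (fun y => Φ (f y)) = (fun y => (Φ - ψ) (f y)) + fun y => ψ (f y) := by
    funext y; simp
  rw [h1, classInner_add_left, ha, hc] at h0
  have h2 : a + c = 0 := by exact_mod_cast h0
  rw [hc, show c = 0 by omega, Nat.cast_zero]

theorem inner_mul_conj_one {H : Type*} [Group H] [Fintype H] (F : H → ℂ) :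
    classInner (F * fun g => conj (F g)) (fun _ => 1) = classInner F F := by
  rw [classInner_mul_left]; simp

theorem tens_one {P V : Type*} [Group P] [Group V] [Fintype P] [Fintype V] :
    (tens (1 : P →* ℂˣ) (⟨_, isIrr_one⟩ : IrrCharacter V) : P × V → ℂ) = fun _ => 1 := by
  funext y; simp [tens]

theorem LS.edge_coef (h : LS P V e) {χ : G → ℂ} (hχ : IsCharacter G χ) (hx : χ 1 = e)
    (hL : (lcon P χ).card = e) {ν : IrrCharacter V} (hν : ν ≠ ⟨_, isIrr_one⟩) :
    classInner (fun y : P × V => (χ * fun g => conj (χ g)) (y.1 * y.2))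
      (tens (1 : P →* ℂˣ) ν) = 0 := by
  classical
  obtain ⟨c, hc⟩ := h.exists_coef (hχ.mul hχ.conj)
  obtain ⟨b, hb⟩ := h.exists_coef hχ
  choose m hm using fun l : P →* ℂˣ => (hχ.restrict P).inner_nat (isIrr_linear l).isCharacter
  have h1 : ∑ l, m l = e := by
    have := expand_lin h.comm (fun u : P => χ u) 1
    simp only [hm, OneMemClass.coe_one, hx, map_one, Units.val_one, mul_one] at this
    exact_mod_cast this.symm
  have h2 : ∀ l, l ∈ lcon P χ ↔ m l ≠ 0 := fun l => by rw [mem_lcon, hm, Nat.cast_ne_zero]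
  have h3 : ∀ l ∈ lcon P χ, 1 = m l := by
    rw [← Finset.sum_eq_sum_iff_of_le fun l hl => Nat.pos_of_ne_zero ((h2 l).1 hl),
      ← Finset.card_eq_sum_ones, hL, ← h1]
    exact (Finset.sum_subset (Finset.subset_univ _) fun l _ hl => not_not.1 (mt (h2 l).2 hl)).symm
  have h4 : classInner (fun u : P => χ u) (fun u : P => χ u) = e := by
    have h5 : (fun u : P => χ u) = ∑ l, (m l : ℂ) • fun u => (l u : ℂ) := by
      funext u
      rw [expand_lin h.comm (fun u : P => χ u) u, Finset.sum_apply]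
      simp only [hm, Pi.smul_apply, smul_eq_mul]
    nth_rewrite 2 [h5]
    rw [classInner_sum_right, ← h1, Nat.cast_sum]
    refine Finset.sum_congr rfl fun l _ => ?_
    rw [classInner_smul_right, hm, Complex.conj_natCast]
    by_cases hl : l ∈ lcon P χ
    · rw [← h3 l hl]; simp
    · rw [not_not.1 (mt (h2 l).2 hl)]; simp
  have h5 := inner_left h.comm (h.isChar (hχ.mul hχ.conj)).isClassFunction hc 1
  simp only [OneMemClass.coe_one, mul_one, MonoidHom.one_apply, Units.val_one] at h5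
  have h6 := (inner_mul_conj_one fun u : P => χ u).symm.trans h5
  rw [h4] at h6
  have h7 := hc 1 ⟨_, isIrr_one⟩
  rw [tens_one] at h7
  have h8 := (inner_mul_conj_one fun y : P × V => χ (y.1 * y.2)).symm.trans h7
  rw [classInner_self_eq, sum_sq_prod h.comm (h.isChar hχ).isClassFunction hb, Nat.card_prod,
    Nat.cast_mul, ← mul_assoc, inv_mul_cancel₀ (mul_ne_zero (Nat.cast_ne_zero.2 Nat.card_pos.ne')
      (Nat.cast_ne_zero.2 Nat.card_pos.ne')), one_mul] at h8
  have h9 : ∑ ν, ∑ l, b l ν ^ 2 = c 1 ⟨_, isIrr_one⟩ := by exact_mod_cast h8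
  have h10 : e ≤ c 1 ⟨_, isIrr_one⟩ := by
    rw [← h9, ← hL]
    refine (h.card_lcon_le hχ hb).trans (Finset.sum_le_sum fun ν _ =>
      (supp_le_sum fun l => b l ν).trans (Finset.sum_le_sum fun l _ => Nat.le_self_pow two_ne_zero _))
  choose d hd0 hd using fun ν : IrrCharacter V => ν.2.exists_pos_one
  simp only [hd, Int.cast_natCast] at h6
  have h11 : e = ∑ ν, c 1 ν * d ν := by exact_mod_cast h6
  have h12 := Finset.add_le_sum (f := fun ν => c 1 ν * d ν) (fun _ _ => Nat.zero_le _)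
    (Finset.mem_univ ν) (Finset.mem_univ _) hν
  have h13 := Nat.le_mul_of_pos_right (c 1 ν) (hd0 ν)
  have h14 := Nat.le_mul_of_pos_right (c 1 ⟨_, isIrr_one⟩) (hd0 ⟨_, isIrr_one⟩)
  rw [hc, show c 1 ν = 0 by omega]
  simp

theorem LS.edge_false (h : LS P V e) {ψ : G → ℂ} (hψ : IsIrrCharacter G ψ) (h1 : ψ ≠ fun _ => 1)
    {b : (P →* ℂˣ) → IrrCharacter V → ℕ}
    (hb : ∀ l ν, classInner (fun y : P × V => ψ (y.1 * y.2)) (tens l ν) = ((b l ν : ℤ) : ℂ))
    (he : 2 ≤ e) (hq : Nat.card P = e ^ 2 + e + 1) (hβ : b 1 ⟨_, isIrr_one⟩ ≠ 0)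
    (hB : e + 1 ≤ ∑ l, b l ⟨_, isIrr_one⟩) (hB' : ∑ l, b l ⟨_, isIrr_one⟩ + 1 ≤ e ^ 2) : False := by
  classical
  set o : IrrCharacter V := ⟨_, isIrr_one⟩ with ho
  obtain ⟨y, hy0, hy⟩ := hψ.exists_pos_one
  have h2 := h.ineq ((e : ℂ) • ψ + fun _ => 1) ((hψ.isGen.natCast_smul e).add isGen_one) (by
      simp only [Pi.add_apply, Pi.smul_apply, hy, smul_eq_mul]
      norm_cast)
    (fun l ν => e * b l ν + if l = 1 ∧ ν = o then 1 else 0) (fun l ν => by
      have h3 : (fun y : P × V => ((e : ℂ) • ψ + fun _ => 1 : G → ℂ) (y.1 * y.2)) =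
          (e : ℂ) • (fun y : P × V => ψ (y.1 * y.2)) + (tens (1 : P →* ℂˣ) o : P × V → ℂ) := by
        rw [ho, tens_one]; rfl
      rw [h3, classInner_add_left, classInner_smul_left, hb, irr_inner]
      have h4 : tens 1 o = tens l ν ↔ l = 1 ∧ ν = o :=
        ⟨fun h0 => by
          have := (tens_bij h.comm).1 (a₁ := (1, o)) (a₂ := (l, ν)) h0
          exact ⟨(congrArg Prod.fst this).symm, (congrArg Prod.snd this).symm⟩,
          fun h0 => by rw [h0.1, h0.2]⟩
      simp only [h4]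
      split_ifs <;> simp) (e ^ 2 + 1) (by
      rw [classInner_add_left, classInner_add_right, classInner_add_right, classInner_smul_left,
        classInner_smul_left, classInner_smul_right, classInner_smul_right, hψ.inner_self,
        hψ.inner_of_ne isIrr_one h1, isIrr_one.inner_of_ne hψ h1.symm, classInner_one_one]
      simp [sq])
  have h3 := (Finset.single_le_sum (f := fun ν => (Nat.card P * ∑ l, ((e * b l ν +
      if l = 1 ∧ ν = o then 1 else 0 : ℤ)) ^ 2 - (∑ l, (e * b l ν +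
      if l = 1 ∧ ν = o then 1 else 0 : ℤ)) ^ 2)) (fun ν _ => by
        have := supp_mul_le fun l => (e * b l ν + if l = 1 ∧ ν = o then 1 else 0 : ℤ)
        rw [card_lin h.comm] at this
        refine le_trans ?_ this
        refine mul_nonneg (Int.natCast_nonneg _) (sub_nonneg.2 ?_)
        exact_mod_cast (Finset.card_le_univ _).trans (card_lin h.comm).le)
      (Finset.mem_univ o)).trans_lt h2
  simp only [and_true, add_sq, Finset.sum_add_distrib, mul_pow, ← Finset.mul_sum, ite_pow, one_pow,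
    ne_eq, OfNat.ofNat_ne_zero, not_false_eq_true, zero_pow, mul_ite, mul_one, mul_zero,
    Finset.sum_ite_eq', Finset.mem_univ, if_true] at h3
  have h4 : ∑ l, (b l o : ℤ) ≤ ∑ l, (b l o : ℤ) ^ 2 :=
    Finset.sum_le_sum fun l _ => by exact_mod_cast Nat.le_self_pow two_ne_zero _
  have h5 : (1 : ℤ) ≤ b 1 o := by exact_mod_cast Nat.pos_of_ne_zero hβ
  zify at hB hB' he
  rw [hq] at h3
  push_cast at h3
  generalize ∑ l, (b l o : ℤ) = B at *
  generalize ∑ l, (b l o : ℤ) ^ 2 = W at *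
  generalize (b 1 o : ℤ) = β at *
  generalize (e : ℤ) = E at *
  have h6 : 0 ≤ (E ^ 2 + E + 1) * (E ^ 2 * (W - B)) := by
    have : 0 ≤ W - B := by linarith
    positivity
  have h7 : 0 ≤ (E ^ 2 + E + 1) * (E * (β - 1)) := by
    have : 0 ≤ β - 1 := by linarith
    positivity
  have h8 : 0 ≤ E * (B - E - 1) * ((E ^ 2 + E + 1) * (E - 2) - E * (B - E - 1)) :=
    mul_nonneg (mul_nonneg (by linarith) (by linarith)) (by nlinarith)
  nlinarith

theorem LS.deg_eq_one (h : LS P V e) (hO : ∀ ψ, IsIrrCharacter G ψ → ψ ≠ (fun _ => 1) →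
    ¬ P ≤ charKer ψ) {χ : G → ℂ} (hχ : IsIrrCharacter G χ) (h1 : χ ≠ fun _ => 1) {x : ℕ}
    (hx : χ 1 = x) (hq : x ^ 2 + 1 < Nat.card P) : x = 1 ∧ e = 1 := by
  classical
  obtain ⟨hL, hex⟩ := h.card_lcon_eq hχ hx hq (hO χ hχ h1)
  have he0 : 0 < e := by
    obtain ⟨l, hl, -⟩ := h.exists_ne_one hχ.isCharacter (hO χ hχ h1)
    exact hL ▸ Finset.card_pos.2 ⟨l, hl⟩
  suffices x = 1 from ⟨this, by omega⟩
  by_contra hx1
  have hx2 : 2 ≤ x := by omega
  obtain ⟨t, ht⟩ := h.dvd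
  have hqt : Nat.card P = e * t + 1 := by omega
  have htx : x + 1 ≤ t := by
    by_contra h0
    have : e * t ≤ x * x := Nat.mul_le_mul hex (by omega)
    nlinarith
  have hΦ := hχ.isCharacter.mul hχ.isCharacter.conj
  have hΦ1 : classInner (χ * fun g => conj (χ g)) (fun _ => 1) = 1 := by
    rw [inner_mul_conj_one, hχ.inner_self]
  have key : ∀ ψ, IsIrrCharacter G ψ → ψ ≠ (fun _ => 1) →
      classInner (χ * fun g => conj (χ g)) ψ ≠ 0 → 1 ∉ lcon P ψ := by
    intro ψ hψ hψ1 hin hone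
    obtain ⟨y, -, hy⟩ := hψ.exists_pos_one
    have hyx : y + 1 ≤ x ^ 2 := by
      have h2 := (hΦ.sub_irr isIrr_one (by rw [hΦ1]; exact one_ne_zero)).irr_degree_le hψ (by
        rwa [classInner_sub_left, isIrr_one.inner_of_ne hψ hψ1.symm, sub_zero])
      simp only [hy, Pi.sub_apply, Pi.mul_apply, hx, Complex.conj_natCast, Complex.sub_re,
        Complex.mul_re, Complex.natCast_re, Complex.natCast_im, mul_zero, sub_zero,
        Complex.one_re] at h2
      have h3 : (y : ℝ) + 1 ≤ x ^ 2 := by linarith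
      exact_mod_cast h3
    have h2 : (lcon P ψ).card ≤ e * e - e + 1 := by
      have h3 : lcon P ψ ⊆ lcon P (χ * fun g => conj (χ g)) := fun l hl => mem_lcon.2 fun h0 =>
        mem_lcon.1 hl (inner_res_le P.subtype hΦ hψ hin (isIrr_linear l).isCharacter h0)
      refine (Finset.card_le_card (h3.trans (lcon_mul_conj h.comm))).trans
        ((Finset.card_insert_le _ _).trans (Nat.add_le_add_right (Finset.card_image_le.trans ?_) 1))
      rw [Finset.offDiag_card, hL]
    obtain ⟨b, hb⟩ := h.exists_coef hψ.isCharacter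
    have h3 := ((h.le_card_lcon hψ.isCharacter (hO ψ hψ hψ1)).2 hone).trans
      (h.card_lcon_le hψ.isCharacter hb)
    have h4 := h.ineq_irr hψ hb
    have h5 := fun ν => (h.supp_le hψ.isCharacter hb ν).trans h2
    have h6 := h.supp_le_card b
    set s := fun ν => (Finset.univ.filter fun l => b l ν ≠ 0).card with hs
    have hee : e ≤ e * e := Nat.le_mul_self e
    have hex2 : e * e ≤ x ^ 2 := by nlinarith
    have h7 : ∀ ν, (0 : ℤ) ≤ s ν * (Nat.card P - s ν) := fun ν =>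
      mul_nonneg (Int.natCast_nonneg _) (sub_nonneg.2 (by exact_mod_cast h6 ν))
    by_cases hall : ∀ ν, s ν ≤ e
    · have h8 : ((∑ ν, s ν : ℕ) : ℤ) * (Nat.card P - e) ≤ ∑ ν, (s ν : ℤ) * (Nat.card P - s ν) := by
        rw [Nat.cast_sum, Finset.sum_mul]
        refine Finset.sum_le_sum fun ν _ => mul_le_mul_of_nonneg_left ?_ (Int.natCast_nonneg _)
        have : (s ν : ℤ) ≤ e := by exact_mod_cast hall ν
        linarith
      have h9 := h8.trans_lt h4
      generalize ∑ ν, s ν = S at h3 h9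
      have h10 : e * (e + 1) ≤ e * t := Nat.mul_le_mul_left _ (by omega)
      zify at h3 h10 hqt he0
      nlinarith
    push Not at hall
    obtain ⟨ν, hν⟩ := hall
    have h8 : ((e : ℤ) + 1) * (Nat.card P - (e + 1)) ≤ s ν * (Nat.card P - s ν) :=
      concave_bound (by exact_mod_cast hν) (by
        have : s ν ≤ e * e - e + 1 := h5 ν
        have h9 : s ν + (e + 1) ≤ Nat.card P := by omega
        zify at h9
        linarith)
    have h9 := (h8.trans (Finset.single_le_sum (fun ν _ => h7 ν) (Finset.mem_univ ν))).trans_lt h4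
    have h10 : t = e + 1 := by
      by_contra h0
      have h11 : e * (e + 2) ≤ e * t := Nat.mul_le_mul_left _ (by omega)
      zify at h11 hqt
      nlinarith
    obtain rfl : x = e := by omega
    have hq' : Nat.card P = x ^ 2 + x + 1 := by rw [hqt, h10]; ring
    set o : IrrCharacter V := ⟨_, isIrr_one⟩ with ho
    have hβ : b 1 o ≠ 0 := by
      obtain ⟨μ, hμ⟩ := (h.mem_lcon_iff hψ.isCharacter hb).1 hone
      by_cases h0 : μ = o
      · rwa [← h0]
      have h11 := inner_res_le (P.subtype.noncommCoprod V.subtype h.cent) hΦ hψ hin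
        (tens 1 μ).2.isCharacter (h.edge_coef hχ.isCharacter hx hL h0)
      have h12 := (hb 1 μ).symm.trans h11
      exact absurd (by exact_mod_cast h12) hμ
    by_cases hνo : ν = o
    · subst hνo
      refine h.edge_false hψ hψ1 hb hx2 hq' hβ (hν.trans_le (supp_le_sum fun l => b l o))
        (le_trans (Nat.add_le_add_right (le_trans ?_ (h.sum_le_deg hψ.isCharacter hy hb)) 1) hyx)
      exact Finset.single_le_sum (f := fun ν => ∑ l, b l ν) (fun _ _ => Nat.zero_le _)
        (Finset.mem_univ _)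
    · have h11 := (Finset.add_le_sum (fun ν _ => h7 ν) (Finset.mem_univ ν) (Finset.mem_univ o)
        hνo).trans_lt h4
      have h12 : (1 : ℤ) * (Nat.card P - 1) ≤ s o * (Nat.card P - s o) :=
        concave_bound (by
          exact_mod_cast Finset.card_pos.2 ⟨1, Finset.mem_filter.2 ⟨Finset.mem_univ _, hβ⟩⟩) (by
          have : s o ≤ x * x - x + 1 := h5 o
          have h9 : s o + 1 ≤ Nat.card P := by omega
          zify at h9
          linarith)
      zify at hq' hx2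
      rw [hq'] at h8 h11 h12
      nlinarith
  have h2 : classInner (fun u : P => (χ * fun g => conj (χ g)) u) (fun _ => 1) = 1 := by
    have h3 : (fun u : P => (χ * fun g => conj (χ g)) u) = ∑ ψ : IrrCharacter G,
        classInner (χ * fun g => conj (χ g)) ψ • fun u : P => (ψ : G → ℂ) u := by
      funext u
      rw [hΦ.isClassFunction.apply_eq_sum, Finset.sum_apply]
      rfl
    rw [h3, classInner_sum_left, Finset.sum_eq_single ⟨_, isIrr_one⟩ (fun ψ _ hψ => ?_) (by simp),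
      classInner_smul_left, hΦ1, classInner_one_one, one_mul]
    rw [classInner_smul_left]
    by_cases h0 : classInner (χ * fun g => conj (χ g)) ψ = 0
    · rw [h0, zero_mul]
    · have h4 := key ψ ψ.2 (fun h => hψ (Subtype.ext h)) h0
      rw [mem_lcon, not_not] at h4
      exact mul_eq_zero_of_right _ h4
  have h3 := (inner_mul_conj_one fun u : P => χ u).symm.trans h2
  have h4 := ((hχ.isCharacter.restrict P).isIrr_of_norm_one h3).one_eq_one_of_comm h.comm
  rw [OneMemClass.coe_one, hx] at h4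
  exact hx1 (by exact_mod_cast h4)

end H21
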