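import Cfsg.Agent.H21.Leo2

set_option autoImplicit false
set_option linter.unusedSectionVars false
open Cfsg H17 Subgroup
open scoped ComplexConjugate Pointwise

namespace H21

variable {G : Type*} [Group G] {p : ℕ} [hp : Fact p.Prime]

theorem le_cent_of_star {P : Subgroup G} (hstar : ∀ x ∈ P, x ≠ 1 →
    centralizer ({x} : Set G) = centralizer (P : Set G)) : P ≤ centralizer (P : Set G) :=
  fun x hx => by
    by_cases h : x = 1
    · rw [h]; exact one_mem _
    · rw [← hstar x hx h]; exact mem_centralizer_singleton_iff.2 rfl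

theorem mem_norm_of_star [Finite G] (P : Sylow p G) (hstar : ∀ x ∈ (P : Subgroup G), x ≠ 1 →
    centralizer ({x} : Set G) = centralizer ((P : Subgroup G) : Set G)) {g u : G}
    (hu : u ∈ (P : Subgroup G)) (h1 : u ≠ 1) (hg : g * u * g⁻¹ ∈ (P : Subgroup G)) :
    g ∈ normalizer ((P : Subgroup G) : Set G) := by
  refine mem_normalizer_fintype fun a ha => ?_
  have h2 : g * a * g⁻¹ ∈ centralizer ((P : Subgroup G) : Set G) := by
    rw [← hstar _ hg (by simpa using h1), mem_centralizer_singleton_iff]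
    have := le_cent_of_star hstar hu a ha
    calc g * a * g⁻¹ * (g * u * g⁻¹) = g * (a * u) * g⁻¹ := by group
      _ = _ := by rw [this]; group
  obtain ⟨k, hk⟩ := H10.orderOf_eq_pow_of_mem P.isPGroup' ha
  have h3 : orderOf (g * a * g⁻¹) = p ^ k := by
    rw [← hk]; exact (MulAut.conj g).orderOf_eq a
  exact (H10.isSylowIn_of_sylow_le P (le_cent_of_star hstar)).le_of_le_NN
    (H10.isPGroup_zpowers_of_orderOf h3) (zpowers_le.2 h2)
    ((zpowers_le.2 h2).trans (centralizer_le_normalizer _)) (mem_zpowers _)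

theorem exists_LS [Fintype G] (P : Sylow p G) [Fintype (P : Subgroup G)]
    (hstar : ∀ x ∈ (P : Subgroup G), x ≠ 1 →
      centralizer ({x} : Set G) = centralizer ((P : Subgroup G) : Set G)) :
    ∃ (V : Subgroup G) (_ : Fintype V), LS (P : Subgroup G) V
      ((centralizer ((P : Subgroup G) : Set G)).relIndex
        (normalizer ((P : Subgroup G) : Set G))) := by
  classical
  set C := centralizer ((P : Subgroup G) : Set G) with hC
  set N := normalizer ((P : Subgroup G) : Set G) with hN
  have hPC : (P : Subgroup G) ≤ C := le_cent_of_star hstar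
  have hS := H10.isSylowIn_of_sylow_le P hPC
  have : ((P : Subgroup G).subgroupOf C).Normal :=
    normal_subgroupOf_of_le_normalizer (centralizer_le_normalizer _)
  have hcop : (Nat.card P).Coprime ((P : Subgroup G).relIndex C) := by
    obtain ⟨k, hk⟩ := P.isPGroup'.exists_card_eq
    rw [hk]
    exact Nat.Coprime.pow_left k (hp.out.coprime_iff_not_dvd.2 hS.not_dvd_relIndex)
  obtain ⟨K, hK⟩ := exists_right_complement'_of_coprime (N := (P : Subgroup G).subgroupOf C)
    (by rw [H1.card_subgroupOf_of_le hPC]; exact hcop)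
  have hV : Nat.card (K.map C.subtype) = (P : Subgroup G).relIndex C := by
    rw [card_subtype, ← hK.symm.index_eq_card]; rfl
  have hVC : K.map C.subtype ≤ C := map_subtype_le _
  generalize K.map C.subtype = V at hV hVC
  have := Fintype.ofFinite V
  have hd : (P : Subgroup G) ⊓ V = ⊥ := H1.inf_eq_bot_of_coprime' (hV ▸ hcop)
  have hcm : ∀ (u : (P : Subgroup G)) (v : V), Commute (u : G) (v : G) :=
    fun u v => hVC v.2 u u.2
  have hab : ∀ a b : (P : Subgroup G), a * b = b * a := fun a b => Subtype.ext (hPC b.2 a a.2)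
  have hE : C.relIndex N = Nat.card (P : Subgroup G).normalizerMonoidHom.range := by
    rw [← index_ker, normalizerMonoidHom_ker]; rfl
  have hfree : ∀ σ ∈ (P : Subgroup G).normalizerMonoidHom.range, ∀ u, σ u = u → u ≠ 1 → σ = 1 := by
    rintro _ ⟨n, rfl⟩ u h1 h2
    rw [← MonoidHom.mem_ker, normalizerMonoidHom_ker, mem_subgroupOf, ← hC,
      ← hstar u u.2 (fun h => h2 (Subtype.ext h)), mem_centralizer_singleton_iff]
    exact mul_inv_eq_iff_eq_mul.1 (congrArg Subtype.val h1)
  refine ⟨V, this, hab, hcm, fun ψ hψ h1 b hb w hw => ?_, fun ψ hψ l hl h1 => ?_,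
    hE ▸ card_dvd_pred_of_free hfree⟩
  · have hpow : ∀ y : ↥(P : Subgroup G) × V, ((y.1 : G) * y.2) ^ Nat.card V =
        (y.1 ^ Nat.card V : (P : Subgroup G)) := fun y => by
      rw [(hcm y.1 y.2).mul_pow, ← coe_pow V y.2, pow_card_eq_one', OneMemClass.coe_one, mul_one,
        coe_pow]
    have hne : ∀ u : (P : Subgroup G), u ≠ 1 → ((u ^ Nat.card V : (P : Subgroup G)) : G) ≠ 1 :=
      fun u hu h => hu (by
        have h2 : u ^ Nat.card V = 1 := Subtype.ext h
        rw [← pow_one u, ← (hV ▸ hcop : (Nat.card P).Coprime (Nat.card V)).gcd_eq_one]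
        exact pow_gcd_eq_one.2 ⟨pow_card_eq_one', h2⟩)
    have h2 := sum_TI_le (Finset.univ.filter fun y : ↥(P : Subgroup G) × V => y.1 ≠ 1)
      (fun y => (y.1 : G) * y.2) N (fun y _ z _ h => by
        have h3 : (z.1 : G)⁻¹ * y.1 = z.2 * (y.2 : G)⁻¹ := by
          simp only at h
          rw [inv_mul_eq_iff_eq_mul, ← mul_assoc, ← h, mul_inv_cancel_right]
        have h4 : (z.1 : G)⁻¹ * y.1 ∈ (P : Subgroup G) ⊓ V :=
          ⟨(P : Subgroup G).mul_mem ((P : Subgroup G).inv_mem z.1.2) y.1.2,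
            h3 ▸ V.mul_mem z.2.2 (V.inv_mem y.2.2)⟩
        rw [hd, mem_bot] at h4
        rw [h4] at h3
        exact Prod.ext (Subtype.ext (inv_mul_eq_one.1 h4).symm)
          (Subtype.ext (mul_inv_eq_one.1 h3.symm).symm))
      (fun y hy h => hne _ (Finset.mem_filter.1 hy).2 (by rw [← hpow, h, one_pow]))
      (fun y hy z _ g h => mem_norm_of_star P hstar (y.1 ^ Nat.card V).2
        (hne _ (Finset.mem_filter.1 hy).2) (by
          rw [← hpow, ← conj_pow, h, hpow]; exact (z.1 ^ Nat.card V).2))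
      (f := fun g => ‖ψ g‖ ^ 2) (fun _ => sq_nonneg _) (fun g c => by rw [hψ.isClassFunction])
    rw [sum_sq_off hab (F := fun y : ↥(P : Subgroup G) × V => ψ (y.1 * y.2))
      (hψ.isClassFunction.comp
      ((P : Subgroup G).subtype.noncommCoprod V.subtype hcm)) hb] at h2
    have h3 : ∑ y with y ≠ 1, ‖ψ y‖ ^ 2 < Nat.card G * (w : ℝ) := by
      have h4 := classInner_self_re ψ
      rw [hw, Complex.intCast_re] at h4
      rw [h4, ← mul_assoc, mul_inv_cancel₀ (Nat.cast_ne_zero.2 Nat.card_pos.ne'), one_mul,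
        Finset.filter_ne', ← Finset.add_sum_erase _ _ (Finset.mem_univ 1)]
      exact lt_add_of_pos_left _ (pow_pos (norm_pos_iff.2 h1) 2)
    have h4 : Nat.card N = C.relIndex N * Nat.card P * Nat.card V := by
      rw [← H1.card_mul_relIndex (centralizer_le_normalizer _ : C ≤ N), ← H1.card_mul_relIndex hPC,
        hV]
      ring
    have h5 := h2.trans_lt (mul_lt_mul_of_pos_left h3 (Nat.cast_pos.2 Nat.card_pos))
    rw [h4] at h5
    have h6 : (0 : ℝ) < Nat.card G * Nat.card V :=
      mul_pos (Nat.cast_pos.2 Nat.card_pos) (Nat.cast_pos.2 Nat.card_pos)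
    have h7 := lt_of_mul_lt_mul_left (a := (Nat.card G : ℝ) * Nat.card V) (b :=
      ((∑ ν, (Nat.card P * ∑ l, b l ν ^ 2 - (∑ l, b l ν) ^ 2) : ℤ) : ℝ))
      (c := C.relIndex N * Nat.card P * w) (by
        rw [mul_assoc]
        refine h5.trans_eq ?_
        push_cast; ring) h6.le
    exact_mod_cast h7
  · have := Fintype.ofFinite (P : Subgroup G).normalizerMonoidHom.range
    refine ⟨Finset.univ.image fun σ : (P : Subgroup G).normalizerMonoidHom.range =>
      l.comp (σ : MulAut (P : Subgroup G)).toMonoidHom, ?_, fun k hk => ?_⟩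
    · rw [Finset.card_image_of_injective _ (lin_comp_injective hab hfree hl), hE,
        Nat.card_eq_fintype_card, Finset.card_univ]
    · obtain ⟨⟨_, n, rfl⟩, -, rfl⟩ := Finset.mem_image.1 hk
      refine ⟨fun h => hl (MonoidHom.ext fun u => ?_), ?_⟩
      · obtain ⟨v, rfl⟩ := ((P : Subgroup G).normalizerMonoidHom n).surjective u
        exact DFunLike.congr_fun h v
      · have h2 := classInner_comp_equiv ((P : Subgroup G).normalizerMonoidHom n)
          (fun u : (P : Subgroup G) => ψ u) (fun u => (l u : ℂ))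
        have h3 : (fun u : (P : Subgroup G) => ψ ((P : Subgroup G).normalizerMonoidHom n u)) =
            fun u : (P : Subgroup G) => ψ u := funext fun u => hψ u n
        rw [h3] at h2
        exact fun h => h1 (h2.symm.trans h)

theorem leonard [Finite G] (P : Sylow p G) (hstar : ∀ x ∈ (P : Subgroup G), x ≠ 1 →
      centralizer ({x} : Set G) = centralizer ((P : Subgroup G) : Set G))
    (hO : ∀ K : Subgroup G, K.Normal → (P : Subgroup G) ≤ K → K = ⊤) {χ : G → ℂ}
    (hχ : IsIrrCharacter G χ) (h1 : χ ≠ fun _ => 1) {x : ℕ} (hx : χ 1 = x)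
    (hq : x ^ 2 + 1 < Nat.card P) :
    x = 1 ∧ ∃ N : Subgroup G, N.Normal ∧ N.index = Nat.card P := by
  have := Fintype.ofFinite G
  have := Fintype.ofFinite (P : Subgroup G)
  obtain ⟨V, _, h⟩ := exists_LS P hstar
  obtain ⟨h2, h3⟩ := h.deg_eq_one (fun ψ hψ hψ1 hle => hψ1 (hψ.eq_one_of_charKer_eq_top
    (hO _ hψ.isCharacter.charKer_normal hle))) hχ h1 hx hq
  exact ⟨h2, _, inferInstance,
    (MonoidHom.ker_transferSylow_isComplement' P (relIndex_eq_one.1 h3)).symm.index_eq_card⟩

theorem leonard_normal [Finite G] (P : Sylow p G) (hstar : ∀ x ∈ (P : Subgroup G), x ≠ 1 →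
      centralizer ({x} : Set G) = centralizer ((P : Subgroup G) : Set G))
    {χ : G → ℂ} (hχ : IsCharacter G χ) (hf : ∀ g, χ g = χ 1 → g = 1) {x : ℕ} (hx : χ 1 = x)
    (hq : x ^ 2 + 1 < Nat.card P) : (P : Subgroup G).Normal := by
  set H := normalClosure ((P : Subgroup G) : Set G) with hH
  have := Fintype.ofFinite H
  have hPH : (P : Subgroup G) ≤ H := le_normalClosure
  have hc : Nat.card (P.subtype hPH) = Nat.card P := H1.card_subgroupOf_of_le hPH
  have h1 : commutator H ≤ charKer (fun h : H => χ h) := fun g hg => by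
    rw [(hχ.restrict H).mem_charKer_iff_forall]
    intro ψ hψ hin
    refine hψ.one_eq_one_iff.1 ?_ hg
    by_cases hψ1 : ψ = fun _ => 1
    · rw [hψ1]
    obtain ⟨y, -, hy⟩ := hψ.exists_pos_one
    have hyx : y ≤ x := by
      have := (hχ.restrict H).irr_degree_le hψ hin
      simp only [OneMemClass.coe_one, hx, hy, Complex.natCast_re] at this
      exact_mod_cast this
    have h2 := (leonard (P.subtype hPH) (fun u hu hu1 => ?_) (fun K hK hle => ?_) hψ hψ1 hy
      (by rw [hc]; nlinarith)).1
    · rw [hy, h2, Nat.cast_one]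
    · ext c
      have h3 := hstar u hu (fun h => hu1 (Subtype.ext h))
      rw [mem_centralizer_singleton_iff, Subtype.ext_iff, coe_mul, coe_mul,
        ← mem_centralizer_singleton_iff, h3, mem_centralizer_iff, mem_centralizer_iff]
      exact ⟨fun h a ha => Subtype.ext (h a ha), fun h a ha =>
        congrArg Subtype.val (h ⟨a, hPH ha⟩ ha)⟩
    · rw [eq_top_iff, ← map_subtype_le_map_subtype, ← MonoidHom.range_eq_map, range_subtype]
      refine (closure_le _).2 fun a ha => ?_
      obtain ⟨u, hu, hua⟩ := Group.mem_conjugatesOfSet_iff.1 ha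
      obtain ⟨c, rfl⟩ := isConj_iff.1 hua
      have h3 : ((c • P : Sylow p G) : Subgroup G) ≤ H := by
        rw [Sylow.coe_subgroup_smul]
        intro z hz
        rw [H1.mem_conj_smul_iff] at hz
        simpa [mul_assoc] using (inferInstance : H.Normal).conj_mem _ (hPH hz) c
      have h4 : c * u * c⁻¹ ∈ ((c • P : Sylow p G) : Subgroup G) := H1.conj_mem_conj_smul hu
      obtain ⟨d, hd⟩ := MulAction.exists_smul_eq H (P.subtype hPH) ((c • P).subtype h3)
      have h5 : (⟨_, h3 h4⟩ : H) ∈ ((d • P.subtype hPH : Sylow p H) : Subgroup H) := by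
        rw [hd]; exact h4
      rw [Sylow.coe_subgroup_smul, H1.mem_conj_smul_iff] at h5
      refine ⟨⟨_, h3 h4⟩, ?_, rfl⟩
      simpa [mul_assoc] using hK.conj_mem _ (hle h5) d
  have h2 : commutator H = ⊥ := eq_bot_iff.2 fun g hg =>
    Subtype.ext (hf g (apply_eq_of_mem_charKer (χ := fun h : H => χ h) (h1 hg)))
  have h3 : IsMulCommutative H := (commutator_eq_bot_iff H).1 h2
  have h4 : H ≤ P := by
    refine (closure_le _).2 fun a ha => ?_
    have h5 : a ∈ H := subset_closure ha
    obtain ⟨u, hu, hua⟩ := Group.mem_conjugatesOfSet_iff.1 ha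
    obtain ⟨c, rfl⟩ := isConj_iff.1 hua
    obtain ⟨k, hk⟩ := H10.orderOf_eq_pow_of_mem P.isPGroup' hu
    have h6 : orderOf (c * u * c⁻¹) = p ^ k := by
      rw [← hk]; exact (MulAut.conj c).orderOf_eq u
    exact (H10.isSylowIn_top P).le_of_le_NN (H10.isPGroup_zpowers_of_orderOf h6) le_top
      ((zpowers_le.2 h5).trans (((le_centralizer H).trans (centralizer_le hPH)).trans
        (centralizer_le_normalizer _))) (mem_zpowers _)
  rw [le_antisymm hPH h4]
  infer_instance

end H21
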