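/-
Solvable linear groups with a non-normal Sylow subgroup (Isaacs (14.5)).
-/
import Cfsg.Agent.H21.MS3

set_option autoImplicit false
set_option linter.unusedSectionVars false
open H17 Cfsg H15 CF
open scoped ComplexConjugate commutatorElement
open H9 (centMod)

namespace H21

universe u
variable {G : Type u} [Group G] [Finite G] {P H K L M N : Subgroup G} {χ ψ θ : G → ℂ} {p n : ℕ}
  {Q : ℕ → Prop}

/-- the irreducible characters with degree in `Q` separate `G` -/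
def Sep (Q : ℕ → Prop) (G : Type*) [Group G] : Prop :=
  ∀ g : G, g ≠ 1 → ∃ χ, IsIrrCharacter G χ ∧ Q (charDegree χ) ∧ χ g ≠ χ 1

theorem sep_sub (h : ∀ g ∈ H, g ≠ 1 → ∃ θ ∈ Irr H, Q (charDegree θ) ∧ g ∉ cfker θ) : Sep Q H :=
  fun g hg => by
    obtain ⟨θ, h1, h2, h3⟩ := h g g.2 (by simpa using hg)
    exact ⟨res H θ, irr_res h1, h2, fun e => h3 ((irr_mem_cfker h1).2 e)⟩

theorem exists_under_not_mem (hHK : H ≤ K) (hχ : IsChar K χ) {g : G} (hg : g ∈ H)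
    (h : g ∉ cfker χ) : ∃ θ ∈ Irr H, dot H χ θ ≠ 0 ∧ g ∉ cfker θ := by
  by_contra hh
  push Not at hh
  have hR := hχ.Res hHK
  refine h (hχ.mem_cfker.2 ?_)
  rw [← Res_of_mem χ hg, ← Res_one H χ, cf_apply_eq_sum hR.cf, cf_apply_eq_sum hR.cf 1]
  refine Finset.sum_congr rfl fun φ hφ => ?_
  by_cases h0 : dot H χ φ = 0
  · rw [dot_Res_left, h0, zero_mul, zero_mul]
  · rw [cfker_apply (hh φ hφ h0)]

theorem sep_normal [N.Normal] (hQ : ∀ a b, a ∣ b → Q b → Q a) (hχ : χ ∈ Irr ⊤)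
    (h : Q (charDegree χ)) (hf : cfker χ = ⊥) : Sep Q N :=
  sep_sub fun g hg h1 => by
    obtain ⟨θ, a1, a2, a3⟩ := exists_under_not_mem le_top (irr_char hχ) hg (by simpa [hf] using h1)
    obtain ⟨m, -, e⟩ := deg_over le_top (top_le_norm N) a1 (mem_over.2 ⟨hχ, a2⟩)
    exact ⟨θ, a1, hQ _ _ (e ▸ dvd_mul_left _ _) h, a3⟩

theorem pc_of_iInf [hp : Fact p.Prime] (S : Set (Subgroup G)) (h1 : ∀ N ∈ S, N.Normal)
    (h2 : ∀ g, (∀ N ∈ S, g ∈ N) → g = 1) (h3 : ∀ N ∈ S, ∀ [N.Normal], PC p (G ⧸ N)) : PC p G := by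
  obtain ⟨P, hP⟩ := exists_syl p (⊤ : Subgroup G)
  have hn : (⨅ N ∈ S, P ⊔ N).Normal := by
    refine ⟨fun x hx g => ?_⟩
    simp only [Subgroup.mem_iInf] at hx ⊢
    intro N hN
    have := h1 N hN
    exact (normal_of_top ((h3 N hN).quot hP)).conj_mem x (hx N hN) g
  obtain ⟨a, ha⟩ := IsPGroup.iff_card.1 hP.isPGroup
  have hW : IsPGroup p (⨅ N ∈ S, P ⊔ N : Subgroup G) := fun x => ⟨a, Subtype.ext (h2 _ fun N hN => by
    have := h1 N hN
    have hx := x.2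
    simp only [Subgroup.mem_iInf] at hx
    obtain ⟨y, hy, z, hz, e⟩ := (H16.mem_sup_r (le_top.trans (top_le_norm N))).1 (hx N hN)
    rw [← QuotientGroup.eq_one_iff, SubgroupClass.coe_pow, ← e, QuotientGroup.mk_pow,
      QuotientGroup.mk_mul, (QuotientGroup.eq_one_iff z).2 hz, mul_one, ← QuotientGroup.mk_pow,
      orderOf_dvd_iff_pow_eq_one.1 (ha ▸ H16.orderOf_dvd_card hy), QuotientGroup.mk_one])⟩
  refine pc_of_syl hP ?_
  rw [← hP.eq_of_le (H1.isPiNat_card_singleton_iff.2 hW) le_top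
    (le_iInf₂ fun N _ => le_sup_left)]
  exact top_le_norm _

theorem chief_facts [hp : Fact p.Prime] [K.Normal] [L.Normal] (hs : Group.IsSolvable G)
    (hLK : L < K) (hch : ∀ U : Subgroup G, L ≤ U → U ≤ K → U.Normal → U = L ∨ U = K)
    (hP : IsPGroup p P) (hG : K ⊔ P = ⊤) (hc : ¬ ⁅K, P⁆ ≤ L) :
    ⁅K, K⁆ ≤ L ∧ IsPrimePow (L.relIndex K) ∧ L.relIndex K ≡ 1 [MOD p] := by
  set f := QuotientGroup.mk' L
  have hf : Function.Surjective f := QuotientGroup.mk'_surjective L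
  have h0 : K.map f ≠ ⊥ := fun h => hLK.not_ge (by
    rwa [Subgroup.map_eq_bot_iff, QuotientGroup.ker_mk'] at h)
  have hN : (K.map f).Normal := Subgroup.Normal.map inferInstance f hf
  have hmin : ∀ U : Subgroup (G ⧸ L), U.Normal → U ≤ K.map f → U = ⊥ ∨ U = K.map f := by
    intro U hU h
    have e : (U.comap f).map f = U := Subgroup.map_comap_eq_self_of_surjective hf U
    rcases hch (U.comap f) (fun x hx => by
      change f x ∈ U
      rw [show f x = 1 from (QuotientGroup.eq_one_iff x).2 hx]; exact one_mem _)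
      ((Subgroup.comap_mono h).trans (by
        rw [Subgroup.comap_map_eq, QuotientGroup.ker_mk']; exact sup_le le_rfl hLK.le))
      inferInstance with h1 | h1
    · left; rw [← e, h1, Subgroup.map_eq_bot_iff, QuotientGroup.ker_mk']
    · right; rw [← e, h1]
  obtain ⟨h1, q, hq, h2⟩ := H1.elementary_of_minimal_normal (K.map f) inferInstance h0 hmin
  have := Fact.mk hq
  obtain ⟨k, hk⟩ := IsPGroup.iff_card.1 (H1.isPGroup_of_pow_eq_one h2)
  have hb : ∀ A B : Subgroup G, ⁅A.map f, B.map f⁆ = ⊥ → ⁅A, B⁆ ≤ L := fun A B h => by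
    rwa [← Subgroup.map_commutator, Subgroup.map_eq_bot_iff, QuotientGroup.ker_mk'] at h
  refine ⟨hb _ _ (H16.der_eq_bot.2 h1), ?_, ?_⟩
  · rw [← H1.card_map_mk'_eq_relIndex, hk]
    refine hq.isPrimePow.pow fun h => h0 (Subgroup.eq_bot_of_card_eq _ (by rw [hk, h, pow_zero]))
  · have h3 := H3.card_modEq_card_inf_centralizer (hP.map f) (le_top.trans (top_le_norm (K.map f)))
    have h4 : (K.map f ⊓ 𝒞(P.map f)).Normal := by
      refine normal_of_top ?_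
      rw [← Subgroup.map_top_of_surjective f hf, ← hG, Subgroup.map_sup]
      exact sup_le (H16.comm_norm h1 le_rfl inf_le_left)
        (H16.norm_inf (le_top.trans (top_le_norm _)) (H16.norm_cent (H16.le_norm _)))
    rcases hmin _ h4 inf_le_left with h5 | h5
    · rwa [h5, Subgroup.card_bot, H1.card_map_mk'_eq_relIndex] at h3
    · exact absurd (hb _ _ (H16.comm_eq_bot.2 (inf_eq_left.1 h5))) hc

/-- no prime power divisor of `d` is `0, ±1` modulo `p` -/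
def Gd (p d : ℕ) : Prop := ∀ q : ℕ, IsPrimePow q → q ∣ d →
  ¬ ((q : ℤ) ≡ -1 [ZMOD p] ∨ (q : ℤ) ≡ 0 [ZMOD p] ∨ (q : ℤ) ≡ 1 [ZMOD p])

theorem Gd.of_dvd (a b : ℕ) (h : a ∣ b) (hb : Gd p b) : Gd p a :=
  fun q h1 h2 => hb q h1 (h2.trans h)

theorem Gd.not_dvd {d : ℕ} (hp : p.Prime) (h : Gd p d) : ¬ p ∣ d :=
  fun hd => h p hp.isPrimePow hd (Or.inr (Or.inl (Int.modEq_zero_iff_dvd.2 dvd_rfl)))

theorem Gd.sq {d e : ℕ} (hp : p.Prime) (h : Gd p d) (he : e ∣ d) (h1 : IsPrimePow (e ^ 2)) :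
    ¬ e ^ 2 ≡ 1 [MOD p] := by
  intro h2
  have h3 : (p : ℤ) ∣ (e - 1) * (e + 1) := by
    have := (Int.natCast_modEq_iff.2 h2).symm.dvd
    push_cast at this
    convert this using 1
    ring
  refine h e ((isPrimePow_pow_iff two_ne_zero).1 h1) he ?_
  rcases (Nat.prime_iff_prime_int.1 hp).dvd_or_dvd h3 with h4 | h4
  · exact Or.inr (Or.inr (Int.modEq_iff_dvd.2 h4).symm)
  · exact Or.inl (Int.modEq_iff_dvd.2 (by simpa using h4)).symm

theorem winter_step [hp : Fact p.Prime] (hs : Group.IsSolvable G) (hχ : χ ∈ Irr ⊤)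
    (hd : Gd p (charDegree χ)) (hf : cfker χ = ⊥)
    (ih : ∀ H : Subgroup G, H ≠ ⊤ → Sep (Gd p) H → PC p H) : PC p G := by
  have hpd := hd.not_dvd hp.out
  obtain ⟨P, hP⟩ := exists_syl p (⊤ : Subgroup G)
  obtain ⟨a, ha⟩ := IsPGroup.iff_card.1 hP.isPGroup
  by_contra h0
  have hA : ∀ N : Subgroup G, ⊤ ≤ 𝒩(N) → P ≤ N → N = ⊤ := fun N hN h => by
    by_contra h1
    have := normal_of_top hN
    obtain ⟨R, a1, a2⟩ := (ih N h1 (sep_normal Gd.of_dvd hχ hd hf)).sub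
    rw [← a1.eq_of_normal ((H16.le_norm N).trans a2) (hP.of_le h le_top)] at a2
    exact h0 (pc_of_syl hP (hN.trans a2))
  obtain ⟨K, ⟨hK, hG⟩, -, hmin⟩ := H1.exists_minimal_le
    (fun K : Subgroup G => K.Normal ∧ K ⊔ P = ⊤) (N := ⊤) ⟨inferInstance, top_sup_eq _⟩
  have hK0 : K ≠ ⊥ := by
    rintro rfl
    rw [bot_sup_eq] at hG
    exact h0 (pc_of_syl hP (hG ▸ H16.le_norm _))
  obtain ⟨L, ⟨hL, hLK⟩, -, hmax⟩ := H1.exists_maximal_ge
    (fun L : Subgroup G => L.Normal ∧ L < K) (N := ⊥) ⟨inferInstance, bot_lt_iff_ne_bot.2 hK0⟩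
  have hch : ∀ U : Subgroup G, L ≤ U → U ≤ K → U.Normal → U = L ∨ U = K := fun U h1 h2 h3 =>
    (h2.lt_or_eq).imp_left fun h => hmax U ⟨h3, h⟩ h1
  have hLP : L ⊔ P ≠ ⊤ := fun h => hLK.ne (hmin L ⟨hL, h⟩ hLK.le)
  have nL : ∀ A : Subgroup G, A ≤ 𝒩(L) := fun A => le_top.trans (top_le_norm L)
  obtain ⟨b1, b2, b3⟩ := chief_facts hs hLK hch hP.isPGroup hG fun h => hLP (hA _ (by
    rw [← hG]
    refine sup_le (H16.norm_of_comm_le ?_) (H16.norm_of_le le_sup_right)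
    exact H16.sup_comm_le ((H16.comm_le_left (nL _)).trans le_sup_left)
      (by rw [Subgroup.commutator_comm]; exact h.trans le_sup_left) (H16.norm_of_le le_sup_left)
      (H16.norm_of_le le_sup_right)) le_sup_right)
  have hθ : Res (K : Set G) χ ∈ Irr K := Res_irr_of_coprime le_top (top_le_norm K) hχ (by
    refine Nat.Coprime.coprime_dvd_right ?_
      (((Nat.Prime.coprime_iff_not_dvd hp.out).2 hpd).symm.pow_right a)
    rw [← hG, H16.relIndex_sup_l (le_top.trans (top_le_norm K)), ← ha]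
    exact Subgroup.relIndex_dvd_card _ _)
  have e0 : charDegree (Res (K : Set G) χ) = charDegree χ := deg_congr (Res_one _ _)
  rcases going_down hLK.le b1 (top_le_norm L) (top_le_norm K) le_top
    (fun U h1 h2 h3 => hch U h1 h2 (normal_of_top h3)) hθ
    (le_stab_Res (top_le_norm K) (irr_cf hχ)) with h | ⟨e, h1, h2⟩ | h
  rotate_left
  · exact hd.sq hp.out (e0 ▸ h2) (h1 ▸ b2) (h1 ▸ b3)
  · exact hd _ b2 (e0 ▸ h) (Or.inr (Or.inr (by simpa using Int.natCast_modEq_iff.2 b3)))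
  rw [Res_Res_of_le hLK.le] at h
  have h1 : Res ((L ⊔ P : Subgroup G) : Set G) χ ∈ Irr (L ⊔ P) :=
    ((irr_char hχ).Res le_top).mem_Irr_of_Res le_sup_left (by rwa [Res_Res_of_le le_sup_left])
  obtain ⟨R, a1, a2⟩ := (ih _ hLP (sep_sub fun g hg h2 => ⟨_, h1, deg_congr (Res_one _ χ) ▸ hd,
    fun h3 => h2 (by
      rw [(irr_char hχ).cfker_Res (irr_ne_zero hχ), hf] at h3
      exact h3.2)⟩)).sub
  rw [← a1.eq_of_normal ((H16.le_norm _).trans a2) (hP.of_le le_sup_right le_top)] at a2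
  have hLn : L ≤ 𝒩(P) := le_sup_left.trans ((H16.le_norm _).trans a2)
  have hR : Syl(p, L ⊓ P, L) := hP.inf_normal' le_top (nL _)
  have nR : ⊤ ≤ 𝒩(L ⊓ P) := hR.le_norm_of_normal (H16.norm_inf (nL _) hLn) (nL _)
  have := normal_of_top nR
  have h2 : ⁅(⊤ : Subgroup G), L⁆ ≤ L ⊓ P := by
    have := centMod_normal (K := L ⊓ P) L
    rw [← le_cm, hA _ (top_le_norm (centMod (L ⊓ P) (L : Set G))) (le_cm.2 (le_inf
      (H16.comm_le_right (nL _)) (H16.comm_le_left hLn)))]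
  obtain ⟨l, hl, h3⟩ := exists_under (H := L ⊓ P) le_top hχ
  obtain ⟨e, -, -, e2⟩ := deg_clifford le_top nR hl (mem_over.2 ⟨hχ, h3⟩)
  have hRT : L ⊓ P ≤ stab l := le_stab (irr_cf hl)
  have h4 : L ⊔ stab l = ⊤ := by
    refine eq_top_iff.2 fun g _ => ?_
    have h4 : dot (L ⊓ P) χ (cfj g l) ≠ 0 := by
      rwa [← cfj_of_mem (irr_cf hχ) (Subgroup.mem_top g), dot_cfj_norm (nR trivial)]
    obtain ⟨k, hk, e⟩ := mem_orb.1 (clifford_mem_orb inf_le_left (le_top.trans nR) h hl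
      (cfj_mem_Irr_norm (nR trivial) hl) (by rwa [dot_Res_left_of_le inf_le_left])
      (by rwa [dot_Res_left_of_le inf_le_left]))
    have : k⁻¹ * g ∈ stab l := by rw [mem_stab, cfj_mul, ← e, cfj_inv_cfj]
    simpa using mul_mem (Subgroup.mem_sup_left hk) (Subgroup.mem_sup_right this)
  have nT : ⊤ ≤ 𝒩(stab l) := by
    rw [← h4]
    exact sup_le (H16.norm_of_comm_le ((Subgroup.commutator_mono le_top le_rfl).trans (h2.trans hRT)))
      (H16.le_norm _)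
  have h5 : stab l = ⊤ := hA _ nT (H1.le_of_coprime_relIndex le_top nT (by
    rw [ha]
    exact ((Nat.Prime.coprime_iff_not_dvd hp.out).2 fun h => hpd
      (e2 ▸ (h.mul_left _).mul_right _)).pow_left a))
  have h6 := (hall_central_inertia inf_le_left (le_top.trans nR) hl (T := L) (by rw [h5, inf_top_eq])
    ((Subgroup.commutator_mono le_top le_rfl).trans h2) hR.coprime_idx).2.2.2 _
    (mem_over.2 ⟨h, by rwa [dot_Res_left_of_le inf_le_left]⟩)
  obtain ⟨b, hb⟩ := IsPGroup.iff_card.1 hR.isPGroup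
  have h7 : charDegree l = 1 := Nat.eq_one_of_dvd_coprimes
    (((Nat.Prime.coprime_iff_not_dvd hp.out).2 hpd).pow_left b) (hb ▸ deg_dvd_card hl)
    (e2 ▸ dvd_mul_left _ _)
  have h8 := (irr_one_eq_one_iff hχ).1 (by
    rw [← Res_one L χ, h6.2, one_of_deg hl h7, Subgroup.relIndex_self]; simp)
  rw [hf, le_bot_iff, H16.der_eq_bot] at h8
  exact h0 (pc_of_syl hP (H16.comm_norm h8 le_rfl le_top))

theorem winter_aux [hp : Fact p.Prime] (n : ℕ) : ∀ (G : Type u) [Group G] [Finite G],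
    Nat.card G = n → Group.IsSolvable G → Sep (Gd p) G → PC p G := by
  induction n using Nat.strong_induction_on with
  | _ n ih =>
  intro G _ _ hn hs h
  by_cases h1 : ∃ χ ∈ Irr (⊤ : Subgroup G), Gd p (charDegree χ) ∧ cfker χ = ⊥
  · obtain ⟨χ, a1, a2, a3⟩ := h1
    exact winter_step hs a1 a2 a3 fun H hH h' =>
      ih _ (hn ▸ H1.card_lt_card_of_ne_top hH) H rfl inferInstance h'
  push Not at h1
  refine pc_of_iInf {N | ∃ χ, IsIrrCharacter G χ ∧ Gd p (charDegree χ) ∧ charKer χ = N} ?_ ?_ ?_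
  · rintro _ ⟨χ, a1, -, rfl⟩
    exact a1.isCharacter.charKer_normal
  · intro g hg
    by_contra h2
    obtain ⟨χ, a1, a2, a3⟩ := h g h2
    exact a3 (a1.mem_charKer.1 (hg _ ⟨χ, a1, a2, rfl⟩))
  · rintro _ ⟨χ, a1, a2, rfl⟩ _
    obtain ⟨ψ, b1, -, b3, b4⟩ := H9.exists_faithful_quot a1
    exact ih _ (hn ▸ H1.card_quotient_lt (h1 χ (mem_Irr_top.2 a1) a2)) _ rfl inferInstance
      fun g hg => ⟨ψ, b1, b4 ▸ a2, fun e => hg (b3 g e)⟩

end H21
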