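/-
Orders of `p`-groups with a faithful irreducible character in terms of its field of values.
-/
import Cfsg.Agent.H21.MS4
import Cfsg.Agent.H2.FPF2
import Cfsg.Agent.H16.Misc

set_option autoImplicit false
set_option linter.unusedSectionVars false
open H17 Cfsg H15 CF
open scoped ComplexConjugate commutatorElement

namespace H21

/-- the field automorphisms fixing all values -/
def gs {X : Type*} (χ : X → ℂ) : Subgroup (RingAut ℂ) := MulAction.stabilizer (RingAut ℂ) χ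

theorem mem_gs {X : Type*} {χ : X → ℂ} {σ : RingAut ℂ} : σ ∈ gs χ ↔ ∀ x, σ (χ x) = χ x :=
  funext_iff

theorem gs_index_le {X : Type*} (χ : X → ℂ)
    (h : 0 < Module.finrank ℚ (IntermediateField.adjoin ℚ (Set.range χ))) : (gs χ).index ≠ 0 ∧
      (gs χ).index ≤ Module.finrank ℚ (IntermediateField.adjoin ℚ (Set.range χ)) := by
  set F := IntermediateField.adjoin ℚ (Set.range χ)
  have := Module.finite_of_finrank_pos h
  have hs : MulAction.orbit (RingAut ℂ) χ ⊆ Set.range fun (τ : F →ₐ[ℚ] ℂ) (x : X) =>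
      τ ⟨χ x, IntermediateField.subset_adjoin ℚ _ ⟨x, rfl⟩⟩ := by
    rintro _ ⟨σ, rfl⟩
    exact ⟨((σ : ℂ →+* ℂ).toRatAlgHom).comp F.val, rfl⟩
  rw [gs, MulAction.index_stabilizer]
  refine ⟨((Set.ncard_pos ((Set.finite_range _).subset hs)).2 ⟨_, MulAction.mem_orbit_self χ⟩).ne',
    (Set.ncard_le_ncard hs (Set.finite_range _)).trans ?_⟩
  rw [← AlgHom.card ℚ F ℂ, ← Set.image_univ, Fintype.card_eq_nat_card, ← Set.ncard_univ]
  exact Set.ncard_image_le

universe u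
variable {G : Type u} [Group G] [Finite G] {P H K L M N A : Subgroup G} {χ ψ θ l : G → ℂ}
  {p n : ℕ}

theorem mem_gs' {σ : RingAut ℂ} : σ ∈ gs χ ↔ aut (σ : ℂ →+* ℂ) χ = χ := Iff.rfl

theorem gs_index_ne (h : χ ∈ Irr K) : (gs χ).index ≠ 0 := by
  rw [gs, MulAction.index_stabilizer]
  refine ((Set.ncard_pos ((Irr K).finite_toSet.subset ?_)).2 ⟨_, MulAction.mem_orbit_self χ⟩).ne'
  rintro _ ⟨σ, rfl⟩
  exact aut_mem_Irr (σ : ℂ →+* ℂ) h

theorem totient_le_gs (hA : IsCyclic A) (hl : IsLin A l) (hf : cfker l = ⊥) :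
    (Nat.card A).totient ≤ (gs l).index := by
  obtain ⟨x, rfl⟩ := H16.exists_gen hA
  have hx := Subgroup.mem_zpowers x
  have h0 : orderOf x ≠ 0 := (orderOf_pos x).ne'
  have hζ : IsPrimitiveRoot (l x) (orderOf x) := ⟨hl.pow_orderOf hx, fun k hk => by
    rw [← hl.map_pow hx, ← hl.mem_cfker, hf] at hk
    exact orderOf_dvd_of_pow_eq_one hk⟩
  have hfin : (MulAction.orbit (RingAut ℂ) l).Finite := by
    refine (Irr (Subgroup.zpowers x)).finite_toSet.subset ?_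
    rintro _ ⟨σ, rfl⟩
    exact aut_mem_Irr (σ : ℂ →+* ℂ) hl.mem_Irr
  rw [gs, MulAction.index_stabilizer, H16.card_zpowers, ← hζ.card_primitiveRoots,
    ← Set.ncard_coe_finset]
  refine le_trans (Set.ncard_le_ncard ?_ (hfin.image fun φ => φ x)) (Set.ncard_image_le hfin)
  intro z hz
  have := NeZero.mk h0
  obtain ⟨k, -, hk, rfl⟩ := hζ.isPrimitiveRoot_iff.1 ((mem_primitiveRoots (orderOf_pos x)).1 hz)
  obtain ⟨σ, hσ⟩ := exists_ringEquiv_pow h0 hk
  exact ⟨_, ⟨σ, rfl⟩, hσ _ hζ.pow_eq_one⟩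

theorem gs_relIndex_le (hHK : H ≤ K) (hn : K ≤ 𝒩(H)) (hχ : χ ∈ Irr K) (hθ : θ ∈ Irr H)
    (h : dot H χ θ ≠ 0) : (gs θ).index ≤ (stab θ).relIndex K * (gs χ).index := by
  have h1 : (gs θ).relIndex (gs χ) ≤ (stab θ).relIndex K := by
    have e : (gs θ).subgroupOf (gs χ) = MulAction.stabilizer (gs χ) θ := rfl
    rw [Subgroup.relIndex, e, MulAction.index_stabilizer, ← card_orb, ← Set.ncard_coe_finset]
    refine Set.ncard_le_ncard ?_
    rintro _ ⟨⟨σ, hσ⟩, rfl⟩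
    refine clifford_mem_orb hHK hn hχ hθ (aut_mem_Irr (σ : ℂ →+* ℂ) hθ) h ?_
    change dot H χ (aut (σ : ℂ →+* ℂ) θ) ≠ 0
    have := dot_aut (σ : ℂ →+* ℂ) χ (irr_vchar hθ)
    rw [mem_gs'.1 hσ] at this
    rw [this]
    simpa using h
  refine le_trans (Nat.le_of_dvd (Nat.pos_of_ne_zero ?_)
    (Subgroup.index_dvd_of_le (inf_le_left : gs θ ⊓ gs χ ≤ _))) ?_
  · exact Subgroup.index_inf_ne_zero (gs_index_ne hθ) (gs_index_ne hχ)
  · rw [← Subgroup.relIndex_mul_index (inf_le_right : gs θ ⊓ gs χ ≤ _), Subgroup.inf_relIndex_right]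
    exact Nat.mul_le_mul_right _ h1

theorem num_cyc (hp : p.Prime) {m s t : ℕ} (h : p ^ m * (p - 1) ≤ p ^ s * ((p - 1) * p ^ t)) :
    (p - 1) * (m + 1 + s) + 1 ≤ p ^ s + (p - 1) * (t + 1) * p ^ s := by
  obtain ⟨q, rfl⟩ : ∃ q, p = q + 1 := ⟨p - 1, by have := hp.pos; omega⟩
  have hq : 0 < q := by have := hp.two_le; omega
  simp only [Nat.add_sub_cancel] at h ⊢
  have h1 : m ≤ s + t := by
    refine (Nat.pow_le_pow_iff_right hp.one_lt).1 (Nat.le_of_mul_le_mul_right ?_ hq)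
    rw [pow_add]
    nlinarith
  have h2 : 1 + s * q ≤ (q + 1) ^ s := by
    have := one_add_mul_le_pow (a := (q : ℤ)) (by omega) s
    rw [add_comm 1 (q : ℤ)] at this
    exact_mod_cast this
  obtain ⟨d, hd⟩ := Nat.exists_eq_add_of_le h2
  rw [hd]
  have h3 : q * (m + 1 + s) ≤ q * (s + t + 1 + s) := Nat.mul_le_mul_left _ (by omega)
  have h4 : q * s ≤ q * (s * q) := Nat.mul_le_mul_left _ (Nat.le_mul_of_pos_right _ hq)
  nlinarith [Nat.zero_le (q * t * (s * q)), Nat.zero_le (q * t * d), Nat.zero_le (q * d)]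

theorem roq_cyc [hp : Fact p.Prime] (hG : IsPGroup p G) [A.Normal] (hA : IsCyclic A)
    (hC : 𝒞(A) = A) (h0 : A ≠ ⊥) (hχ : χ ∈ Irr ⊤) (hf : cfker χ = ⊥) {a t : ℕ}
    (ha : Nat.card G = p ^ a) (ht : (gs χ).index ≤ (p - 1) * p ^ t) :
    (p - 1) * a + 1 ≤ charDegree χ + (p - 1) * (t + 1) * charDegree χ := by
  obtain ⟨l, hl, h1⟩ := exists_under (H := A) le_top hχ
  have hl' := isLin_of_comm (H16.comm_of_cyclic hA) hl
  have h2 : cfker l = ⊥ := by
    have : (cfker l).Normal :=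
      normal_of_top ((top_le_norm A).trans (H16.norm_le_norm_cyclic hA (irr_cfker_le hl)))
    exact eq_bot_iff.2 (hf ▸ (le_cfker_over_iff le_top (irr_cfker_le hl) (top_le_norm _) hχ hl h1).2 le_rfl)
  have h3 : ⊤ ⊓ stab l ≤ A := by
    rw [top_inf_eq, ← hC]
    refine H16.comm_eq_bot.1 (eq_bot_iff.2 (h2 ▸ (hl'.le_stab_iff ?_).1 le_rfl))
    exact le_top.trans (top_le_norm A)
  have h4 : stab l = A := le_antisymm (by simpa using h3) (le_stab hl'.cf)
  have h5 := irr_eq_of_dot_ne hχ (Ind_mem_Irr_of_stab le_top (top_le_norm A) hl h3)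
    (by rwa [dot_Ind_right le_top _ (irr_cf hχ)])
  obtain ⟨m, hm⟩ := IsPGroup.iff_card.1 (hG.to_subgroup A)
  obtain ⟨s, hs⟩ := hG.index A
  have h6 : charDegree χ = p ^ s := by
    rw [h5, deg_Ind le_top hl, deg_lin hl', mul_one, Subgroup.relIndex_top_right, hs]
  rcases m with _ | m
  · exact absurd (Subgroup.eq_bot_of_card_eq _ (by simpa using hm)) h0
  have h7 := (totient_le_gs hA hl' h2).trans (gs_relIndex_le le_top (top_le_norm A) hχ hl h1)
  rw [hm, h4, Subgroup.relIndex_top_right, hs, Nat.totient_prime_pow_succ hp.out] at h7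
  have h8 : a = m + 1 + s := Nat.pow_right_injective hp.out.two_le (by
    change p ^ a = p ^ (m + 1 + s)
    rw [← ha, ← A.card_mul_index, hm, hs, ← pow_add])
  rw [h6, h8]
  exact num_cyc hp.out (h7.trans (Nat.mul_le_mul_left _ ht))

theorem roq_step [hp : Fact p.Prime] (hG : IsPGroup p G) [A.Normal] (hA : IsMulCommutative A)
    (hc : ¬ IsCyclic A) (hχ : χ ∈ Irr ⊤) (hf : cfker χ = ⊥) :
    ∃ M : Subgroup G, M.Normal ∧ M.index = p ∧ ∃ ψ ∈ Irr M, Ind ⊤ M ψ = χ ∧ gs χ ≤ gs ψ := by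
  set E := H1.powKer A p
  have nE : ⊤ ≤ 𝒩(E) := (top_le_norm A).trans (H1.normalizer_le_normalizer_powKer A p)
  have := normal_of_top nE
  have hE : ¬ IsCyclic E := fun h => by
    let _ : CommGroup A := { mul_comm := hA.is_comm.comm }
    obtain ⟨q, hq, D, h1, h2, h3⟩ := H2.exists_noncyclic_sq_of_not_isCyclic hc
    obtain ⟨k, hk⟩ := IsPGroup.iff_card.1 (hG.to_subgroup A)
    have h4 : q = p := (Nat.prime_dvd_prime_iff_eq hq hp.out).1 (hq.dvd_of_dvd_pow
      (hk ▸ (dvd_mul_right q q).trans (h1 ▸ D.card_subgroup_dvd_card)))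
    subst h4
    have h5 : D.map A.subtype ≤ E := by
      rintro _ ⟨x, hx, rfl⟩
      exact H1.mem_powKer.2 ⟨x.2, by simpa using congrArg Subtype.val (h2 x hx)⟩
    have := H16.cyclic_of_le h h5
    exact h3 (isCyclic_of_surjective _ (D.equivMapOfInjective _ A.subtype_injective).symm.surjective)
  obtain ⟨l, hl, h1⟩ := exists_under (H := E) le_top hχ
  have hl' := isLin_of_comm (H16.comm_of_le hA (H1.powKer_le A p)) hl
  have hT : stab l ≠ ⊤ := fun h => hE (by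
    have h2 : ⁅(⊤ : Subgroup G), E⁆ ≤ cfker l := (hl'.le_stab_iff nE).1 h.ge
    have h3 := (le_cfker_over_iff le_top (H16.comm_le_right nE)
      (H16.norm_comm (top_le_norm _) nE) hχ hl h1).2 h2
    rw [hf, le_bot_iff, Subgroup.commutator_comm, H16.comm_eq_bot, cent_top] at h3
    exact H16.cyclic_of_le ((mem_Irr_top.1 hχ).isCyclic_center hf) h3)
  obtain ⟨M, hM, hTM⟩ := H1.exists_coatom_ge hT
  have := hG.isNilpotent
  have hn : M.Normal := Subgroup.NormalizerCondition.normal_of_coatom M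
    Group.normalizerCondition_of_isNilpotent hM
  have hi : M.index = p := by
    obtain ⟨s, hs⟩ := hG.index M
    have h2 := H9.index_prime_of_coatom hM
    exact ((Nat.prime_dvd_prime_iff_eq h2 hp.out).1 (h2.dvd_of_dvd_pow hs.dvd))
  obtain ⟨η, hη, e1, e2⟩ := cliffCorr_exists le_top nE hl (top_inf_eq (stab l)).symm hχ h1
  have e3 : Ind ⊤ M (Ind M (stab l) η) = χ := by rw [Ind_Ind hTM le_top, e1]
  refine ⟨M, hn, hi, _, (Ind_irr_char hTM hη).mem_Irr_of_Ind le_top (e3 ▸ hχ), e3, fun σ hσ => ?_⟩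
  obtain ⟨z, hz, z1, z2⟩ := H9.exists_mem_center_orderOf_eq hG
    (M := E) (fun h => hE (h ▸ H16.cyclic_bot))
  have h2 : χ z = χ 1 * l z := by
    have := clifford le_top nE hχ hl h1
    rw [← Res_of_mem χ hz, ← Res_one E χ, this]
    simp only [Pi.smul_apply, Finset.sum_apply, smul_eq_mul, mul_assoc, Finset.sum_mul]
    congr 1
    refine Finset.sum_congr rfl fun φ hφ => ?_
    obtain ⟨g, -, rfl⟩ := mem_orb.1 hφ
    rw [cfj_at_one, hl'.one_apply, one_mul, cfj_apply, mul_assoc, ← Subgroup.mem_center_iff.1 z1 g,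
      inv_mul_cancel_left]
  have h3 : IsPrimitiveRoot (l z) p := by
    refine IsPrimitiveRoot.iff_orderOf.2 (orderOf_eq_prime (z2 ▸ hl'.pow_orderOf hz) fun h4 => ?_)
    have h5 : z ∈ cfker χ := (irr_mem_cfker hχ).2 (by rw [h2, h4, mul_one])
    rw [hf, Subgroup.mem_bot] at h5
    exact hp.out.one_lt.ne (by rw [← z2, h5, orderOf_one])
  have h4 : σ (l z) = l z := by
    have := mem_gs.1 hσ z
    rwa [h2, map_mul, mem_gs.1 hσ 1, mul_right_inj' (irr_one_ne hχ)] at this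
  have h5 : aut (σ : ℂ →+* ℂ) l = l := by
    refine cf_ext (aut_mem_cf _ hl'.cf) hl'.cf fun x hx => ?_
    have := NeZero.mk hp.out.ne_zero
    obtain ⟨i, -, hi⟩ := h3.eq_pow_of_pow_eq_one (ξ := l x) (by
      rw [← hl'.map_pow hx, (H1.mem_powKer.1 hx).2, hl'.one_apply])
    rw [aut_apply, ← hi, map_pow]
    exact congrArg (· ^ i) h4
  have h6 : aut (σ : ℂ →+* ℂ) η = η := by
    refine cliffCorr_inj le_top nE hl (top_inf_eq (stab l)).symm (aut_mem_Irr _ hη) ?_ hη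
      (e2 ▸ h1) (by rw [← aut_Ind, e1, mem_gs'.1 hσ])
    rw [← h5, dot_aut _ _ (irr_vchar hl)]
    simpa [e2] using h1
  rw [mem_gs', aut_Ind, h6]

theorem card_le_pow_of_Ind [M.Normal] (hψ : ψ ∈ Irr M) (hf : cfker (Ind ⊤ M ψ) = ⊥) :
    Nat.card M ≤ (cfker ψ).relIndex M ^ M.index := by
  classical
  have h1 : (⨅ φ : orb ⊤ ψ, cfker (φ : G → ℂ)) = ⊥ := by
    refine eq_bot_iff.2 (hf ▸ ?_)
    rw [Ind_normal_eq_sum_orb (irr_cf hψ) le_top]
    exact le_cfker_smul (le_cfker_sum _ _ fun φ hφ => iInf_le (fun φ : orb ⊤ ψ => cfker (φ : G → ℂ))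
      ⟨φ, hφ⟩) _
  have h2 := Subgroup.relIndex_iInf_le (L := M) fun φ : orb ⊤ ψ => cfker (φ : G → ℂ)
  rw [h1, Subgroup.relIndex_bot_left, Finset.prod_congr rfl (g := fun _ => (cfker ψ).relIndex M),
    Finset.prod_const, Finset.card_univ, Fintype.card_coe, card_orb] at h2
  · refine h2.trans (Nat.pow_le_pow_right (CF.relIndex_pos _ _) ?_)
    rw [Subgroup.relIndex_top_right]
    exact Nat.le_of_dvd (Nat.pos_of_ne_zero Subgroup.index_ne_zero_of_finite)
      (Subgroup.index_dvd_of_le (le_stab (irr_cf hψ)))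
  · rintro ⟨φ, hφ⟩ -
    obtain ⟨g, -, rfl⟩ := mem_orb.1 hφ
    simp only
    rw [cfker_cfj, ← relIndex_cj g (cfker ψ) M, cj_of_mem_norm (top_le_norm M trivial)]

theorem roq_aux [hp : Fact p.Prime] (t n : ℕ) : ∀ (G : Type u) [Group G] [Finite G],
    Nat.card G = n → ∀ a, Nat.card G = p ^ a → ∀ χ ∈ Irr (⊤ : Subgroup G), cfker χ = ⊥ →
    (gs χ).index ≤ (p - 1) * p ^ t →
    (p - 1) * a + 1 ≤ charDegree χ + (p - 1) * (t + 1) * charDegree χ := by
  induction n using Nat.strong_induction_on with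
  | _ n ih =>
  intro G _ _ hn a ha χ hχ hf ht
  have hG : IsPGroup p G := IsPGroup.of_card ha
  obtain ⟨A, h1, h2, -, h3, -⟩ := H9.exists_maximal_abelian_normal hG ⊥ inferInstance
  by_cases h0 : A = ⊥
  · rw [h0, cent_bot] at h3
    have : p ^ a = p ^ 0 := by rw [← ha, ← Subgroup.card_top, h3, Subgroup.card_bot, pow_zero]
    rw [Nat.pow_right_injective hp.out.two_le this]
    have := deg_pos hχ
    omega
  by_cases hc : IsCyclic A
  · exact roq_cyc hG hc h3 h0 hχ hf ha ht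
  obtain ⟨M, h4, h5, ψ, hψ, e, h6⟩ := roq_step hG h2 hc hχ hf
  have h7 := card_le_pow_of_Ind hψ (e ▸ hf)
  have := (irr_res hψ).isCharacter.charKer_normal
  obtain ⟨φ, b1, b2, b3, b4⟩ := H9.exists_faithful_quot (irr_res hψ)
  obtain ⟨b, hb⟩ := IsPGroup.iff_card.1 ((hG.to_subgroup M).to_quotient (charKer (res M ψ)))
  have h8 : (cfker ψ).relIndex M = p ^ b := by
    rw [← hb, Subgroup.relIndex]
    congr 2
    ext x
    rw [Subgroup.mem_subgroupOf, irr_mem_cfker hψ, (irr_res hψ).mem_charKer]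
    rfl
  have hM : M ≠ ⊤ := fun h => hp.out.one_lt.ne (by rw [← h5, h, Subgroup.index_top])
  have h9 := ih _ (hn ▸ (Nat.le_of_dvd Nat.card_pos (H1.card_quotient_dvd _)).trans_lt
    (H1.card_lt_card_of_ne_top hM)) _ rfl b hb φ (mem_Irr_top.2 b1)
    (eq_bot_iff.2 fun g hg => b3 g (cfker_apply hg)) (le_trans (Nat.le_of_dvd
      (Nat.pos_of_ne_zero (gs_index_ne hχ)) (Subgroup.index_dvd_of_le (h6.trans fun σ hσ =>
        mem_gs.2 fun x => by
          obtain ⟨x, rfl⟩ := QuotientGroup.mk_surjective x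
          rw [← b2]
          exact mem_gs.1 hσ _))) ht)
  have h10 : charDegree χ = p * charDegree φ := by
    rw [← e, deg_Ind le_top hψ, Subgroup.relIndex_top_right, h5, b4]
    rfl
  have h11 : a ≤ 1 + b * p := by
    refine (Nat.pow_le_pow_iff_right hp.out.one_lt).1 ?_
    rw [← ha, ← M.index_mul_card, h5, pow_add, pow_one, pow_mul, ← h8]
    exact Nat.mul_le_mul_left _ (h5 ▸ h7)
  rw [h10]
  obtain ⟨q, rfl⟩ : ∃ q, p = q + 1 := ⟨p - 1, by have := hp.out.pos; omega⟩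
  simp only [Nat.add_sub_cancel] at h9 ⊢
  nlinarith [Nat.mul_le_mul_left q h11, Nat.mul_le_mul_left (q + 1) h9]

end H21
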