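import Cfsg.Agent.H7.J4c

/-! Certificates in a computable model of a group: words, programs, elementary abelian subgroups. -/

set_option autoImplicit false

namespace H21.Mat
open H29 H7 Subgroup
open scoped commutatorElement

variable {G : Type*} [Group G] {M : Model G} {K : Subgroup G}

/-- product with evaluated arguments -/
noncomputable def fm (M : Model G) (a b : ℕ) : ℕ := force a fun x => force b fun y => M.mul x y

/-- value of a word -/
noncomputable def wd (M : Model G) (L w : List ℕ) : ℕ := F42.evc M.mul M.one L w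

/-- power -/
noncomputable def pp (M : Model G) (a n : ℕ) : ℕ := pw M.mul M.one a n

/-- two codes commute -/
noncomputable def cm (M : Model G) (a b : ℕ) : Bool :=
  force a fun x => force b fun y => M.eqb (M.mul x y) (M.mul y x)

/-- straight line program -/
noncomputable def slp (M : Model G) (P : List (List ℕ × ℕ)) : List ℕ → List ℕ :=
  List.rec (motive := fun _ => List ℕ → List ℕ) (fun L => L)
    (fun p _ ih L => force (pp M (wd M L p.1) p.2) fun c => ih (L ++ [c])) P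

theorem R_fm {a b : ℕ} {g h : G} (ha : M.R a g) (hb : M.R b h) : M.R (fm M a b) (g * h) :=
  M.R_mul ha hb

theorem R_pp {a : ℕ} {g : G} (ha : M.R a g) (n : ℕ) (hn : n < 2 ^ 64 := by norm_num) :
    M.R (pp M a n) (g ^ n) := M.R_pw ha n hn

theorem R_beq {a b : ℕ} {g : G} (ha : M.R a g) (e : Nat.beq b a = true) : M.R b g := by
  rw [Nat.eq_of_beq_eq_true e]; exact ha

theorem R_inv {a b : ℕ} {g : G} (ha : M.R a g) (hb : M.In K b) (e : M.eqb (fm M a b) M.one = true) :
    M.R b g⁻¹ := by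
  obtain ⟨h, -, hr⟩ := hb
  rwa [← eq_inv_of_mul_eq_one_right (M.eq_of (R_fm ha hr) M.R_one e)]

theorem cm_t {a b : ℕ} {g h : G} (ha : M.R a g) (hb : M.R b h) (e : cm M a b = true) : Commute g h :=
  M.eq_of (M.R_mul ha hb) (M.R_mul hb ha) e

theorem cm_f {a b : ℕ} {g h : G} (ha : M.R a g) (hb : M.R b h) (e : cm M a b = false) :
    ¬ Commute g h := M.ne_of (M.R_mul ha hb) (M.R_mul hb ha) e

theorem pp_one {a n : ℕ} {g : G} (ha : M.R a g) (hn : n < 2 ^ 64)
    (e : M.eqb (pp M a n) M.one = true) : g ^ n = 1 := M.eq_of (R_pp ha n hn) M.R_one e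

theorem in_get {L : List ℕ} (h : ∀ c ∈ L, M.In K c) (i : ℕ) : M.In K (lgetD M.one L i) := by
  rcases lgetD_mem_or M.one L i with e | e
  · exact h _ e
  · rw [e]; exact Model.In.one

theorem in_wd {L : List ℕ} (h : ∀ c ∈ L, M.In K c) (w : List ℕ) : M.In K (wd M L w) := by
  induction w with
  | nil => exact Model.In.one
  | cons a w ih => exact Model.In.mul (in_get h a) ih

theorem in_slp (P : List (List ℕ × ℕ)) (hP : ∀ p ∈ P, p.2 < 2 ^ 64) :
    ∀ L : List ℕ, (∀ c ∈ L, M.In K c) → ∀ c ∈ slp M P L, M.In K c := by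
  induction P with
  | nil => exact fun L h => h
  | cons p P ih =>
    intro L h
    refine ih (fun q hq => hP q (List.mem_cons_of_mem _ hq)) (L ++ [pp M (wd M L p.1) p.2])
      fun c hc => ?_
    rcases List.mem_append.1 hc with e | e
    · exact h c e
    · rw [List.mem_singleton.1 e]
      exact Model.In.pw (in_wd h _) _ (hP p List.mem_cons_self)

theorem card_elem {n : ℕ} (e m : Fin n → G) (h2 : ∀ i, e i ^ 2 = 1) (hc : ∀ i j, Commute (e i) (e j))
    (hm : ∀ i j, i ≠ j → Commute (e i) (m j)) (hn : ∀ j, ¬ Commute (e j) (m j)) :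
    Nat.card (⨆ i, zpowers (e i) : Subgroup G) = 2 ^ n := by
  have ho : ∀ i, orderOf (e i) = 2 := fun i =>
    orderOf_eq_prime (h2 i) fun h => hn i (h ▸ Commute.one_left _)
  have h1 : Pairwise fun i j => ∀ x y : G, x ∈ zpowers (e i) → y ∈ zpowers (e j) → Commute x y := by
    rintro i j - _ _ ⟨a, rfl⟩ ⟨b, rfl⟩
    exact (hc i j).zpow_zpow a b
  have h3 : iSupIndep fun i => zpowers (e i) := fun i => by
    refine Disjoint.mono_right (c := centralizer {m i}) (iSup₂_le fun j hj => zpowers_le.2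
      (mem_centralizer_singleton_iff.2 (hm j i hj).eq)) (disjoint_def.2 ?_)
    intro x hx hx'
    obtain ⟨a, rfl⟩ := mem_zpowers_iff.1 hx
    have h4 : e i ^ (2 : ℤ) = 1 := by exact_mod_cast h2 i
    obtain ⟨b, rfl | rfl⟩ := Int.even_or_odd' a
    · rw [zpow_mul, h4, one_zpow]
    · rw [zpow_add, zpow_mul, h4, one_zpow, one_mul, zpow_one] at hx'
      exact (hn i (mem_centralizer_singleton_iff.1 hx')).elim
  rw [← noncommPiCoprod_range (hcomm := h1),
    ← Nat.card_congr (MonoidHom.ofInjective (injective_noncommPiCoprod_of_iSupIndep h3)).toEquiv,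
    Nat.card_pi]
  simp [Nat.card_zpowers, ho]

theorem elemM {LE LM : List ℕ} (hl : LE.length = 11) (hE : ∀ c ∈ LE, M.In K c)
    (hM : ∀ c ∈ LM, M.In ⊤ c)
    (h1 : ∀ i < 11, ∀ j < 11, cm M (lgetD M.one LE i) (lgetD M.one LE j) = true ∧
      cm M (lgetD M.one LE i) (lgetD M.one LM j) = decide (i ≠ j))
    (h2 : ∀ i < 11, M.eqb (pp M (lgetD M.one LE i) 2) M.one = true) :
    ∃ E : Subgroup G, Nat.card E = 2 ^ 11 ∧ E ≤ K ∧ (∀ w, M.In E (wd M LE w)) ∧
      ∀ (g : G) (c c' : ℕ) (W : List (List ℕ)), M.R c g → M.R c' g⁻¹ →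
        (∀ i < 11, M.eqb (fm M (fm M c (lgetD M.one LE i)) c') (wd M LE (W.getD i [])) = true) →
        g ∈ normalizer (E : Set G) := by
  choose e e1 e2 using fun i : Fin 11 => in_get hE i
  choose m m1 m2 using fun i : Fin 11 => in_get hM i
  have hc := card_elem e m (fun i => pp_one (e2 i) (by norm_num) (h2 i i.2))
    (fun i j => cm_t (e2 i) (e2 j) (h1 i i.2 j j.2).1)
    (fun i j h => cm_t (e2 i) (m2 j) ((h1 i i.2 j j.2).2.trans (by simpa [Fin.val_inj] using h)))
    fun j => cm_f (e2 j) (m2 j) ((h1 j j.2 j j.2).2.trans (by simp))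
  have hw : ∀ w, M.In (⨆ i, zpowers (e i)) (wd M LE w) := in_wd fun c hc => by
    obtain ⟨i, hi, rfl⟩ := exists_lgetD M.one hc
    exact ⟨_, mem_iSup_of_mem ⟨i, hl ▸ hi⟩ (mem_zpowers _), e2 ⟨i, hl ▸ hi⟩⟩
  refine ⟨_, hc, iSup_le fun i => zpowers_le.2 (e1 i), hw, fun g c c' W a1 a2 a3 => ?_⟩
  haveI : Finite (⨆ i, zpowers (e i) : Subgroup G) := Nat.finite_of_card_ne_zero (by rw [hc]; norm_num)
  have : (⨆ i, zpowers (e i) : Subgroup G) ≤ (⨆ i, zpowers (e i) : Subgroup G).comap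
      (MulAut.conj g).toMonoidHom := iSup_le fun i => zpowers_le.2 (by
    obtain ⟨x, hx, hr⟩ := hw (W.getD i [])
    exact (M.eq_of (R_fm (R_fm a1 (e2 i)) a2) hr (a3 i i.2) ▸ hx : g * e i * g⁻¹ ∈ _))
  exact mem_normalizer_fintype fun n hn => this hn

theorem R_comm {a b c : ℕ} {g h : G} (ha : M.R a g) (hb : M.R b h) (h1 : g ^ 11 = 1) (h2 : h ^ 11 = 1)
    (e : Nat.beq c (fm M (fm M (fm M a b) (pp M a 10)) (pp M b 10)) = true) : M.R c ⁅g, h⁆ := by
  have i : ∀ {z : G}, z ^ 11 = 1 → z⁻¹ = z ^ 10 := fun hz =>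
    inv_eq_of_mul_eq_one_left (by rwa [← pow_succ])
  rw [commutatorElement_def, i h1, i h2]
  exact R_beq (R_fm (R_fm (R_fm ha hb) (R_pp ha 10)) (R_pp hb 10)) e

end H21.Mat
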