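import Cfsg.Agent.H21.Mat2

/-! Matrix certificates for the representation of degree 112 of `J4`. -/

set_option maxRecDepth 100000
set_option autoImplicit false

namespace H21.Mat
open H27 H28 Cfsg Cfsg.Spor H7 H7.J4
open scoped commutatorElement

/-- the generator `x` -/
abbrev jx : J4 := PresentedGroup.of J4.Gen.x
/-- the generator `y` -/
abbrev jy : J4 := PresentedGroup.of J4.Gen.y
/-- the generator `t` -/
abbrev jt : J4 := PresentedGroup.of J4.Gen.t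
/-- the involution `e` -/
abbrev je : J4 := (jy * ((jy * jx) ^ 4 * jy⁻¹ * jx)⁻¹ * jt * ((jy * jx) ^ 4 * jy⁻¹ * jx)) ^ 3

theorem hom : ∃ φ : J4 →* GL (Fin 112) (ZMod 2), mm.R cx (φ jx) ∧ mm.R cy (φ jy) ∧ mm.R ct (φ jt) ∧
    mm.R cY (φ jy)⁻¹ := by
  have k : ∀ i, ∃ g, ar.gM.R (H29.lgetD ar.one cL i) g := fun i => by
    rcases H29.lgetD_mem_or ar.one cL i with h | h
    · obtain ⟨g, -, hg⟩ := ar.gM_in c0 _ h
      exact ⟨g, hg⟩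
    · exact ⟨1, by rw [h]; exact ar.gM.R_one⟩
  choose Y hY using k
  have hY' : ∀ i, [Y 0, Y 1, Y 2, Y 3, Y 4, Y 5].getD i 1 = Y i := fun i => by
    rcases i with _ | _ | _ | _ | _ | _ | i
    iterate 6 rfl
    have := hY (i + 6)
    rw [H29.lgetD_eq, List.getD_eq_default _ _ (by simp [cL])] at this
    exact (ar.gM.unique this ar.gM.R_one).symm
  have e : ∀ w, ar.gM.R (F42.evc ar.mul ar.one cL w) (ev [Y 0, Y 1, Y 2, Y 3, Y 4, Y 5] w) := fun w => by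
    induction w with
    | nil => exact ar.gM.R_one
    | cons b w ih => rw [ev_cons, hY']; exact ar.gM.R_mul (hY b) ih
  obtain ⟨φ, hφ⟩ := jB.hom (ys := [Y 0, Y 1, Y 2, Y 3, Y 4, Y 5]) rfl
    fun w hw => ar.gM.eq_of (e w) (e []) (c1 w hw)
  have a : ∀ i, φ ((gensP J4.edges J4.extra jL).getD i 1) = Y i := fun i => by
    rw [← hY' i, ← hφ, ← ev_single, ← ev_single, ev_map]
  have a0 : φ jx = Y 0 := a 0
  have a2 : φ jy = Y 2 := a 2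
  have a4 : φ jt = Y 4 := a 4
  have a3 : (φ jy)⁻¹ = Y 3 := (map_inv φ jy).symm.trans (a 3)
  have b : ∀ i c, cL.getD i ar.one = c → mm.R c (Y i) := fun i c h => by
    rw [← h, ← H29.lgetD_eq]; exact hY i
  exact ⟨φ, a0 ▸ b 0 _ rfl, a2 ▸ b 2 _ rfl, a4 ▸ b 4 _ rfl, a3 ▸ b 3 _ rfl⟩

theorem d17 : Nat.beq ce (wd mm LE [0]) = true := by decide +kernel

attribute [local irreducible] fm wd pp cm slp H29.lgetD cx cy cY ct ce ca cb cc wP prg H29.Ar.gM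

theorem mat : ∃ φ : J4 →* GL (Fin 112) (ZMod 2),
    (∀ p ∈ [29, 31, 37, 43], ∃ g : J4, φ g ^ p = 1 ∧ ¬ Commute (φ g) (φ jx)) ∧
    (∃ a b : J4, φ a ^ 11 = 1 ∧ φ b ^ 11 = 1 ∧ φ ⁅a, b⁆ ^ 11 = 1 ∧ Commute (φ ⁅a, b⁆) (φ a) ∧
      Commute (φ ⁅a, b⁆) (φ b) ∧ ¬ Commute (φ ⁅a, b⁆) (φ jx)) ∧
    ¬ Commute (φ je) (φ jx) ∧ (∃ g : J4, ∃ n, Odd n ∧ φ (jt * (g * je * g⁻¹)) ^ n = 1) ∧
    ∃ E : Subgroup (GL (Fin 112) (ZMod 2)), Nat.card E = 2 ^ 11 ∧ φ je ∈ E ∧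
      E ≤ (Subgroup.closure {jx, jy, je}).map φ ∧ φ jx ∈ Subgroup.normalizer (E : Set _) ∧
      φ jy ∈ Subgroup.normalizer (E : Set _) ∧
      ∃ k ∈ E, ∃ g : J4, ∃ n, Odd n ∧ (φ jx * (φ g * k * (φ g)⁻¹)) ^ n = 1 := by
  obtain ⟨φ, rx, ry, rt, rY⟩ := hom
  have hL : ∀ c ∈ cL, mm.In φ.range c := by
    simp only [cL, List.forall_mem_cons]
    exact ⟨⟨_, ⟨_, rfl⟩, rx⟩, ⟨_, ⟨_, rfl⟩, rx⟩, ⟨_, ⟨_, rfl⟩, ry⟩, ⟨_, ⟨jy⁻¹, map_inv φ jy⟩, rY⟩,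
      ⟨_, ⟨_, rfl⟩, rt⟩, ⟨_, ⟨_, rfl⟩, rt⟩, fun _ h => absurd h List.not_mem_nil⟩
  have hw : ∀ w, ∃ g, mm.R (wd mm cL w) (φ g) := fun w => by
    obtain ⟨_, ⟨g, rfl⟩, h⟩ := in_wd hL w
    exact ⟨g, h⟩
  have rX : mm.R cx (φ jx)⁻¹ := R_inv rx (hL _ (by simp [cL])) d15.1
  have ru := R_fm (R_fm (R_pp (R_fm ry rx) 4) rY) rx
  have re : mm.R ce (φ je) := by
    simp only [map_pow, map_mul, map_inv]
    exact R_beq (R_pp (R_fm (R_fm (R_fm ry (R_inv ru (in_wd hL _) d11)) rt) ru) 3) d12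
  have hK : ∀ c ∈ LK, mm.In ((Subgroup.closure {jx, jy, je}).map φ) c := by
    have m : ∀ g ∈ ({jx, jy, je} : Set J4), φ g ∈ (Subgroup.closure {jx, jy, je}).map φ :=
      fun g hg => Subgroup.mem_map_of_mem φ (Subgroup.subset_closure hg)
    simp only [LK, List.forall_mem_cons]
    exact ⟨⟨_, m _ (by simp), rx⟩, ⟨_, m _ (by simp), ry⟩, ⟨_, inv_mem (m _ (by simp)), rY⟩,
      ⟨_, m _ (by simp), re⟩, fun _ h => absurd h List.not_mem_nil⟩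
  obtain ⟨E, e1, e2, e3, e4⟩ := elemM (M := mm) (LE := LE) (LM := LM) rfl (fun c hc => by
    obtain ⟨i, hi, rfl⟩ := H29.exists_lgetD mm.one hc
    exact (in_wd hK _).of_beq (d3 i hi)) (ar.gM_in d0) d1 d2
  have f1 := cm_f re rx d9.2.2.2.2.2.2
  have f2 := e4 _ _ _ wX rx rX d4
  have f3 := e4 _ _ _ wY ry rY d5
  refine ⟨φ, fun p hp => ?_, ?_, f1, ?_, E, e1, ?_, e2, f2, f3, ?_⟩
  · obtain ⟨g, hg⟩ := hw (wP p)
    have a1 := pp_one hg (d10 p hp).1 (d10 p hp).2.1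
    have a2 := cm_f hg rx (d10 p hp).2.2
    exact ⟨g, a1, a2⟩
  · obtain ⟨_, ⟨a, rfl⟩, ha⟩ := (in_get (in_slp prg d16 cL hL) _).of_beq d6
    obtain ⟨_, ⟨b, rfl⟩, hb⟩ := (in_get (in_slp prg d16 cL hL) _).of_beq d7
    have a1 := pp_one ha (by norm_num) d9.1
    have a2 := pp_one hb (by norm_num) d9.2.1
    have hc := R_comm ha hb a1 a2 d8
    rw [← map_commutatorElement] at hc
    have a3 := pp_one hc (by norm_num) d9.2.2.1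
    have a4 := cm_t hc ha d9.2.2.2.1
    have a5 := cm_t hc hb d9.2.2.2.2.1
    have a6 := cm_f hc rx d9.2.2.2.2.2.1
    exact ⟨a, b, a1, a2, a3, a4, a5, a6⟩
  · obtain ⟨g, hg⟩ := hw [0, 3, 0, 3, 4]
    have a1 := pp_one (R_fm rt (R_fm (R_fm hg re) (R_inv hg (in_wd hL _) d13.1))) (by norm_num) d13.2
    rw [← map_inv, ← map_mul, ← map_mul, ← map_mul] at a1
    exact ⟨g, 11, by decide, a1⟩
  · exact ((e3 [0]).of_beq d17).mem re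
  · obtain ⟨g, hg⟩ := hw [0, 2, 4, 2, 4]
    obtain ⟨k, hk, rk⟩ := e3 [3, 4]
    have a1 := pp_one (R_fm rx (R_fm (R_fm hg rk) (R_inv hg (in_wd hL _) d14.1))) (by norm_num) d14.2
    exact ⟨k, hk, g, 29, by decide, a1⟩

end H21.Mat
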