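import Cfsg.Agent.H21.Nt0

set_option maxRecDepth 100000
set_option autoImplicit false

namespace H21.Nt
open Cfsg Cfsg.Spor H7.J4 H29 H29.J4m H29.U Subgroup

universe u
variable {G : Type u} [Group G] {M : Model G} {x y e t : G}

theorem allE' {L : List ℕ} (h : EA M L) {f : ℕ → Bool} {c : ℕ} {g : G} (hg : M.R c g)
    (hn : allE M.mul f L c = true) : ∀ v ∈ M.cl L, ∃ c', M.R c' (v * g) ∧ f c' = true := by
  induction L generalizing c g with
  | nil =>
    intro v hv
    rw [H29.J4m.cl_nil, Subgroup.mem_bot] at hv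
    exact ⟨c, by rw [hv, one_mul]; exact hg, hn⟩
  | cons a L ih =>
    obtain ⟨α, h1, h2, h3⟩ := h.cons
    obtain ⟨n1, n2⟩ := band_iff.1 hn
    intro v hv
    rcases h3 v hv with k | k
    · obtain ⟨c', k1, k2⟩ := ih h.tail (M.R_mul h1 hg) n2 _ k
      exact ⟨c', M.R_congr k1 (by rw [mul_assoc, ← mul_assoc α, h2, one_mul]), k2⟩
    · exact ih h.tail hg n1 _ k

theorem nmz [Finite G] {w r : G} (h : w * r = r * w ∨ w * r = r * (r * w)) :
    w ∈ normalizer (zpowers r : Set G) := by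
  have k : w * r * w⁻¹ ∈ zpowers r := by
    rcases h with h | h
    · rw [h, mul_inv_cancel_right]; exact mem_zpowers r
    · rw [h, ← mul_assoc, mul_inv_cancel_right]; exact mul_mem (mem_zpowers r) (mem_zpowers r)
  refine mem_normalizer_fintype fun n hn => ?_
  obtain ⟨m, rfl⟩ := hn
  show w * r ^ m * w⁻¹ ∈ zpowers r
  rw [← conj_zpow]
  exact zpow_mem k m

theorem cmR (s : Std M) {a b : ℕ} {α β : G} (ha : M.R a α) (hb : M.R b β) :
    Nat.beq (kmul a b) (kmul b a) = true ↔ α * β = β * α := by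
  have := M.eqb_iff (M.R_mul ha hb) (M.R_mul hb ha)
  rwa [s.1, s.2.2] at this

theorem nt [Finite G] (f : Fr M x y e) (ht : Tt x y e t) : ¬ Ac M t cg cg := by
  rintro ⟨g, g1, g2⟩
  have s := f.s
  obtain ⟨R, N, xs, -, hN⟩ := ht
  have t2 : t * t = 1 := by rw [← sq, ← xs.o]; exact pow_orderOf_eq_one t
  have t1 : t ≠ 1 := fun h => by have := xs.o; rw [h, orderOf_one] at this; exact absurd this (by decide)
  have rr : M.R cr (wr.g [x, y, y⁻¹, e]) := s.lit f.h wr k12
  generalize wr.g [x, y, y⁻¹, e] = r at hN rr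
  have hK : ∀ c ∈ L4, M.In ⊤ c := fun c hc => by
    obtain ⟨i, -, rfl⟩ := exists_lgetD M.one hc
    exact ⟨_, trivial, R_getD f.h i⟩
  have hv := s.map hK eK k11
  have hE : ∀ c ∈ eL, M.In (M.cl eL) c := fun c hc => (hv c hc).cl hc
  have ea : EA M eL := EA.of hv (by rw [s.1, s.2.1, s.2.2]; exact k17) (by rw [s.1, s.2.2]; exact k18)
  have h3 := s.map (s.map hK _ k10) e3 k1
  have hW := s.map hv eW k3
  have hC : ∀ c ∈ F3 ++ W3, M.In (centralizer {t}) c := fun c hc => by
    obtain ⟨w, -, rw'⟩ : M.In ⊤ c := (List.mem_append.1 hc).elim (h3 c) (hW c)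
    refine ⟨w, hN (nmz ?_), rw'⟩
    rcases nk_spec (allL_spec nkE c hc) with k | k
    · exact Or.inl ((cmR s rw' rr).1 k)
    · refine Or.inr (M.eq_of (M.R_mul rw' rr) (M.R_mul rr (M.R_mul rr rw')) ?_)
      rw [s.1, s.2.2]; exact k
  have h3' : ∀ c ∈ F3, M.In (centralizer {t}) c := fun c hc => hC c (List.mem_append_left _ hc)
  have h6 := s.map h3' e6 k2
  have gt : g ∈ centralizer ({t} : Set G) := by
    rw [mem_centralizer_singleton_iff]
    have := M.unique g2 g1
    calc g * t = t * (t * g * t) := by rw [← mul_assoc, ← mul_assoc, t2, one_mul]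
      _ = t * g := by rw [this]
  have hB1 : ∀ c ∈ B1, M.In (centralizer {t}) c := s.map (L := F6 ++ (W3 ++ [cg])) (fun c hc => by
    rcases List.mem_append.1 hc with hc | hc
    · exact h6 c hc
    rcases List.mem_append.1 hc with hc | hc
    · exact hC c (List.mem_append_right _ hc)
    · rw [List.mem_singleton.1 hc]; exact ⟨g, gt, g1⟩) eB1 k4
  obtain ⟨d, dt, rd⟩ := s.map hB1 [edd] k5 cdd List.mem_cons_self
  have tH : t ∈ normalizer (M.cl eL : Set G) := by
    rw [f.nV]
    exact f.cD cdd k6 d rd (mem_centralizer_singleton_iff.2 (mem_centralizer_singleton_iff.1 dt).symm)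
  obtain ⟨l, lt, rl⟩ := h3' cl7 List.mem_cons_self
  obtain ⟨σ, σt, rσ⟩ := h3' cs2 (List.mem_cons_of_mem _ List.mem_cons_self)
  obtain ⟨v0, vE, rv⟩ := s.map hE [ev0] k7 cv0 List.mem_cons_self
  have key : ∀ v ∈ M.cl eL, l * v = v * l → σ * v = v * σ → v = 1 ∨ v = v0 := fun v hv a b => by
    have f1 := fxE
    rw [← s.1, ← s.2.1] at f1
    obtain ⟨c, k1, k2⟩ := allE' ea M.R_one f1 v hv
    rw [mul_one] at k1
    rw [s.1] at k2
    rcases fx_spec k2 ((cmR s rl k1).2 a) ((cmR s rσ k1).2 b) with k | k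
    · rw [k] at k1
      exact Or.inl (M.unique k1 M.R_one)
    · rw [k] at k1
      exact Or.inr (M.unique k1 rv)
  have lt' : l * t = t * l := mem_centralizer_singleton_iff.1 lt
  have σt' : σ * t = t * σ := mem_centralizer_singleton_iff.1 σt
  have cj : ∀ a : G, a * t = t * a → v0 * a = a * v0 → a * (t * v0 * t⁻¹) = t * v0 * t⁻¹ * a := fun a h1 h2 => by
    have c1 : Commute a t := h1
    have c2 : Commute a v0 := h2.symm
    exact ((c1.mul_right c2).mul_right c1.inv_right).eq
  have v1 : v0 ≠ 1 := M.ne_of rv M.R_one (by rw [s.2.1, s.2.2]; exact k16)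
  have vt : v0 ∈ centralizer ({t} : Set G) := by
    rw [mem_centralizer_singleton_iff]
    rcases key _ ((mem_normalizer_iff.1 tH v0).1 vE) (cj l lt' ((cmR s rv rl).1 k14))
      (cj σ σt' ((cmR s rv rσ).1 k15)) with k | k
    · exact absurd (by simpa using k) v1
    · exact (mul_inv_eq_iff_eq_mul.1 k).symm
  have hB2 : ∀ c ∈ B2, M.In (centralizer {t}) c := s.map (L := B1 ++ (cv0 :: F6)) (fun c hc => by
    rcases List.mem_append.1 hc with hc | hc
    · exact hB1 c hc
    rcases List.mem_cons.1 hc with hc | hc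
    · rw [hc]; exact ⟨v0, vt, rv⟩
    · exact h6 c hc) eB2 k8
  have hle : M.cl eL ≤ centralizer {t} := Model.cl_le (s.map hB2 eE k9)
  have tV : t ∈ M.cl eL := f.cV fun v hv => mem_centralizer_singleton_iff.1 (hle hv)
  rcases key t tV lt' σt' with k | k
  · exact t1 k
  · have rt : r * t = t * r := mem_centralizer_singleton_iff.1 (hN (nmz (Or.inl rfl)))
    have := (cmR s rv rr).2 (by rw [← k]; exact rt.symm)
    exact Bool.false_ne_true (k13.symm.trans this)

end H21.Nt
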