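/-
Self-dual coprime modules: alternating and symmetric invariant forms.
-/
import Cfsg.Agent.H17.Rep
import Mathlib.RepresentationTheory.Maschke

set_option autoImplicit false
set_option linter.unusedSectionVars false
open Module

namespace H21.SD

variable {F G V : Type*} [Field F] [Group G] [Finite G] [AddCommGroup V] [Module F V]
  [FiniteDimensional F V] {ρ : Representation F G V} {U W X M M' : Submodule F V}
  {A B S : LinearMap.BilinForm F V} {p : ℕ}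

/-- invariant subspace -/
def Inv (ρ : Representation F G V) (U : Submodule F V) : Prop := ∀ g : G, ∀ u ∈ U, ρ g u ∈ U

/-- invariant subspace with nondegenerate invariant form -/
structure NF (ρ : Representation F G V) (U : Submodule F V) (A : LinearMap.BilinForm F V) :
    Prop where
  inv : Inv ρ U
  form : ∀ g : G, ∀ x ∈ U, ∀ y ∈ U, A (ρ g x) (ρ g y) = A x y
  nd : ∀ x ∈ U, (∀ y ∈ U, A x y = 0) → x = 0

theorem exists_proj (h : Disjoint U W) :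
    ∃ π : V →ₗ[F] V, (∀ x ∈ U, π x = x) ∧ (∀ x ∈ W, π x = 0) ∧ ∀ x, π x ∈ U := by
  obtain ⟨W', h1, h2⟩ := h.symm.exists_isCompl
  exact ⟨U.projection W' h2.symm, fun x hx => Submodule.projection_apply_of_mem_left _ hx,
    fun x hx => Submodule.projection_apply_of_mem_right _ (h1 hx),
    fun x => Submodule.projection_apply_mem _ x⟩

theorem Inv.sup (h : Inv ρ U) (h' : Inv ρ W) : Inv ρ (U ⊔ W) := fun g u hu => by
  obtain ⟨a, ha, b, hb, rfl⟩ := Submodule.mem_sup.1 hu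
  rw [map_add]
  exact Submodule.add_mem_sup (h g a ha) (h' g b hb)

theorem Inv.inf (h : Inv ρ U) (h' : Inv ρ W) : Inv ρ (U ⊓ W) := fun g u hu =>
  ⟨h g u hu.1, h' g u hu.2⟩

theorem NF.sup (hd : Disjoint U W) (h : NF ρ U A) (h' : NF ρ W S) :
    ∃ π τ : V →ₗ[F] V, NF ρ (U ⊔ W) (A.compl₁₂ π π + S.compl₁₂ τ τ) := by
  obtain ⟨π, p1, p2, -⟩ := exists_proj hd
  obtain ⟨τ, q1, q2, -⟩ := exists_proj hd.symm
  have e : ∀ a ∈ U, ∀ b ∈ W, ∀ c ∈ U, ∀ d ∈ W,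
      (A.compl₁₂ π π + S.compl₁₂ τ τ) (a + b) (c + d) = A a c + S b d := fun a ha b hb c hc d hd => by
    simp [p1 _ ha, p1 _ hc, p2 _ hb, p2 _ hd, q1 _ hb, q1 _ hd, q2 _ ha, q2 _ hc]
  refine ⟨π, τ, h.inv.sup h'.inv, fun g x hx y hy => ?_, fun x hx hy => ?_⟩
  · obtain ⟨a, ha, b, hb, rfl⟩ := Submodule.mem_sup.1 hx
    obtain ⟨c, hc, d, hd, rfl⟩ := Submodule.mem_sup.1 hy
    rw [map_add (ρ g), map_add (ρ g), e _ (h.inv g a ha) _ (h'.inv g b hb) _ (h.inv g c hc) _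
      (h'.inv g d hd), e a ha b hb c hc d hd, h.form g a ha c hc, h'.form g b hb d hd]
  · obtain ⟨a, ha, b, hb, rfl⟩ := Submodule.mem_sup.1 hx
    rw [h.nd a ha fun c hc => by
        simpa using (e a ha b hb c hc 0 W.zero_mem).symm.trans
          (hy (c + 0) (Submodule.add_mem_sup hc W.zero_mem)),
      h'.nd b hb fun d hd => by
        simpa using (e a ha b hb 0 U.zero_mem d hd).symm.trans
          (hy (0 + d) (Submodule.add_mem_sup U.zero_mem hd)),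
      add_zero]

theorem nf_bot : NF ρ ⊥ A :=
  ⟨fun g u hu => by rw [(Submodule.mem_bot F).1 hu, map_zero]; exact zero_mem _,
    fun g x hx y _ => by simp [(Submodule.mem_bot F).1 hx], fun x hx _ => hx⟩

/-- the decomposition -/
def Dec (ρ : Representation F G V) (p : ℕ) (M : Submodule F V) : Prop :=
  ∃ U W : Submodule F V, Disjoint U W ∧ U ⊔ W = M ∧ (∃ A, (∀ x, A x x = 0) ∧ NF ρ U A) ∧
    (∃ S, (∀ x y, S x y = S y x) ∧ NF ρ W S) ∧ (p = 2 → ∀ g : G, ∀ w ∈ W, ρ g w = w)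

theorem dec_alt (h : NF ρ U A) (hA : ∀ x, A x x = 0) : Dec ρ p U :=
  ⟨U, ⊥, disjoint_bot_right, sup_bot_eq _, ⟨A, hA, h⟩, ⟨0, fun _ _ => rfl, nf_bot⟩,
    fun _ g w hw => by rw [(Submodule.mem_bot F).1 hw, map_zero]⟩

theorem dec_sym (h : NF ρ W S) (hS : ∀ x y, S x y = S y x)
    (h2 : p = 2 → ∀ g : G, ∀ w ∈ W, ρ g w = w) : Dec ρ p W :=
  ⟨⊥, W, disjoint_bot_left, bot_sup_eq _, ⟨0, fun _ => rfl, nf_bot⟩, ⟨S, hS, h⟩, h2⟩

theorem Dec.sup (hd : Disjoint M M') (h : Dec ρ p M) (h' : Dec ρ p M') : Dec ρ p (M ⊔ M') := by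
  obtain ⟨U, W, h1, rfl, ⟨A, h2, h3⟩, ⟨S, h4, h5⟩, h6⟩ := h
  obtain ⟨U', W', h1', rfl, ⟨A', h2', h3'⟩, ⟨S', h4', h5'⟩, h6'⟩ := h'
  obtain ⟨π, τ, h7⟩ := h3.sup (hd.mono le_sup_left le_sup_left) h3'
  obtain ⟨π', τ', h8⟩ := h5.sup (hd.mono le_sup_right le_sup_right) h5'
  refine ⟨U ⊔ U', W ⊔ W', Submodule.disjoint_def.2 fun x hx hx' => ?_, sup_sup_sup_comm _ _ _ _,
    ⟨_, fun x => by simp [h2, h2'], h7⟩, ⟨_, fun x y => by simp [h4 (π' x), h4' (τ' x)], h8⟩,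
    fun e g w hw => ?_⟩
  · obtain ⟨a, ha, b, hb, rfl⟩ := Submodule.mem_sup.1 hx
    obtain ⟨c, hc, d, hd', e⟩ := Submodule.mem_sup.1 hx'
    have e1 : a - c = d - b := by rw [sub_eq_sub_iff_add_eq_add, ← e, add_comm]
    have e2 := Submodule.disjoint_def.1 hd (a - c)
      (sub_mem (Submodule.mem_sup_left ha) (Submodule.mem_sup_right hc))
      (e1 ▸ sub_mem (Submodule.mem_sup_right hd') (Submodule.mem_sup_left hb))
    rw [Submodule.disjoint_def.1 h1 a ha (sub_eq_zero.1 e2 ▸ hc), Submodule.disjoint_def.1 h1' b hb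
      (sub_eq_zero.1 (e1 ▸ e2) ▸ hd'), add_zero]
  · obtain ⟨a, ha, b, hb, rfl⟩ := Submodule.mem_sup.1 hw
    rw [map_add, h6 e g a ha, h6' e g b hb]

/-- left perpendicular space -/
def lp (B : LinearMap.BilinForm F V) (U : Submodule F V) : Submodule F V where
  carrier := {y | ∀ u ∈ U, B y u = 0}
  add_mem' := fun ha hb u hu => by simp [ha u hu, hb u hu]
  zero_mem' := fun u _ => by simp
  smul_mem' := fun c x hx u hu => by simp [hx u hu]

theorem apply_inv (ρ : Representation F G V) (g : G) (x : V) : ρ g (ρ g⁻¹ x) = x := by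
  rw [← Module.End.mul_apply, ← map_mul, mul_inv_cancel, map_one, Module.End.one_apply]

theorem inv_lp (hB : ∀ g : G, ∀ x ∈ M, ∀ y ∈ M, B (ρ g x) (ρ g y) = B x y) (hM : Inv ρ M)
    (hU : Inv ρ U) (hUM : U ≤ M) : Inv ρ (M ⊓ lp B U) := fun g x hx =>
  ⟨hM g x hx.1, fun u hu => by
    rw [← apply_inv ρ g u, hB g x hx.1 _ (hUM (hU _ u hu))]; exact hx.2 _ (hU _ u hu)⟩

theorem NF.split (h : NF ρ M B) (hU : NF ρ U B) (hUM : U ≤ M) :
    ∃ M', Disjoint U M' ∧ U ⊔ M' = M ∧ NF ρ M' B := by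
  have h1 : U ⊔ M ⊓ lp B U = M := by
    refine le_antisymm (sup_le hUM inf_le_left) fun m hm => ?_
    have h2 : Function.Injective (B.compl₁₂ U.subtype U.subtype) :=
      (injective_iff_map_eq_zero _).2 fun x hx => Subtype.ext (hU.nd x x.2 fun y hy =>
        LinearMap.congr_fun hx ⟨y, hy⟩)
    obtain ⟨u, hu⟩ := (LinearMap.injective_iff_surjective_of_finrank_eq_finrank
      Subspace.dual_finrank_eq.symm).1 h2 (B m ∘ₗ U.subtype)
    refine Submodule.mem_sup.2 ⟨u, u.2, m - u, ⟨sub_mem hm (hUM u.2), fun y hy => ?_⟩, by simp⟩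
    rw [map_sub, LinearMap.sub_apply, sub_eq_zero]
    exact (LinearMap.congr_fun hu ⟨y, hy⟩).symm
  refine ⟨M ⊓ lp B U, Submodule.disjoint_def.2 fun x hx hx' => hU.nd x hx hx'.2, h1,
    inv_lp h.form h.inv hU.inv hUM, fun g x hx y hy => h.form g x hx.1 y hy.1,
    fun x hx hy => h.nd x hx.1 fun y hy' => ?_⟩
  obtain ⟨a, ha, b, hb, rfl⟩ := Submodule.mem_sup.1 (h1.ge hy')
  rw [map_add, hx.2 a ha, hy b hb, add_zero]

/-- minimal invariant subspace -/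
def Irr (ρ : Representation F G V) (X : Submodule F V) : Prop :=
  Inv ρ X ∧ X ≠ ⊥ ∧ ∀ Y, Inv ρ Y → Y ≤ X → Y = ⊥ ∨ Y = X

theorem exists_irr (h : Inv ρ M) (h0 : M ≠ ⊥) : ∃ X ≤ M, Irr ρ X := by
  obtain ⟨X, h1, h2⟩ := exists_minimal_le_of_wellFoundedLT (fun X => Inv ρ X ∧ X ≠ ⊥) M ⟨h, h0⟩
  exact ⟨X, h1, h2.1.1, h2.1.2, fun Y h3 h4 => or_iff_not_imp_left.2 fun h5 =>
    le_antisymm h4 (h2.2 ⟨h3, h5⟩ h4)⟩

theorem Irr.nd (h : Irr ρ X) (hB : ∀ g : G, ∀ x ∈ M, ∀ y ∈ M, B (ρ g x) (ρ g y) = B x y)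
    (hM : Inv ρ M) (hXM : X ≤ M) (hU : Inv ρ U) (hUM : U ≤ M) (h0 : ¬ X ≤ lp B U) :
    ∀ x ∈ X, (∀ y ∈ U, B x y = 0) → x = 0 := fun x hx hy => by
  have := (h.2.2 _ (h.1.inf (inv_lp hB hM hU hUM)) inf_le_left).resolve_right fun e =>
    h0 (e.ge.trans (inf_le_right.trans inf_le_right))
  exact (Submodule.mem_bot F).1 (this ▸ ⟨hx, hXM hx, hy⟩)

theorem Irr.dec [CharP F p] (h : Irr ρ X)
    (hB : ∀ g : G, ∀ x ∈ X, ∀ y ∈ X, B (ρ g x) (ρ g y) = B x y) (h0 : ¬ X ≤ lp B X) :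
    Dec ρ p X := by
  by_cases h1 : X ≤ lp (B - B.flip) X
  swap
  · have hA : ∀ g : G, ∀ x ∈ X, ∀ y ∈ X, (B - B.flip) (ρ g x) (ρ g y) = (B - B.flip) x y :=
      fun g x hx y hy => by simp [hB g x hx y hy, hB g y hy x hx]
    exact dec_alt ⟨h.1, hA, h.nd hA h.1 le_rfl h.1 le_rfl h1⟩ fun x => by simp
  have hs : ∀ x ∈ X, ∀ y ∈ X, B x y = B y x := fun x hx y hy => by
    simpa [sub_eq_zero] using h1 hx y hy
  obtain ⟨π, p1, -, p2⟩ := exists_proj (U := X) disjoint_bot_right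
  have h2 : NF ρ X (B.compl₁₂ π π) := ⟨h.1, fun g x hx y hy => by
    simp [p1 _ hx, p1 _ hy, p1 _ (h.1 g x hx), p1 _ (h.1 g y hy), hB g x hx y hy],
    fun x hx hy => h.nd hB h.1 le_rfl h.1 le_rfl h0 x hx fun y hy' => by
      simpa [p1 _ hx, p1 _ hy'] using hy y hy'⟩
  by_cases hp : p = 2
  swap
  · exact dec_sym h2 (fun x y => hs _ (p2 x) _ (p2 y)) fun e => absurd e hp
  subst hp
  let X0 : Submodule F V :=
    { carrier := {x | x ∈ X ∧ B x x = 0}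
      add_mem' := fun {a b} ha hb => ⟨add_mem ha.1 hb.1, by
        simp [ha.2, hb.2, hs a ha.1 b hb.1, CharTwo.add_self_eq_zero]⟩
      zero_mem' := ⟨zero_mem _, by simp⟩
      smul_mem' := fun c x hx => ⟨X.smul_mem c hx.1, by simp [hx.2]⟩ }
  rcases h.2.2 X0 (fun g x hx => ⟨h.1 g x hx.1, (hB g x hx.1 x hx.1).trans hx.2⟩)
    fun x hx => hx.1 with e | e
  · refine dec_sym h2 (fun x y => hs _ (p2 x) _ (p2 y)) fun _ g w hw => sub_eq_zero.1 ?_
    refine (Submodule.mem_bot F).1 (e ▸ ⟨sub_mem (h.1 g w hw) hw, ?_⟩)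
    simp [hB g w hw w hw, hs w hw _ (h.1 g w hw), CharTwo.sub_eq_add, add_comm]
  · exact dec_alt h2 fun x => (e.ge (p2 x)).2

variable [NeZero (Nat.card G : F)]

theorem exists_irr_disj (hM : Inv ρ M) (hU : Inv ρ U) (h : ¬ M ≤ U) :
    ∃ C ≤ M, Irr ρ C ∧ Disjoint C U := by
  obtain ⟨T, hT⟩ := exists_isCompl (⟨M ⊓ U, fun g v hv => hM.inf hU g v hv⟩ : Subrepresentation ρ)
  have h1 : IsCompl (M ⊓ U) T.toSubmodule := H17.subrep_isCompl hT
  obtain ⟨C, h2, h3⟩ := exists_irr (hM.inf fun g v hv => T.apply_mem_toSubmodule g hv) fun e =>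
    h (by
      have := inf_sup_assoc_of_le (x := M) T.toSubmodule (inf_le_left : M ⊓ U ≤ M)
      rw [e, bot_sup_eq, sup_comm, h1.sup_eq_top, inf_top_eq] at this
      exact this.ge.trans inf_le_right)
  exact ⟨C, h2.trans inf_le_left, h3, Submodule.disjoint_def.2 fun x hx hx' =>
    Submodule.disjoint_def.1 h1.disjoint x ⟨(h2 hx).1, hx'⟩ (h2 hx).2⟩

theorem exists_partner (h : NF ρ M B) (hX : Irr ρ X) (hXM : X ≤ M) :
    ∃ C ≤ M, Inv ρ C ∧ C ≠ ⊥ ∧ Disjoint C (lp B X) ∧ Disjoint C (lp B.flip X) := by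
  have hf : ∀ g : G, ∀ x ∈ M, ∀ y ∈ M, B.flip (ρ g x) (ρ g y) = B.flip x y :=
    fun g x hx y hy => h.form g y hy x hx
  have i1 := inv_lp hf h.inv hX.1 hXM
  have i2 := inv_lp h.form h.inv hX.1 hXM
  have dj : ∀ {C Y : Submodule F V}, C ≤ M → Disjoint C (M ⊓ Y) → Disjoint C Y := fun h1 h2 => by
    rwa [disjoint_iff, ← inf_assoc, inf_eq_left.2 h1, ← disjoint_iff] at h2
  obtain ⟨C, c1, c2, c3⟩ := exists_irr_disj h.inv i1 fun e => hX.2.1
    (eq_bot_iff.2 fun x hx => h.nd x (hXM hx) fun y hy => (e hy).2 x hx)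
  obtain ⟨D, d1, d2, d3⟩ := exists_irr_disj h.inv i2 fun e => hX.2.1 (eq_bot_iff.2 fun x hx => by
    have h2 : Function.Injective (B.compl₁₂ M.subtype M.subtype) :=
      (injective_iff_map_eq_zero _).2 fun x hx => Subtype.ext (h.nd x x.2 fun y hy =>
        LinearMap.congr_fun hx ⟨y, hy⟩)
    have h3 := (LinearMap.injective_iff_surjective_of_finrank_eq_finrank
      Subspace.dual_finrank_eq.symm).1 h2
    have := (Module.forall_dual_apply_eq_zero_iff F (⟨x, hXM hx⟩ : M)).1 fun φ => by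
      obtain ⟨y, rfl⟩ := h3 φ
      exact (e y.2).2 x hx
    exact congrArg Subtype.val this)
  replace c3 := dj c1 c3
  replace d3 := dj d1 d3
  rcases c2.2.2 _ (c2.1.inf i2) inf_le_left with e | e
  · exact ⟨C, c1, c2.1, c2.2.1, dj c1 (disjoint_iff.2 e), c3⟩
  rcases d2.2.2 _ (d2.1.inf i1) inf_le_left with e' | e'
  · exact ⟨D, d1, d2.1, d2.2.1, d3, dj d1 (disjoint_iff.2 e')⟩
  have c4 : C ≤ lp B X := e.ge.trans (inf_le_right.trans inf_le_right)
  have d4 : D ≤ lp B.flip X := e'.ge.trans (inf_le_right.trans inf_le_right)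
  let E : Submodule F V :=
    { carrier := {v | ∃ c ∈ C, ∃ d ∈ D, v = c + d ∧ ∀ x ∈ X, B x c = B d x}
      add_mem' := by
        rintro _ _ ⟨c, hc, d, hd, rfl, h1⟩ ⟨c', hc', d', hd', rfl, h2⟩
        exact ⟨_, add_mem hc hc', _, add_mem hd hd', by abel, fun x hx => by simp [h1 x hx, h2 x hx]⟩
      zero_mem' := ⟨0, zero_mem _, 0, zero_mem _, by simp, by simp⟩
      smul_mem' := by
        rintro a _ ⟨c, hc, d, hd, rfl, h1⟩
        exact ⟨_, C.smul_mem a hc, _, D.smul_mem a hd, smul_add _ _ _,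
          fun x hx => by simp [h1 x hx]⟩ }
  have e1 : Disjoint E (lp B X) := Submodule.disjoint_def.2 (by
    rintro _ ⟨c, hc, d, hd, rfl, h1⟩ h2
    obtain rfl := Submodule.disjoint_def.1 d3 d hd ((Submodule.add_mem_iff_right _ (c4 hc)).1 h2)
    rw [Submodule.disjoint_def.1 c3 c hc fun x hx => by simpa using h1 x hx, add_zero])
  have e2 : Disjoint E (lp B.flip X) := Submodule.disjoint_def.2 (by
    rintro _ ⟨c, hc, d, hd, rfl, h1⟩ h2
    obtain rfl := Submodule.disjoint_def.1 c3 c hc ((Submodule.add_mem_iff_left _ (d4 hd)).1 h2)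
    rw [Submodule.disjoint_def.1 d3 d hd fun x hx => by simpa using (h1 x hx).symm, add_zero])
  refine ⟨E, ?_, ?_, fun e0 => ?_, e1, e2⟩
  · rintro _ ⟨c, hc, d, hd, rfl, -⟩
    exact add_mem (c1 hc) (d1 hd)
  · rintro g _ ⟨c, hc, d, hd, rfl, h1⟩
    refine ⟨_, c2.1 g c hc, _, d2.1 g d hd, map_add _ _ _, fun x hx => ?_⟩
    have := hX.1 g⁻¹ x hx
    rw [← apply_inv ρ g x, h.form g _ (hXM this) _ (c1 hc), h.form g _ (d1 hd) _ (hXM this),
      h1 _ this]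
  · have h1 : Function.Injective ((B.flip.compl₁₂ C.subtype X.subtype).coprod
        (-B.compl₁₂ D.subtype X.subtype)) := (injective_iff_map_eq_zero _).2 fun ⟨c, d⟩ hx => by
      have h2 : ∀ x ∈ X, B x c = B d x := fun x hx' => by
        simpa [add_neg_eq_zero] using LinearMap.congr_fun hx ⟨x, hx'⟩
      have h3 : (c : V) + d = 0 := (Submodule.mem_bot F).1 (e0 ▸ ⟨c, c.2, d, d.2, rfl, h2⟩)
      have h4 := Submodule.disjoint_def.1 c3 c c.2 (by
        rw [eq_neg_of_add_eq_zero_left h3]; exact neg_mem (d4 d.2))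
      rw [h4, zero_add] at h3
      exact Prod.ext (Subtype.ext h4) (Subtype.ext h3)
    have h2 : Function.Injective (B.flip.compl₁₂ X.subtype D.subtype) :=
      (injective_iff_map_eq_zero _).2 fun x hx => Subtype.ext (hX.nd hf h.inv hXM d2.1 d1
        (fun e => d2.2.1 (d3.eq_bot_of_le fun y hy z hz => e hz y hy)) x x.2 fun y hy =>
          LinearMap.congr_fun hx ⟨y, hy⟩)
    have h3 := LinearMap.finrank_le_finrank_of_injective h1
    have h4 := LinearMap.finrank_le_finrank_of_injective h2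
    rw [Subspace.dual_finrank_eq] at h3 h4
    rw [finrank_prod] at h3
    exact c2.2.1 (Submodule.finrank_eq_zero.1 (by omega))

theorem NF.dec [CharP F p] (M : Submodule F V) : NF ρ M B → Dec ρ p M := by
  induction M using WellFoundedLT.induction with
  | _ M ih =>
  intro h
  by_cases h0 : M = ⊥
  · exact dec_alt (A := 0) (h0 ▸ nf_bot) fun _ => rfl
  obtain ⟨X, hXM, hX⟩ := exists_irr h.inv h0
  suffices ∃ U ≤ M, U ≠ ⊥ ∧ NF ρ U B ∧ Dec ρ p U by
    obtain ⟨U, h1, h2, h3, h4⟩ := this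
    obtain ⟨M', h5, rfl, h6⟩ := h.split h3 h1
    exact h4.sup h5 (ih M' (right_lt_sup.2 fun e => h2 (h5.eq_bot_of_le e)) h6)
  have hB : ∀ {U}, U ≤ M → ∀ g : G, ∀ x ∈ U, ∀ y ∈ U, B (ρ g x) (ρ g y) = B x y :=
    fun e g x hx y hy => h.form g x (e hx) y (e hy)
  by_cases h1 : X ≤ lp B X
  swap
  · exact ⟨X, hXM, hX.2.1, ⟨hX.1, hB hXM, hX.nd h.form h.inv hXM hX.1 hXM h1⟩,
      hX.dec (hB hXM) h1⟩
  obtain ⟨C, c1, c2, c3, c4, c5⟩ := exists_partner h hX hXM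
  have h2 := hX.nd h.form h.inv hXM c2 c1 fun e => c3 (c5.eq_bot_of_le fun y hy z hz => e hz y hy)
  have hd : Disjoint X C := (c4.mono_right h1).symm
  obtain ⟨π, p1, p2, -⟩ := exists_proj hd
  obtain ⟨τ, q1, q2, -⟩ := exists_proj hd.symm
  have e : ∀ a ∈ X, ∀ b ∈ C, ∀ c ∈ X, ∀ d ∈ C, (B.compl₁₂ π τ - (B.compl₁₂ π τ).flip) (a + b) (c + d) =
      B a d - B c b := fun a ha b hb c hc d hd => by
    simp [p1 _ ha, p1 _ hc, p2 _ hb, p2 _ hd, q1 _ hb, q1 _ hd, q2 _ ha, q2 _ hc]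
  refine ⟨X ⊔ C, sup_le hXM c1, ne_bot_of_le_ne_bot c3 le_sup_right, ⟨hX.1.sup c2,
    hB (sup_le hXM c1), fun x hx hy => ?_⟩, dec_alt (A := B.compl₁₂ π τ - (B.compl₁₂ π τ).flip)
    ⟨hX.1.sup c2, fun g x hx y hy => ?_, fun x hx hy => ?_⟩ fun x => by simp⟩
  · obtain ⟨a, ha, b, hb, rfl⟩ := Submodule.mem_sup.1 hx
    obtain rfl := Submodule.disjoint_def.1 c4 b hb fun y hy' => by
      simpa [h1 ha y hy'] using hy y (Submodule.mem_sup_left hy')
    rw [add_zero] at hy ⊢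
    exact h2 a ha fun y hy' => hy y (Submodule.mem_sup_right hy')
  · obtain ⟨a, ha, b, hb, rfl⟩ := Submodule.mem_sup.1 hx
    obtain ⟨c, hc, d, hd, rfl⟩ := Submodule.mem_sup.1 hy
    rw [map_add (ρ g), map_add (ρ g), e _ (hX.1 g a ha) _ (c2 g b hb) _ (hX.1 g c hc) _
      (c2 g d hd), e a ha b hb c hc d hd, h.form g a (hXM ha) d (c1 hd),
      h.form g c (hXM hc) b (c1 hb)]
  · obtain ⟨a, ha, b, hb, rfl⟩ := Submodule.mem_sup.1 hx
    rw [h2 a ha fun d hd => by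
        simpa using (e a ha b hb 0 X.zero_mem d hd).symm.trans
          (hy (0 + d) (Submodule.add_mem_sup X.zero_mem hd)),
      Submodule.disjoint_def.1 c5 b hb fun c hc => by
        simpa using (e a ha b hb c hc 0 C.zero_mem).symm.trans
          (hy (c + 0) (Submodule.add_mem_sup hc C.zero_mem)),
      add_zero]

end H21.SD
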