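import Cfsg.Agent.H25.EF0

/-! The split case for `A₁₂` in dimension 27, I: linear algebra and covering lemmas. -/

set_option autoImplicit false
set_option linter.unusedSectionVars false

namespace H21.Spl

open Equiv Equiv.Perm Module H25.AW H25.EF Polynomial

section lin
variable {k V : Type*} [Field k] [AddCommGroup V] [Module k V] [FiniteDimensional k V]

theorem rn (f : End k V) (a : k) (U : Submodule k V) :
    finrank k U = finrank k (U ⊓ f.eigenspace a : Submodule k V) +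
      finrank k (U.map (f - algebraMap k (End k V) a)) := by
  have h1 := LinearMap.finrank_range_add_finrank_ker ((f - algebraMap k (End k V) a).domRestrict U)
  rw [LinearMap.range_domRestrict, LinearMap.ker_domRestrict, ← Submodule.finrank_map_subtype_eq,
    Submodule.map_comap_subtype] at h1
  rw [End.eigenspace_def, ← h1, add_comm]
  rfl

theorem sub_map (f : End k V) {a b : k} (h : b ≠ a) (U : Submodule k V) :
    U ⊓ f.eigenspace b ≤ U.map (f - algebraMap k (End k V) a) ⊓ f.eigenspace b := fun v hv =>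
  ⟨⟨(b - a)⁻¹ • v, U.smul_mem _ hv.1, by
    rw [map_smul, LinearMap.sub_apply, End.mem_eigenspace_iff.1 hv.2, Module.algebraMap_end_apply,
      ← sub_smul, smul_smul, inv_mul_cancel₀ (sub_ne_zero.2 h), one_smul]⟩, hv.2⟩

theorem two (f : End k V) {a b : k} (h : b ≠ a) (U : Submodule k V) :
    finrank k (U ⊓ f.eigenspace a : Submodule k V) + finrank k (U ⊓ f.eigenspace b : Submodule k V) ≤
      finrank k U := by
  have h1 := rn f a U
  have h2 := Submodule.finrank_mono ((sub_map f h U).trans inf_le_left)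
  omega

theorem three (f : End k V) {a b c : k} (h1 : b ≠ a) (h2 : c ≠ a) (h3 : c ≠ b) (U : Submodule k V) :
    finrank k (U ⊓ f.eigenspace a : Submodule k V) + finrank k (U ⊓ f.eigenspace b : Submodule k V) +
      finrank k (U ⊓ f.eigenspace c : Submodule k V) ≤ finrank k U := by
  have a1 := rn f a U
  have a2 := two f h3 (U.map (f - algebraMap k (End k V) a))
  have a3 := Submodule.finrank_mono (sub_map f h1 U)
  have a4 := Submodule.finrank_mono (sub_map f h2 U)
  omega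

theorem dim_le (f : End k V) (a : ℕ → k) (n : ℕ) : ∀ U : Submodule k V, (∀ v ∈ U, f v ∈ U) →
    (∀ v ∈ U, aeval f (∏ i ∈ Finset.range n, (X - C (a i))) v = 0) →
    finrank k U ≤ ∑ i ∈ Finset.range n, finrank k (U ⊓ f.eigenspace (a i) : Submodule k V) := by
  induction n with
  | zero =>
    intro U _ h
    have : U = ⊥ := (Submodule.eq_bot_iff _).2 fun v hv => by simpa using h v hv
    simp [this]
  | succ n ih =>
    intro U hU h
    have h0 : U.map (f - algebraMap k (End k V) (a n)) ≤ U := by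
      rintro _ ⟨v, hv, rfl⟩
      exact U.sub_mem (hU v hv) (U.smul_mem _ hv)
    have h1 := ih (U.map (f - algebraMap k (End k V) (a n))) (by
      rintro _ ⟨v, hv, rfl⟩
      exact ⟨f v, hU v hv, by simp⟩) (by
      rintro _ ⟨v, hv, rfl⟩
      have := h v hv
      rwa [Finset.prod_range_succ, map_mul, End.mul_apply, map_sub, aeval_X, aeval_C] at this)
    have h2 := Finset.sum_le_sum (s := Finset.range n) fun i _ =>
      Submodule.finrank_mono (inf_le_inf_right (f.eigenspace (a i)) h0)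
    rw [Finset.sum_range_succ, rn f (a n) U]
    omega

theorem dim_le5 (f : End k V) (hf : f ^ 5 = 1) {ω : k} (hω : IsPrimitiveRoot ω 5) (U : Submodule k V)
    (hU : ∀ v ∈ U, f v ∈ U) {a b : ℕ} (h1 : finrank k (f.eigenspace 1 ⊓ U : Submodule k V) ≤ a)
    (h2 : ∀ ζ : k, ζ ^ 5 = 1 → ζ ≠ 1 → finrank k (f.eigenspace ζ ⊓ U : Submodule k V) ≤ b) :
    finrank k U ≤ a + 4 * b := by
  have h3 := dim_le f (fun i => ω ^ i * 1) 5 U hU fun v _ => by
    rw [← X_pow_sub_C_eq_prod hω (by norm_num) (one_pow 5), map_sub, map_pow, aeval_X, aeval_C, hf,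
      map_one, sub_self, LinearMap.zero_apply]
  have h4 : ∀ i, 0 < i → i < 5 → finrank k (U ⊓ f.eigenspace (ω ^ i * 1) : Submodule k V) ≤ b :=
    fun i a1 a2 => by
      rw [inf_comm, mul_one]
      exact h2 _ (by rw [← pow_mul, mul_comm, pow_mul, hω.pow_eq_one, one_pow])
        (hω.pow_ne_one_of_pos_of_lt a1.ne' a2)
  simp only [Finset.sum_range_succ, Finset.range_zero, Finset.sum_empty] at h3
  rw [pow_zero, mul_one, inf_comm] at h3
  have := h4 1 (by omega) (by omega)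
  have := h4 2 (by omega) (by omega)
  have := h4 3 (by omega) (by omega)
  have := h4 4 (by omega) (by omega)
  omega

variable {X : Type*} [Group X] {ρ : X →* End k V}

theorem sw {A B : Submodule k V} (u : X) (h : ∀ v ∈ A, ρ u v ∈ B) : finrank k A ≤ finrank k B :=
  LinearMap.finrank_le_finrank_of_injective (f := (ρ u).restrict h) fun a b e =>
    Subtype.ext (by
      rw [← rho_inv (ρ := ρ) u a.1, ← rho_inv (ρ := ρ) u b.1]; exact congrArg (fun z => ρ u⁻¹ z.1) e)

theorem sw2 {D t u : X} (h1 : Commute u D) (h2 : u * t * u⁻¹ = t ^ 2) (ζ η : k) :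
    finrank k ((ρ D).eigenspace ζ ⊓ (ρ t).eigenspace η : Submodule k V) ≤
      finrank k ((ρ D).eigenspace ζ ⊓ (ρ t).eigenspace (η ^ 2) : Submodule k V) :=
  sw u⁻¹ fun _ hv => ⟨eig_inv h1.inv_left hv.1,
    End.mem_eigenspace_iff.2 (conj_eig h2 (End.mem_eigenspace_iff.1 hv.2))⟩

theorem kl3 [IsAlgClosed k] (h2 : (2 : k) ≠ 0) {x y : X} (hx : x ^ 3 = 1) (hy : y ^ 3 = 1)
    (hz : (x * y) ^ 2 = 1) (h0 : Wr ρ (x * y) ≠ ⊥) : 3 ≤ finrank k V := by
  have e : (x * y * x⁻¹) ^ 3 = 1 := by rw [conj_pow, hy]; simp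
  have a1 : x * (x * (x * y) * x⁻¹) * x⁻¹ * (x * (x * y) * x⁻¹) * (x * y) = 1 := by
    calc _ = x * x * (x * y * x⁻¹) ^ 3 * x := by simp only [pow_succ]; group
      _ = 1 := by rw [e, mul_one, ← hx]; simp only [pow_succ, pow_zero, one_mul]
  have a2 : x * (x * (x * (x * y) * x⁻¹) * x⁻¹) * x⁻¹ = x * y := by
    calc _ = x ^ 3 * (x * y) * (x ^ 3)⁻¹ := by
          simp only [pow_succ, pow_zero, one_mul, mul_inv_rev, mul_assoc]
      _ = _ := by rw [hx]; group
  generalize x * y = w at *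
  have b1 : (x * w * x⁻¹) ^ 2 = 1 := by rw [conj_pow, hz]; simp
  have b2 : (x * (x * w * x⁻¹) * x⁻¹) ^ 2 = 1 := by rw [conj_pow, b1]; simp
  have i : ∀ {z : X}, z ^ 2 = 1 → z⁻¹ = z := fun h => inv_eq_of_mul_eq_one_left (by rwa [← pow_two])
  have b3 : w * (x * w * x⁻¹) = x * (x * w * x⁻¹) * x⁻¹ := by
    rw [mul_assoc, mul_eq_one_iff_eq_inv, mul_inv_rev, i hz, i b1] at a1
    exact a1.symm
  have b4 : Commute w (x * w * x⁻¹) := by
    have := i b2
    rw [← b3, mul_inv_rev, i hz, i b1] at this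
    exact this.symm
  exact le_add_self.trans (klein h2 hz b1 b3 b4 rfl rfl a2 h0)

theorem kl4 [IsAlgClosed k] (h2 : (2 : k) ≠ 0) {x y D t : X} (hx : x ^ 3 = 1) (hy : y ^ 3 = 1)
    (hz : (x * y) ^ 2 = 1) (c1 : Commute x D) (c2 : Commute y D) (c3 : Commute x t) (c4 : Commute y t)
    (c5 : Commute t D) (ht : t ^ 3 = 1) {ζ : k} (h0 : ¬ (ρ D).eigenspace ζ ≤ Fx ρ (x * y)) :
    ∃ η : k, η ^ 3 = 1 ∧
      3 ≤ finrank k ((ρ D).eigenspace ζ ⊓ (ρ t).eigenspace η : Submodule k V) := by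
  obtain ⟨χ, v, v1, v0, hv⟩ := exists_wt' (ρ := ρ) (fun _ : Unit => t) (fun _ _ => Commute.refl t)
    ((ρ D).eigenspace ζ ⊓ Wr ρ (x * y)) (fun e => h0 fun v hv => by
      have : ρ (x * y) v - v ∈ (ρ D).eigenspace ζ ⊓ Wr ρ (x * y) :=
        ⟨Submodule.sub_mem _ (eig_inv (c1.mul_left c2) hv) hv, sub_mem_Wr _ _⟩
      exact mem_Fx.2 (sub_eq_zero.1 ((Submodule.mem_bot k).1 (e ▸ this))))
    fun _ v hv => ⟨eig_inv c5 hv.1, Wr_comm (c3.mul_left c4).symm hv.2⟩
  refine ⟨χ (), pow_eq_one_of (by rw [← map_pow, ht, map_one]) v0 (hv ()), ?_⟩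
  let C := Subgroup.centralizer ({D} : Set X) ⊓ Subgroup.centralizer ({t} : Set X)
  have m : ∀ {z : X}, z ∈ C ↔ Commute z D ∧ Commute z t := fun {z} => by
    simp only [C, Subgroup.mem_inf, Subgroup.mem_centralizer_singleton_iff]
    rfl
  refine kl3 (ρ := Representation.subrepresentation (ρ.comp C.subtype)
    ((ρ D).eigenspace ζ ⊓ (ρ t).eigenspace (χ ())) fun z v hv =>
      ⟨eig_inv (m.1 z.2).1 hv.1, eig_inv (m.1 z.2).2 hv.2⟩) h2 (x := ⟨x, m.2 ⟨c1, c3⟩⟩)
    (y := ⟨y, m.2 ⟨c2, c4⟩⟩) (Subtype.ext hx) (Subtype.ext hy) (Subtype.ext hz) fun e => ?_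
  have a1 := (Submodule.eq_bot_iff _).1 e _
    (sub_mem_Wr _ ⟨v, v1.1, End.mem_eigenspace_iff.2 (hv ())⟩)
  have a2 : ρ (x * y) v - v = 0 := congrArg Subtype.val a1
  rw [Wr_neg hz v1.2] at a2
  refine v0 ((smul_eq_zero.1 (?_ : (2 : k) • v = 0)).resolve_left h2)
  linear_combination (norm := module) -a2

end lin

end H21.Spl
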