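import Cfsg.Agent.H21.Spl1

/-! The split case for `A₁₂` in dimension 27, II. -/

set_option autoImplicit false
set_option linter.unusedSectionVars false

namespace H21.Spl

open Equiv Equiv.Perm Module H25.AW H25.EF

universe u

variable {k V : Type} {X : Type u} [Field k] [IsAlgClosed k] [AddCommGroup V] [Module k V]
  [FiniteDimensional k V] [Group X] [Finite X] {ρ : X →* End k V} {φ : X →* Perm (Fin 12)}

/-- the pointwise stabilizer acts on `U` through commuting operators -/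
def CM (ρ : X →* End k V) (φ : X →* Perm (Fin 12)) (S : Finset (Fin 12)) (U : Submodule k V) : Prop :=
  ∀ y ∈ fixS φ S, ∀ y' ∈ fixS φ S, ∀ v ∈ U, ρ y (ρ y' v) = ρ y' (ρ y v)

theorem cov (h : Hy φ) (ce : ∀ z, φ z = 1 → ∀ x, Commute z x) {S : Finset (Fin 12)}
    {U : Submodule k V} (hU : ∀ y ∈ fixS φ S, ∀ v ∈ U, ρ y v ∈ U) (h5 : 5 ≤ 12 - S.card) :
    (∀ y ∈ fixS φ S, U ≤ Fx ρ y → φ y = 1) ∨ CM ρ φ S U := by
  let σ := Representation.subrepresentation (ρ.comp (fixS φ S).subtype) U fun y => hU y y.2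
  have m : ∀ y : fixS φ S, y ∈ MonoidHom.ker σ ↔ U ≤ Fx ρ y := fun y =>
    ⟨fun e v hv => mem_Fx.2 (congrArg Subtype.val (congrArg (fun f : End k U => f ⟨v, hv⟩) e)),
      fun e => LinearMap.ext fun v => Subtype.ext (mem_Fx.1 (e v.2))⟩
  refine ((h.res S).nd (by rwa [card_compl', Fintype.card_fin]) (MonoidHom.ker σ)).imp
    (fun e y hy a => resS_eq_one (y := ⟨y, hy⟩) (e _ ((m _).2 a))) fun e y hy y' hy' v hv => ?_
  obtain ⟨x, hx, a1⟩ := e _ ((h.res S).sg ⟨y, hy⟩)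
  have a2 : φ ((x : X)⁻¹ * y) = 1 := resS_eq_one (y := x⁻¹ * ⟨y, hy⟩) (by
    rw [map_mul, map_inv, a1, inv_mul_cancel])
  have a3 : (x : X)⁻¹ * y ∈ fixS φ S := (x⁻¹ * ⟨y, hy⟩ : fixS φ S).2
  have a4 : ∀ w ∈ U, ρ y w = ρ ((x : X)⁻¹ * y) w := fun w hw => by
    rw [← mem_Fx.1 ((m x).1 hx (hU _ a3 w hw)), rho_mul, mul_inv_cancel_left]
  rw [a4 _ hv, a4 _ (hU _ hy' v hv), rho_mul, rho_mul, (ce _ a2 y').eq]

theorem CM.triv {S : Finset (Fin 12)} {U : Submodule k V} (h : CM ρ φ S U)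
    (hU : ∀ y ∈ fixS φ S, ∀ v ∈ U, ρ y v ∈ U) {g D : X} (hg : g ∈ fixS φ S) (hD : D ∈ fixS φ S)
    (e : g * D * g⁻¹ = D ^ 2) : U ≤ Fx ρ D := fun v hv => by
  have a := h g hg D hD _ (hU _ ((fixS φ S).inv_mem hg) v hv)
  rw [rho_inv', rho_mul, rho_mul, e, pow_two, ← rho_mul] at a
  rw [mem_Fx, ← rho_inv (ρ := ρ) D (ρ D v), a, rho_inv]

theorem big (h : Hy φ) {S : Finset (Fin 12)} {U : Submodule k V}
    (hU : ∀ y ∈ fixS φ S, ∀ v ∈ U, ρ y v ∈ U) (h3 : S.card = 3) (h9 : (3 : k) ≠ 0)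
    (e : ∀ y ∈ fixS φ S, U ≤ Fx ρ y → φ y = 1) : 8 ≤ finrank k U := by
  have c : Fintype.card {a // a ∉ S} = 9 := by rw [card_compl', Fintype.card_fin, h3]
  have := (bd _ k U _ _ (Representation.subrepresentation (ρ.comp (fixS φ S).subtype) U
    fun y => hU y y.2) _ (h.res S) (fun y hy => Equiv.ext fun a => Subtype.ext (by
      show φ y a = a
      rw [e y y.2 fun v hv => mem_Fx.2 (congrArg Subtype.val
        (congrArg (fun f : End k U => f ⟨v, hv⟩) hy)), one_apply])) c.ge rfl).2 (by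
    rw [c]; intro e; exact h9 (pow_eq_zero_iff two_ne_zero |>.1 (by rw [← e]; norm_num)))
  omega

theorem sq_of (ce : ∀ z, φ z = 1 → ∀ x, Commute z x) {m : ℕ} (hm : Odd m) {t u : X} {c g : Perm (Fin 12)}
    (hs : St φ c) (h : Lf φ m t c) (hu : φ u = g) (e : g * c * g⁻¹ = c ^ 2) : u * t * u⁻¹ = t ^ 2 := by
  have := Lf.conj_eq ce hm (u := u⁻¹) hs h (h.pow 2) (by rw [map_inv, inv_inv, hu, ← e]; group)
  rw [inv_inv, mul_assoc, inv_mul_eq_iff_eq_mul] at this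
  rw [← this, mul_inv_cancel_right]

theorem five (h : Hy φ) (ce : ∀ z, φ z = 1 → ∀ x, Commute z x) (γ g : Perm (Fin 12))
    (h1 : γ ^ 5 = 1 ∧ γ.support.card = 5 ∧ sign γ = 1 ∧ sign g = 1 ∧ g * γ * g⁻¹ = γ ^ 2 ∧
      (g * g) * γ * (g * g)⁻¹ = γ⁻¹) :
    ∃ D G, φ D = γ ∧ φ G = g ∧ D ≠ 1 ∧ D ^ 5 = 1 ∧ G * D * G⁻¹ = D ^ 2 ∧
      ∀ y, Commute (φ y) γ → Commute y D := by
  obtain ⟨a1, a2, a3, a4, a5, a6⟩ := h1
  haveI := Fact.mk Nat.prime_five
  have b0 : γ ≠ 1 := fun e => by simp [e] at a2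
  have b1 : orderOf γ = 5 := orderOf_eq_prime a1 b0
  have st := h.st ce (isCycle_of_prime_order (b1 ▸ Nat.prime_five) (by omega)) a1
    (Or.inl (by rw [a2, Fintype.card_fin]; omega))
  obtain ⟨D, hD⟩ := h.exists_lf ce (m := 5) (by decide) a3 a1 (g := g * g)
    (by rw [Perm.sign_mul, a4, mul_one]) a6
  obtain ⟨G, hG⟩ := h.sj g a4
  exact ⟨D, G, hD.eq, hG, fun e => b0 (by rw [← hD.eq, e, map_one]), hD.pw,
    sq_of ce (by decide) st hD hG a5, fun y => st D y hD.eq⟩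

/-- the 5-cycle `a → b → c → d → e → a` -/
def c5 (a b c d e : Fin 12) : Perm (Fin 12) := swap a e * swap a d * swap a c * swap a b

theorem mem_fix {y : X} {σ : Perm (Fin 12)} {S : Finset (Fin 12)} (e : φ y = σ)
    (h : ∀ a ∈ S, σ a = a) : y ∈ fixS φ S := fun a ha => e ▸ h a ha

theorem split (h : Hy φ) (ce : ∀ z, φ z = 1 → ∀ x, Commute z x) (inj : ∀ x, ρ x = 1 → x = 1)
    (hV : finrank k V = 27) (h5 : H5 ρ) (c30 : (30 : k) ≠ 0) (T : Fin 12 → Fin 12 → Fin 12 → X)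
    (lf : ∀ a b c, D3 a b c → Lf φ 3 (T a b c) (c3 a b c)) (hz : (T 0 1 2 * T 0 1 3) ^ 2 = 1) :
    False := by
  have n2 : (2 : k) ≠ 0 := fun e => c30 (by linear_combination 15 * e)
  have n3 : (3 : k) ≠ 0 := fun e => c30 (by linear_combination 10 * e)
  have n5 : (5 : k) ≠ 0 := fun e => c30 (by linear_combination 6 * e)
  haveI : NeZero ((5 : ℕ) : k) := ⟨by simpa using n5⟩
  obtain ⟨ω, hω⟩ := HasEnoughRootsOfUnity.exists_primitiveRoot k 5
  obtain ⟨D, G, d1, d2, d3, d4, d5, d6⟩ := five h ce (c5 4 5 6 7 8)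
    (swap 5 7 * swap 5 8 * swap 5 6 * swap 0 1) (by decide +kernel)
  obtain ⟨D', G', e1, e2, e3, e4, e5, -⟩ := five h ce (c5 0 1 2 3 9)
    (swap 1 3 * swap 1 9 * swap 1 2 * swap 10 11) (by decide +kernel)
  have lx := lf 0 1 2 (by decide)
  have ly := lf 0 1 3 (by decide)
  have lt := lf 9 10 11 (by decide)
  generalize T 0 1 2 = x at *
  generalize T 0 1 3 = y at *
  generalize T 9 10 11 = t at *
  have dt : D3 (9 : Fin 12) 10 11 := by decide
  have st : St φ (c3 9 10 11) := h.st ce (c3_three dt).isCycle (c3_pow dt)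
    (Or.inl (by rw [(c3_three dt).card_support, Fintype.card_fin]; omega))
  obtain ⟨u, hu⟩ := h.sj (swap 10 11 * swap 0 1) (by decide +kernel)
  have ut : u * t * u⁻¹ = t ^ 2 := sq_of ce (by decide) st lt hu (by decide +kernel)
  have iU : ∀ ζ : k, ∀ z ∈ fixS φ (c5 4 5 6 7 8).support, ∀ v ∈ (ρ D).eigenspace ζ,
      ρ z v ∈ (ρ D).eigenspace ζ := fun ζ z hz v hv => eig_inv (d6 z (comm_fixS hz)) hv
  have iE : ∀ η : k, ∀ z ∈ fixS φ (c3 9 10 11).support, ∀ v ∈ (ρ t).eigenspace η,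
      ρ z v ∈ (ρ t).eigenspace η := fun η z hz v hv => eig_inv (st t z lt.eq (comm_fixS hz)) hv
  have fx : x ∈ fixS φ (c5 4 5 6 7 8).support := mem_fix lx.eq (by decide +kernel)
  have fy : y ∈ fixS φ (c5 4 5 6 7 8).support := mem_fix ly.eq (by decide +kernel)
  have ft : t ∈ fixS φ (c5 4 5 6 7 8).support := mem_fix lt.eq (by decide +kernel)
  have fu : u ∈ fixS φ (c5 4 5 6 7 8).support := mem_fix hu (by decide +kernel)
  have tD := d6 t (comm_fixS ft)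
  have cv := fun ζ : k => cov h ce (iU ζ) (by decide +kernel)
  obtain ⟨q1, q2⟩ := h5 D G d3 d4 d5
  have k1 : ∀ ζ η : k, η ^ 3 = 1 → η ≠ 1 →
      finrank k ((ρ D).eigenspace ζ ⊓ (ρ t).eigenspace 1 : Submodule k V) +
        2 * finrank k ((ρ D).eigenspace ζ ⊓ (ρ t).eigenspace η : Submodule k V) ≤
          finrank k ((ρ D).eigenspace ζ) := fun ζ η a1 a2 => by
    have hp := prim_of Nat.prime_three a1 a2
    have b1 := three (ρ t) a2 (hp.pow_ne_one_of_pos_of_lt two_ne_zero (by norm_num))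
      (fun e => absurd (hp.pow_inj (i := 2) (j := 1) (by norm_num) (by norm_num)
        (by rw [e, pow_one])) (by norm_num)) ((ρ D).eigenspace ζ)
    have b2 := sw2 (ρ := ρ) (d6 u (comm_fixS fu)) ut ζ η
    omega
  have k2 : ∀ η : k, η ^ 3 = 1 → η ≠ 1 → ∀ ζ : k, ζ ^ 5 = 1 → ζ ≠ 1 →
      finrank k ((ρ D).eigenspace ζ ⊓ (ρ t).eigenspace η : Submodule k V) ≤ 1 := fun η a1 a2 ζ a3 a4 => by
    rcases cv ζ with e | e
    · obtain ⟨η', b1, b2⟩ := kl4 (ρ := ρ) n2 lx.pw ly.pw hz (d6 x (comm_fixS fx)) (d6 y (comm_fixS fy))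
        (st t x lt.eq (comm_fixS (mem_fix lx.eq (by decide +kernel))))
        (st t y lt.eq (comm_fixS (mem_fix ly.eq (by decide +kernel))))
        tD lt.pw (ζ := ζ) fun e' => absurd (e _ ((fixS φ _).mul_mem fx fy) e') (by
          rw [map_mul, lx.eq, ly.eq]; decide +kernel)
      have b3 := q2 ζ a3 a4
      by_cases b4 : η' = 1
      · have := k1 ζ η a1 a2
        subst b4
        omega
      · have := k1 ζ η' b1 b4
        omega
    · have : ((ρ D).eigenspace ζ ⊓ (ρ t).eigenspace η : Submodule k V) = ⊥ :=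
        (Submodule.eq_bot_iff _).2 fun v hv => by
          have b1 := mem_Fx.1 (e.triv (iU ζ) fu ft ut hv.1)
          rw [End.mem_eigenspace_iff.1 hv.2] at b1
          refine (smul_eq_zero.1 (?_ : (η - 1) • v = 0)).resolve_left (sub_ne_zero.2 a2)
          rw [sub_smul, b1, one_smul, sub_self]
      rw [this, finrank_bot]
      exact zero_le_one
  have k3 : ∀ η : k, η ^ 3 = 1 → η ≠ 1 → (ρ t).eigenspace η ≤ Fx ρ D := fun η a1 a2 => by
    have b1 := dim_le5 (ρ D) (by rw [← map_pow, d4, map_one]) hω ((ρ t).eigenspace η)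
      (fun v hv => eig_inv tD.symm hv) (a := 3) (by have := k1 1 η a1 a2; omega) (k2 η a1 a2)
    refine ((cov h ce (iE η) (by decide +kernel)).resolve_left fun e => ?_).triv (iE η)
      (mem_fix d2 (by decide +kernel)) (mem_fix d1 (by decide +kernel)) d5
    have := big h (iE η) (c3_three dt).card_support n3 e
    omega
  have k4 : ∀ ζ : k, ζ ≠ 1 → (ρ D).eigenspace ζ ≤ (ρ D').eigenspace 1 := fun ζ a1 => by
    have b1 : (ρ D).eigenspace ζ ≤ Fx ρ t := by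
      by_contra h0
      obtain ⟨χ, v, v1, v0, hv⟩ := exists_wt' (ρ := ρ) (fun _ : Unit => t)
        (fun _ _ => Commute.refl t) ((ρ D).eigenspace ζ ⊓ Wr ρ t) (fun e => h0 fun v hv => by
          have : ρ t v - v ∈ (ρ D).eigenspace ζ ⊓ Wr ρ t :=
            ⟨Submodule.sub_mem _ (eig_inv tD hv) hv, sub_mem_Wr _ _⟩
          exact mem_Fx.2 (sub_eq_zero.1 ((Submodule.mem_bot k).1 (e ▸ this))))
        fun _ v hv => ⟨eig_inv tD hv.1, Wr_comm (Commute.refl t) hv.2⟩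
      obtain ⟨c1, c2⟩ := ne_one_of (s := 3) (by simpa using n3) lt.pw v0 v1.2 (hv ())
      have c3 := mem_Fx.1 (k3 _ c1 c2 (End.mem_eigenspace_iff.2 (hv ())))
      rw [End.mem_eigenspace_iff.1 v1.1] at c3
      refine v0 ((smul_eq_zero.1 (?_ : (ζ - 1) • v = 0)).resolve_left (sub_ne_zero.2 a1))
      rw [sub_smul, c3, one_smul, sub_self]
    have b2 := ((cv ζ).resolve_left fun e => absurd (e t ft b1) (by
      rw [lt.eq]; decide +kernel)).triv (iU ζ) (mem_fix e2 (by decide +kernel))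
      (mem_fix e1 (by decide +kernel)) e5
    exact fun v hv => End.mem_eigenspace_iff.2 (by rw [mem_Fx.1 (b2 hv), one_smul])
  have w1 : ω ≠ 1 := hω.ne_one (by norm_num)
  have w2 : ω ^ 2 ≠ 1 := hω.pow_ne_one_of_pos_of_lt two_ne_zero (by norm_num)
  have r1 := two (ρ D) (a := ω) (b := ω ^ 2) (fun e => absurd (hω.pow_inj (i := 2) (j := 1)
    (by norm_num) (by norm_num) (by rw [e, pow_one])) (by norm_num)) ((ρ D').eigenspace 1)
  rw [inf_eq_right.2 (k4 _ w1), inf_eq_right.2 (k4 _ w2), q2 ω hω.pow_eq_one w1,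
    q2 _ (by rw [← pow_mul, mul_comm, pow_mul, hω.pow_eq_one, one_pow]) w2] at r1
  have := (h5 D' G' e3 e4 e5).1
  omega

end H21.Spl
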