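/-
Fully ramified characters under a cyclic Frobenius action.
-/
import Cfsg.Agent.H21.Trip3
import Cfsg.Agent.H21.Glau3

set_option autoImplicit false
set_option linter.unusedSectionVars false
open H17 Cfsg H15 CF
open scoped ComplexConjugate

namespace H21

universe u
variable {G : Type u} [Group G] [Finite G] {L K N U V : Subgroup G} {θ χ : G → ℂ}

theorem over_eq_of_ram (hNK : N ≤ K) (hχ : χ ∈ Irr K) {e : ℂ} (he : Ind K N θ = e • χ) {ψ : G → ℂ}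
    (hψ : ψ ∈ IrrO K N θ) : ψ = χ := by
  obtain ⟨h1, h2⟩ := (mem_over' hNK).1 hψ
  rw [he, dot_smul_left] at h2
  exact (irr_eq_of_dot_ne hχ h1 (right_ne_zero_of_mul h2)).symm

open FT in
theorem ram_frob [hK : K.Normal] [hN : N.Normal] (hNK : N < K) (hlt : K ≠ ⊤) (hc : IsCyclic (G ⧸ K))
    (hf : ∀ x, x ∉ K → ∀ g ∈ K, x * g * x⁻¹ * g⁻¹ ∈ N → g ∈ N) (hθ : θ ∈ Irr N) (hi : ⊤ ≤ stab θ)
    (hχ : χ ∈ Irr K) {e : ℕ} (he : Ind K N θ = (e : ℂ) • χ) :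
    (K.index : ℤ) ∣ (e : ℤ) - 1 ∨ (K.index : ℤ) ∣ (e : ℤ) + 1 := by
  obtain ⟨Δ, Q, _, _, _, _, f, ρ, lam, Ψ, h, hm⟩ := exists_trip hNK.le le_top (top_le_norm N)
    (top_le_norm K) hθ hi
  have hfr : ∀ x, x ∉ img f K → ∀ y ∈ img f K, x * y = y * x → y = 1 := fun x hx y hy e => by
    obtain ⟨x, rfl⟩ := h.fsurj x
    obtain ⟨y, rfl⟩ := h.fsurj y
    rw [h.mem_img hNK.le] at hx hy
    refine (h.f_eq_one _).2 (hf x hx y hy ((h.f_eq_one (x * y * x⁻¹ * y⁻¹)).1 ?_))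
    simp [e]
  have hc1 : K.index.Coprime (N.relIndex K) := by
    have := (frobK_of_cent1 (K := img f K) (M := img f ⊤) (fun e => hNK.not_ge
      (h.ker ▸ (H18.img_eq_bot f le_top).1 e)) (lt_of_le_of_ne (img_mono f le_top) fun e => hlt
        (eq_top_iff.2 fun g hg => (h.mem_img hNK.le ⟨g, hg⟩).1 (e ▸ apply_mem_img f hg)))
      (img_le_norm f (top_le_norm K)) fun y hy h1 x hx => by
        by_contra hx'
        exact h1 (hfr x hx' y hy (mem_cent1.1 hx.2))).coprime_idx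
    rw [relIndex_img f le_top le_rfl (inf_le_right.trans (h.ker.le.trans hNK.le)),
      Subgroup.relIndex_top_right, H18.card_img f le_top, h.ker] at this
    exact this.symm
  have hn : ⊤ ≤ 𝒩(up f ρ K) := h.up_L ▸ up_le_norm (top_le_norm K)
  have hidx : (up f ρ K).relIndex ⊤ = K.index := by
    rw [← h.up_L, h.relIndex_up hNK.le le_top le_rfl, Subgroup.relIndex_top_right]
  obtain ⟨S, hS⟩ := exists_compl le_top hn (hidx ▸ (hm _ hc1).symm)
  have hcS : Nat.card S = K.index := by rw [← hS.relIndex1, hidx]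
  have hco : (Nat.card (up f ρ K)).Coprime (Nat.card S) := hcS ▸ (hm _ hc1).symm
  obtain ⟨s, hs⟩ : ∃ s, Subgroup.zpowers s = S := by
    obtain ⟨g, hg⟩ := hc.exists_generator
    obtain ⟨g, rfl⟩ := QuotientGroup.mk_surjective g
    obtain ⟨d, e⟩ := h.exists_lift' ⟨g, Subgroup.mem_top g⟩
    obtain ⟨a, ha, s, hs, rfl⟩ := hS.decomp (Subgroup.mem_top d)
    refine ⟨s, le_antisymm (Subgroup.zpowers_le.2 hs) fun t ht => ?_⟩
    obtain ⟨x, e'⟩ := h.exists_lift t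
    obtain ⟨k, hk⟩ := hg (x : G)
    haveI : (up f ρ K).Normal := Subgroup.normalizer_eq_top_iff.1 (top_le_iff.1 hn)
    have a1 : ((a * s) ^ k)⁻¹ * t ∈ up f ρ K := (h.mem_up hNK.le (g := (⟨g, Subgroup.mem_top g⟩ ^ k)⁻¹ * x)
      (by simp only [map_mul f, map_mul ρ _ t, map_inv, map_zpow, e, e'])).2 (QuotientGroup.eq.1 (show ((g ^ k : G) : G ⧸ K) = _ from hk))
    have a2 : (s ^ k)⁻¹ * t ∈ up f ρ K := by
      rw [← QuotientGroup.eq] at a1 ⊢
      rwa [QuotientGroup.mk_zpow, QuotientGroup.mk_mul, (QuotientGroup.eq_one_iff a).2 ha, one_mul,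
        ← QuotientGroup.mk_zpow] at a1
    have a3 := hS.eq_one a2 (S.mul_mem (S.inv_mem (S.zpow_mem hs k)) ht)
    exact ⟨k, inv_mul_eq_one.1 a3⟩
  have hd : dot N χ θ = e := by
    rw [← dot_Ind_right hNK.le θ (irr_cf hχ), he, dot_natCast_smul_right, dot_irr_self hχ, mul_one]
  have he0 : (e : ℂ) ≠ 0 := fun e0 => Ind_irr_ne_zero hNK.le hθ (by rw [he, e0, zero_smul])
  have hχ' := mem_over.2 ⟨hχ, hd ▸ he0⟩
  obtain ⟨β, hβ, rfl⟩ := h.surj K hNK.le le_rfl χ hχ'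
  rw [h.dot_base hθ (h.eqv (ker_le_up K) hβ)] at hd
  have hst : up f ρ K ⊔ S ≤ stab β := fun d _ => by
    obtain ⟨g, e⟩ := h.exists_lift d
    exact (h.mem_stab hNK.le le_rfl hβ e (top_le_norm K g.2)).1 (over_eq_of_ram hNK.le hχ he
      (cfj_mem_over (top_le_norm K g.2) (top_le_norm N g.2) (hi g.2) hχ'))
  have hn' := le_top.trans hn (a := S)
  obtain ⟨ξ, h1, h2⟩ := exists_canon le_sup_left (sup_le_norm hn') (coprime_relIndex_sup hn' hco)
    (mem_over.1 hβ).1 hst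
  have hC : ∀ x ∈ S, x ≠ 1 → up f ρ K ⊓ 𝒞₁(x) = ρ.ker := fun x hx hx1 =>
    le_antisymm (fun y hy => hfr (ρ x) (fun a => hx1 (hS.eq_one a hx)) (ρ y) hy.1 (by
      rw [← map_mul, ← map_mul, mem_cent1.1 hy.2])) (le_inf (ker_le_up K) fun z hz =>
        mem_cent1.2 (Subgroup.mem_center_iff.1 (h.cent hz) x).symm)
  have hS1 : S ≠ ⊥ := fun e => hlt (Subgroup.index_eq_one.1 (by rw [← hcS, e, Subgroup.card_bot]))
  have hs1 : s ≠ 1 := fun e => hS1 (by rw [← hs, e, Subgroup.zpowers_one_eq_bot])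
  have hsS : s ∈ S := hs ▸ Subgroup.mem_zpowers s
  obtain ⟨ε, hε, γ, hγ, e1⟩ := h1.exists_sign hn' hco hsS (hC s hsS hs1) (h.cent' S)
  obtain ⟨ε', hε', -, ϑ, hϑ, e2⟩ := h1.semiprime hn' hco hs hS1 hC hγ (by
    rw [e1, dot_smul_left, dot_irr_self hγ, mul_one]
    rcases hε with rfl | rfl <;> simp)
  obtain ⟨n, hn1⟩ := hϑ.exists_nat_one
  have e3 := congrFun e2 1
  rw [Res_one, ← Res_one (up f ρ K) ξ, h2, hd, Pi.add_apply, Pi.smul_apply, Pi.smul_apply, hn1,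
    irr_one_of_comm ⟨⟨fun a b => Subtype.ext (Subgroup.mem_center_iff.1 (h.cent b.2) a)⟩⟩ hγ, hcS,
    smul_eq_mul, smul_eq_mul, mul_one] at e3
  have e4 : (e : ℤ) = K.index * n + ε' := by exact_mod_cast e3
  rcases hε' with rfl | rfl
  · exact Or.inl ⟨n, by rw [e4]; ring⟩
  · exact Or.inr ⟨n, by rw [e4]; ring⟩

end H21
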