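import Cfsg.Agent.H26.Rv1

/-! An invariant alternating form in characteristic two is the polarisation of an invariant bilinear form. -/

set_option autoImplicit false

namespace H21.Two
open Cfsg H17 H19 H26Rv Subgroup

universe u

theorem half {k U : Type*} [Field k] [AddCommGroup U] [Module k U] [FiniteDimensional k U]
    (β : U →ₗ[k] U →ₗ[k] k) (h0 : ∀ x, β x x = 0) (hs : ∀ x y, β x y = β y x) :
    ∃ γ : U →ₗ[k] U →ₗ[k] k, ∀ x y, γ x y + γ y x = β x y := by
  let b := Module.finBasis k U
  let γ : U →ₗ[k] U →ₗ[k] k := b.constr k fun i => b.constr k fun j => if i < j then β (b i) (b j) else 0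
  refine ⟨γ, fun x y => ?_⟩
  have : γ + γ.flip = β := b.ext fun i => b.ext fun j => by
    simp only [γ, LinearMap.add_apply, LinearMap.flip_apply, Module.Basis.constr_basis]
    rcases lt_trichotomy i j with h | rfl | h
    · simp [h, h.not_gt]
    · simp [h0]
    · simp [h, h.not_gt, hs (b i)]
  exact congrArg (fun f => f x y) this

variable {p : ℕ} [Fact p.Prime] {H : Type u} [Group H] [Finite H] {O : ValuationSubring ℂ}

theorem two (hp : ¬ p ∣ Nat.card H) : TwoP p H := by
  intro h2 U _ _ _ ρ β hβ h0
  have := Fintype.ofFinite H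
  have : Module.Finite (ZMod p) U := Module.Finite.of_finite
  have c2 : ∀ a : ZMod p, a + a = 0 := by subst h2; exact CharTwo.add_self_eq_zero
  have hs : ∀ x y, β x y = β y x := fun x y => by
    have := h0 (x + y)
    simp only [map_add, LinearMap.add_apply, h0, zero_add, add_zero] at this
    rw [eq_neg_of_add_eq_zero_left this, neg_eq_of_add_eq_zero_left (c2 _)]
  obtain ⟨γ, hγ⟩ := half β h0 hs
  refine ⟨∑ h, γ.compl₁₂ (ρ h) (ρ h), fun g x y => ?_, fun x y => ?_⟩
  · simp only [LinearMap.sum_apply, LinearMap.compl₁₂_apply]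
    refine Fintype.sum_equiv (Equiv.mulRight g) _ _ fun h => ?_
    simp only [Equiv.coe_mulRight, map_mul, Module.End.mul_apply]
  · simp only [LinearMap.sum_apply, LinearMap.compl₁₂_apply]
    rw [← Finset.sum_add_distrib, Finset.sum_congr rfl fun h _ => (hγ _ _).trans (hβ h x y), Finset.sum_const,
      Finset.card_univ, ← Nat.card_eq_fintype_card]
    subst h2
    obtain ⟨m, hm⟩ := Nat.not_even_iff_odd.1 fun h => hp (even_iff_two_dvd.1 h)
    rw [hm, add_smul, mul_smul, two_smul, c2, one_smul, zero_add]

end H21.Two
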